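import Cfsg.Agent.OD.Pre
import Cfsg.Agent.H6.J1A
import Cfsg.Agent.H6.J1K
import Cfsg.Agent.H6.J1O
import Cfsg.Agent.H6.J1O
/-! An abstract presentation: order and simplicity. -/
set_option autoImplicit false
set_option maxRecDepth 100000
namespace CfH6.J1G
open CfH6 MulAction
attribute [local instance] J1A.act

theorem stab : J1A.H = stabilizer J1B.G 0 ∧ J1A.H.index = 1045 := J1A.stab J1O.covT0

theorem card : Nat.card J1B.G = 175560 := (J1A.top J1O.finG).1

theorem base : ∀ g : J1B.G, (∀ b ∈ J1A.bs, g • b = b) → g = 1 := (J1A.top J1O.finG).2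

theorem simple : IsSimpleGroup J1B.G := by
  have := J1O.finG.1
  refine simple_of stab.1 (by rw [stab.2]; decide) (J1A.hmax stab.1 stab.2) base J1A.hbs fun M hM h => ?_
  exact top_of_index (eq_top_of_collapse J1B.el (n := 4) J1B.hinv J1B.hrel J1B.htop M
    (pow_words J1B.el h (by norm_num) (not_dvd_card card stab.2 (by decide)) 1 J1A.ex (J1A.hex base))
    (by decide +kernel) 1 fun ev' h1 h2 => J1K.covers ev' ⊥ h1 h2 forall_nil)

theorem nprime : ¬ (Nat.card J1B.G).Prime := by rw [card]; norm_num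

end CfH6.J1G
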