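import Cfsg.Agent.OD.Pre
import Cfsg.Agent.H6.S16B
import Cfsg.Agent.H6.S16A.P0
set_option autoImplicit false
set_option maxRecDepth 100000
set_option Elab.async false
set_option linter.all false
namespace CfH6.S16A
open CfH6 MulAction
theorem eq0 : ∀ e ∈ eqs0, evw (lp nets0) e.1 = evw (lp nets0) e.2 :=
  EqsOk.sound (e0_0) ok0 (by decide)
theorem eqAll : ∀ e ∈ eqs, evw (lp nets0) e.1 = evw (lp nets0) e.2 := eq0
theorem hsd : (∀ x < 4, lp nets0 (S16B.il.getD x 0) = (lp nets0 x)⁻¹) ∧ ∀ r ∈ eqRels S16B.il sig eqs, evw (lp nets0) r = 1 :=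
  eqRels_sound (lp nets0) (k := 4) (by decide +kernel) eqAll
theorem exRho : ∃ ρ : S16B.G →* Equiv.Perm ℕ, ∀ x < 4, ρ (S16B.el x) = lp nets0 x :=
  S16B.hhom _ hsd.1 (follows_sound (n := 4) _ hsd.1 hsd.2 (by decide +kernel))
noncomputable def rho : S16B.G →* Equiv.Perm ℕ := Classical.choose exRho
@[reducible] noncomputable def act : MulAction S16B.G ℕ := MulAction.compHom ℕ rho
attribute [local instance] act
theorem L0 : Lvl 20 nets0 4 S16B.el := lvl0 rho ok0 (Classical.choose_spec exRho)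
noncomputable abbrev el1 : ℕ → S16B.G := byW S16B.el ws1
theorem L1 : Lvl 20 nets1 4 el1 := L0.next sx1 (x1_0)
noncomputable abbrev el2 : ℕ → S16B.G := byW el1 ws2
theorem L2 : Lvl 20 nets2 1 el2 := L1.next sx2 (x2_0)
noncomputable abbrev H : Subgroup S16B.G := gensub el1 4
theorem fix0 : H ≤ stabilizer S16B.G 0 := L1.fix' 0 (by decide +kernel)
theorem cU : (bitSet U).ncard = 17 := ncard_ivls lU _ (by decide +kernel)
theorem oi1 : OrbIn (gensub el1 4) 1 20 S1 :=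
  (L1.orbStep (OrbIn.one _ (by decide)) 8 S1 oi1_0)
theorem o1 : orbit H 1 = bitSet S1 := L1.orbEq oi1 ci1
theorem c1 : (bitSet S1).ncard = 16 := ncard_ivls l1 _ (by decide +kernel)
theorem hJ : ∀ j ∈ J, orbit H j.2.1 = bitSet j.2.2 := (forall_cons o1 forall_nil)
theorem subU : bitSet U ⊆ orbit (⊤ : Subgroup S16B.G) 0 := L0.sub_top J hJ U (by decide +kernel)
theorem q1 (hH : H = stabilizer S16B.G 0) : (orbit H ((evw S16B.el w1 : S16B.G) : S16B.G ⧸ H)).ncard = 16 :=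
  L0.quot hH w1 o1 c1 (by decide +kernel)
theorem orbTop : OrbGe (⊤ : Subgroup S16B.G) 0 17 := orbGe_of_sub subU cU
theorem stab (hc : Covers H ⊤ 17) : H = stabilizer S16B.G 0 ∧ H.index = 17 := stab_eq hc fix0 orbTop
theorem mx1 (hH : H = stabilizer S16B.G 0) (hN : H.index = 17) : Mx H S1 :=
  L0.mx hH hN w1 o1 J1 (forall_cons o1 forall_nil) lBig cm1
theorem hmax (hH : H = stabilizer S16B.G 0) (hN : H.index = 17) : ∀ L : Subgroup S16B.G, H ≤ L → L = H ∨ L = ⊤ :=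
  coatom_of hH (Mx.lorJ J (forall_cons (mx1 hH hN) forall_nil)) (orbit_sub_of_card hH hN (by decide) subU cU) (by decide +kernel)
theorem low2 : Low (gensub el2 1) [2] 15 :=
  (Low.cons bot_le bot_le (L2.orbGe 2 14 5 15 (by decide) (by decide) og2) (Low.nil ⊥)).cast (by decide)
theorem low1 : Low (gensub el1 4) [1, 2] 240 :=
  (Low.step' L2 (orbGe_of_eq o1 c1) (by decide +kernel) low2).cast (by decide)
theorem low0 : Low (gensub S16B.el 4) [0, 1, 2] 4080 :=
  (Low.step' L1 (S16B.htop ▸ orbTop) (by decide +kernel) low1).cast (by decide)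
def bs : List ℕ := [0, 1, 2]
theorem hbs : ∀ b ∈ bs, b ∈ orbit S16B.G 0 := base_mem subU bs (by decide +kernel)
theorem top (hf : Finite S16B.G ∧ Nat.card S16B.G ≤ 4080) : Nat.card S16B.G = 4080 ∧ ∀ g : S16B.G, (∀ b ∈ bs, g • b = b) → g = 1 := low0.top hf
theorem hex (hb : ∀ g : S16B.G, (∀ b ∈ bs, g • b = b) → g = 1) : ∀ w ∈ ex, evw S16B.el (wpow w (17 ^ 1)) = 1 := (forall_cons (L0.word_one hb _ pw0) forall_nil)
end CfH6.S16A
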