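import Cfsg.Agent.OD.Pre
import Cfsg.Agent.H6.S16B
import Cfsg.Agent.H6.S16T1
set_option autoImplicit false
set_option maxRecDepth 100000
set_option linter.all false
namespace CfH6.S16O
open CfH6
def s0 : List (List ℕ) := [[0], [1], [2], [3]]
def t0 : List (List ℕ) := []
theorem cov0 : Covers (gensub (byW S16B.el t0) 0) (gensub (byW S16B.el s0) 4) 4080 :=
  cov_step S16B.el S16B.hinv S16B.hrel s0 t0 0 4 (fun ev H => S16T1.covers ev H) (by decide +kernel)
theorem top0 : gensub (byW S16B.el s0) 4 = ⊤ := (gensub_id S16B.el (by decide)).trans S16B.htop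
theorem covT0 : Covers (gensub (byW S16B.el t0) 0) ⊤ 4080 := cov0.top top0
theorem finT0 : Finite (gensub (byW S16B.el t0) 0) ∧ Nat.card (gensub (byW S16B.el t0) 0) ≤ 1 := (gensub_zero _)
theorem fin0 : Finite (gensub (byW S16B.el s0) 4) ∧ Nat.card (gensub (byW S16B.el s0) 4) ≤ 4080 :=
  fin_cast (cov0.card_le finT0) (by decide)
theorem finG : Finite S16B.G ∧ Nat.card S16B.G ≤ 4080 := fin_top (top0 ▸ fin0)
end CfH6.S16O
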