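import Cfsg.Agent.OD.Pre
import Cfsg.Agent.H6.S16B
import Cfsg.Agent.H6.S16T2
set_option autoImplicit false
set_option maxRecDepth 100000
set_option linter.all false
namespace CfH6.S16O2
open CfH6
def s0 : List (List ℕ) := [[0], [1], [2], [3]]
def t0 : List (List ℕ) := [[0], [1], [2], [3, 1, 2, 3, 2, 3, 2, 3]]
theorem cov0 : Covers (gensub (byW S16B.el t0) 4) (gensub (byW S16B.el s0) 4) 17 :=
  cov_step S16B.el S16B.hinv S16B.hrel s0 t0 4 4 (fun ev H => S16T2.covers ev H) (by decide +kernel)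
theorem top0 : gensub (byW S16B.el s0) 4 = ⊤ := (gensub_id S16B.el (by decide)).trans S16B.htop
theorem covT0 : Covers (gensub (byW S16B.el t0) 4) ⊤ 17 := cov0.top top0
end CfH6.S16O2
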