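import Cfsg.Agent.OD.Pre
import Cfsg.Agent.H6.S16A
import Cfsg.Agent.H6.S16K
import Cfsg.Agent.H6.S16O
import Cfsg.Agent.H6.S16O2
/-! An abstract presentation: order and simplicity. -/
set_option autoImplicit false
set_option maxRecDepth 100000
namespace CfH6.S16G
open CfH6 MulAction
attribute [local instance] S16A.act

theorem stab : S16A.H = stabilizer S16B.G 0 ∧ S16A.H.index = 17 := S16A.stab S16O2.covT0

theorem card : Nat.card S16B.G = 4080 := (S16A.top S16O.finG).1

theorem base : ∀ g : S16B.G, (∀ b ∈ S16A.bs, g • b = b) → g = 1 := (S16A.top S16O.finG).2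

theorem simple : IsSimpleGroup S16B.G := by
  have := S16O.finG.1
  refine simple_of stab.1 (by rw [stab.2]; decide) (S16A.hmax stab.1 stab.2) base S16A.hbs fun M hM h => ?_
  exact top_of_index (eq_top_of_collapse S16B.el (n := 4) S16B.hinv S16B.hrel S16B.htop M
    (pow_words S16B.el h (by norm_num) (not_dvd_card card stab.2 (by decide)) 1 S16A.ex (S16A.hex base))
    (by decide +kernel) 1 fun ev' h1 h2 => S16K.covers ev' ⊥ h1 h2 forall_nil)

theorem nprime : ¬ (Nat.card S16B.G).Prime := by rw [card]; norm_num

end CfH6.S16G
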