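import Cfsg.Agent.OD.Pre
import Cfsg.Agent.H6.S16G
import Cfsg.Agent.H6.Iso3
import Cfsg.Agent.H3.F4
import Cfsg.Agent.H3.SL2Basic
/-! A presentation of `SL₂(16)`. -/
set_option autoImplicit false
set_option maxRecDepth 100000
namespace CfH6.S16M
open CfH6 Matrix CfH3

def ω : F4 := ⟨0, 1⟩
instance instFact16 : Fact (∀ r : F4, r ^ 2 ≠ ω + 1 * r) := ⟨by decide⟩
abbrev F16 : Type := QuadraticAlgebra F4 ω 1
def s (a : ℕ) : F16 := ⟨⟨(a % 2 : ℕ), (a / 2 % 2 : ℕ)⟩, ⟨(a / 4 % 2 : ℕ), (a / 8 % 2 : ℕ)⟩⟩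
instance instFintype16 : Fintype F16 := Fintype.ofEquiv (F4 × F4) (QuadraticAlgebra.equivProd ω 1).symm
theorem card16 : Fintype.card F16 = 16 := by
  rw [Fintype.ofEquiv_card, Fintype.card_prod, card_F4]

def tab : ℕ := 0x96c387d2b4e1a5f0681f3d4ac2b597e0c1a7583e2f49b6d03f7be2a6591d84c0835ef4291ac76db07d824eb16c935fa0d43a2bc5816f7e902ae6915df73b4c80bc25168f43dae97042f9ac17358edb60eb41c963d872fa50159d73fbae26c840a9b86574edfc21305764dfec9ba81320fedcba98765432100000000000000000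
def fm (a b : ℕ) : ℕ := tab / 16 ^ (16 * a + b) % 16
def f2 (a b c d : ℕ) : ℕ := fm a b ^^^ fm c d
def mm (X Y : ℕ) : ℕ :=
  f2 (X % 16) (Y % 16) (X / 16 % 16) (Y / 256 % 16) + 16 * (f2 (X % 16) (Y / 16 % 16) (X / 16 % 16) (Y / 4096 % 16) +
    16 * (f2 (X / 256 % 16) (Y % 16) (X / 4096 % 16) (Y / 256 % 16) +
      16 * f2 (X / 256 % 16) (Y / 16 % 16) (X / 4096 % 16) (Y / 4096 % 16))) + 1
def sem (X : ℕ) : Matrix (Fin 2) (Fin 2) F16 := !![s (X % 16), s (X / 16 % 16); s (X / 256 % 16), s (X / 4096 % 16)]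

theorem fm_spec : ∀ a < 16, ∀ b < 16, s (fm a b) = s a * s b := by decide +kernel
theorem xor_spec : ∀ a < 16, ∀ b < 16, a ^^^ b < 16 ∧ s (a ^^^ b) = s a + s b := by decide +kernel
theorem f2_spec (a b c d : ℕ) : f2 (a % 16) (b % 16) (c % 16) (d % 16) < 16 ∧
    s (f2 (a % 16) (b % 16) (c % 16) (d % 16)) = s (a % 16) * s (b % 16) + s (c % 16) * s (d % 16) := by
  have h : ∀ a : ℕ, a % 16 < 16 := fun a => Nat.mod_lt _ (by decide)
  have := xor_spec _ (h (tab / 16 ^ (16 * (a % 16) + b % 16))) _ (h (tab / 16 ^ (16 * (c % 16) + d % 16)))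
  refine ⟨this.1, ?_⟩
  rw [← fm_spec _ (h a) _ (h b), ← fm_spec _ (h c) _ (h d)]
  exact this.2

theorem D : Mdl mm (fun _ => true) 4097 sem := by
  refine ⟨fun {X Y r} _ _ h => ⟨rfl, ?_⟩, rfl, by decide +kernel⟩
  have h1 := f2_spec X Y (X / 16) (Y / 256)
  have h2 := f2_spec X (Y / 16) (X / 16) (Y / 4096)
  have h3 := f2_spec (X / 256) Y (X / 4096) (Y / 256)
  have h4 := f2_spec (X / 256) (Y / 16) (X / 4096) (Y / 4096)
  rw [mm] at h
  generalize f2 (X % 16) (Y % 16) (X / 16 % 16) (Y / 256 % 16) = a at h h1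
  generalize f2 (X % 16) (Y / 16 % 16) (X / 16 % 16) (Y / 4096 % 16) = b at h h2
  generalize f2 (X / 256 % 16) (Y % 16) (X / 4096 % 16) (Y / 256 % 16) = c at h h3
  generalize f2 (X / 256 % 16) (Y / 16 % 16) (X / 4096 % 16) (Y / 4096 % 16) = d at h h4
  have e1 : r % 16 = a := by omega
  have e2 : r / 16 % 16 = b := by omega
  have e3 : r / 256 % 16 = c := by omega
  have e4 : r / 4096 % 16 = d := by omega
  rw [sem, sem, sem, e1, e2, e3, e4, h1.2, h2.2, h3.2, h4.2, Matrix.mul_fin_two]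

def ms : List ℕ := [4113, 4145, 4177, 4353]
theorem U : UOk mm (fun _ => true) 4097 sem ms S16B.il 4 := D.uok (by decide +kernel)

abbrev τ : SpecialLinearGroup (Fin 2) F16 →* Matrix (Fin 2) (Fin 2) F16 := SpecialLinearGroup.coeMonoidHom

theorem hs : ∀ x < 4, ∃ g, τ g = sem (lget ms 0 x) := by
  have : ∀ x < 4, (sem (lget ms 0 x)).det = 1 := by
    simp only [det_fin_two]
    decide +kernel
  exact fun x hx => ⟨⟨_, this x hx⟩, rfl⟩

theorem rel (rels : List (List ℕ)) (h : (rels.all fun w => allLt 4 w && chkM mm 4097 ms w 4097) = true) :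
    ∀ r ∈ rels, evw (liftS τ sem ms) r = 1 := fun r hr => by
  have h1 := List.all_eq_true.mp h r hr
  rw [Bool.and_eq_true] at h1
  have := D.liftW (fun _ _ => rfl) hs h1.1 (Nat.eq_of_beq_eq_true h1.2)
  rw [D.sem1] at this
  exact Subtype.ext this

theorem iso : ∃ φ : S16B.G →* SpecialLinearGroup (Fin 2) F16, Function.Bijective φ := by
  have := S16G.simple
  obtain ⟨φ, hφ⟩ := S16B.hhom _ (inv_of_rels (rel _ (by decide +kernel))) (rel _ (by decide +kernel))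
  refine ⟨φ, bij_of_inj φ (inj_of_simple φ (g := S16B.el 0) fun hc => ?_) ⟨inferInstance, ?_⟩⟩
  · have h1 := liftS_spec (hs 0 (by decide))
    rw [← hφ 0 (by decide), hc, map_one] at h1
    exact absurd h1 (by decide +kernel)
  · rw [S16G.card, card_SL2 card16]; decide

end CfH6.S16M
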