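import Cfsg.Agent.OD.Pre
import Cfsg.Agent.H6.J3M
import Cfsg.Agent.H6.J3C
import Cfsg.Agent.H6.S16M
import Cfsg.Agent.OD.Helper6xd12c833d54
/-! A presented simple group of order 50232960.  Columns: `z p q r s u a c b b⁻¹ x x⁻¹ w` are `0 … 12`. -/
set_option autoImplicit false
set_option maxRecDepth 100000
namespace CfH6.J3P
open CfH6 MulAction
attribute [local instance] J3A.act

abbrev P : Type := J3B.G
abbrev el : ℕ → P := J3B.el

theorem card : Nat.card P = 50232960 := J3G.card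
theorem simple : IsSimpleGroup P := J3G.simple
theorem fin : Finite P := J3O.finG.1
theorem htop : gensub el 13 = ⊤ := J3B.htop
theorem hhom {Γ : Type*} [Group Γ] (ev : ℕ → Γ) (h1 : ∀ x < 13, ev (J3B.il.getD x 0) = (ev x)⁻¹)
    (h2 : ∀ r ∈ J3B.rels, evw ev r = 1) : ∃ ρ : P →* Γ, ∀ x < 13, ρ (el x) = ev x := J3B.hhom ev h1 h2
theorem isoJ3 : Cfsg.Spor.IsoJ3 P := J3M.isoJ3

section
variable {G : Type*} [Group G]

/-- the relations common to both presentations -/
structure Com (z p q r s u a c b x w : G) : Prop where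
  r0 : z * z = 1
  r1 : p * p = 1
  r2 : q * q = 1
  r3 : r * r = 1
  r4 : s * s = 1
  r5 : u * u = 1
  r6 : a * a = 1
  r7 : c * c = 1
  r8 : w * w = 1
  r9 : z * p = p * z
  r10 : z * q = q * z
  r11 : z * r = r * z
  r12 : z * s = s * z
  r13 : z * u = u * z
  r14 : z * a = a * z
  r15 : z * c = c * z
  r16 : z * b = b * z
  r17 : p * q * p * q * z = 1
  r18 : p * r * p * r * z = 1
  r19 : p * s * p * s * z = 1
  r20 : p * u * p * u * z = 1
  r21 : q * r * q * r * z = 1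
  r22 : q * s * q * s * z = 1
  r23 : q * u * q * u * z = 1
  r24 : r * s * r * s * z = 1
  r25 : r * u * r * u * z = 1
  r26 : s * u * s * u * z = 1
  r27 : p * q * r * s * u = 1
  r28 : a * p * a * q = 1
  r29 : a * r * a * s = 1
  r30 : a * u * a * u = 1
  r31 : c * p * c * q = 1
  r32 : c * r * c * r = 1
  r33 : c * s * c * u = 1
  r34 : b * p * b⁻¹ * q = 1
  r35 : b * q * b⁻¹ * r = 1
  r36 : b * s * b⁻¹ * s = 1
  r37 : b * u * b⁻¹ * u = 1
  r38 : b * b * b = 1
  r39 : a * b * a * b * a * b = 1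
  r40 : c * a * c * a * c * a = 1
  r41 : c * b * c * b = 1
  r42 : x * x * x = 1
  r43 : x * z * x⁻¹ * u = 1
  r44 : x * u * x⁻¹ * z * u = 1
  r45 : x * a = a * x
  r46 : x * b = b * x
  r47 : s * x * s * x * b = 1
  r48 : w * x * w * b⁻¹ = 1
  r49 : w * z * w * a = 1
  r50 : w * s * a * s * w * s * a * s * w * s * a * s = 1

def eqs : List (List ℕ × List ℕ) := [([8, 9], []), ([10, 11], []),
  ([0, 0], []),
  ([1, 1], []),
  ([2, 2], []),
  ([3, 3], []),
  ([4, 4], []),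
  ([5, 5], []),
  ([6, 6], []),
  ([7, 7], []),
  ([12, 12], []),
  ([0, 1], [1, 0]),
  ([0, 2], [2, 0]),
  ([0, 3], [3, 0]),
  ([0, 4], [4, 0]),
  ([0, 5], [5, 0]),
  ([0, 6], [6, 0]),
  ([0, 7], [7, 0]),
  ([0, 8], [8, 0]),
  ([1, 2, 1, 2, 0], []),
  ([1, 3, 1, 3, 0], []),
  ([1, 4, 1, 4, 0], []),
  ([1, 5, 1, 5, 0], []),
  ([2, 3, 2, 3, 0], []),
  ([2, 4, 2, 4, 0], []),
  ([2, 5, 2, 5, 0], []),
  ([3, 4, 3, 4, 0], []),
  ([3, 5, 3, 5, 0], []),
  ([4, 5, 4, 5, 0], []),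
  ([1, 2, 3, 4, 5], []),
  ([6, 1, 6, 2], []),
  ([6, 3, 6, 4], []),
  ([6, 5, 6, 5], []),
  ([7, 1, 7, 2], []),
  ([7, 3, 7, 3], []),
  ([7, 4, 7, 5], []),
  ([8, 1, 9, 2], []),
  ([8, 2, 9, 3], []),
  ([8, 4, 9, 4], []),
  ([8, 5, 9, 5], []),
  ([8, 8, 8], []),
  ([6, 8, 6, 8, 6, 8], []),
  ([7, 6, 7, 6, 7, 6], []),
  ([7, 8, 7, 8], []),
  ([10, 10, 10], []),
  ([10, 0, 11, 5], []),
  ([10, 5, 11, 0, 5], []),
  ([10, 6], [6, 10]),
  ([10, 8], [8, 10]),
  ([4, 10, 4, 10, 8], []),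
  ([12, 10, 12, 9], []),
  ([12, 0, 12, 6], []),
  ([12, 4, 6, 4, 12, 4, 6, 4, 12, 4, 6, 4], [])]
def sig : List (List ℕ) := [[0], [1], [2], [3], [4], [5], [6], [7], [8], [9], [10], [11], [12]]
def ev (z p q r s u a c b x w : G) : ℕ → G := fun i => [z, p, q, r, s, u, a, c, b, b⁻¹, x, x⁻¹, w].getD i 1

variable {z p q r s u a c b x w : G}

theorem Com.eqs (h : Com z p q r s u a c b x w) (l : List ℕ) (hl : evw (ev z p q r s u a c b x w) l = 1)
    (hs : sideEq 13 13 J3B.il sig ((l, []) :: eqs) = true) :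
    (∀ i < 13, ev z p q r s u a c b x w (J3B.il.getD i 0) = (ev z p q r s u a c b x w i)⁻¹) ∧
      ∀ v ∈ eqRels J3B.il sig ((l, []) :: eqs), evw (ev z p q r s u a c b x w) v = 1 := by
  refine eqRels_sound _ hs (forall_cons hl ?_)
  simp only [J3P.eqs, ev, List.forall_mem_cons, evw_cons, evw_nil, mul_one, List.getD_cons_succ, List.getD_cons_zero,
    ← mul_assoc]
  exact ⟨mul_inv_cancel _, mul_inv_cancel _, h.r0, h.r1, h.r2, h.r3, h.r4, h.r5, h.r6, h.r7, h.r8, h.r9, h.r10, h.r11, h.r12, h.r13, h.r14, h.r15, h.r16, h.r17, h.r18, h.r19, h.r20, h.r21, h.r22, h.r23, h.r24, h.r25, h.r26, h.r27, h.r28, h.r29, h.r30, h.r31, h.r32, h.r33, h.r34, h.r35, h.r36, h.r37, h.r38, h.r39, h.r40, h.r41, h.r42, h.r43, h.r44, h.r45, h.r46, h.r47, h.r48, h.r49, h.r50, forall_nil⟩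

theorem hom (h : Com z p q r s u a c b x w)
    (hl : w * s * w * s * w * c * x⁻¹ * b * c * x⁻¹ * b * s * x * b⁻¹ * c * x * b⁻¹ * c = 1) :
    ∃ ρ : P →* G, ρ (el 0) = z ∧ ρ (el 1) = p ∧ ρ (el 2) = q ∧ ρ (el 3) = r ∧ ρ (el 4) = s ∧ ρ (el 5) = u ∧
      ρ (el 6) = a ∧ ρ (el 7) = c ∧ ρ (el 8) = b ∧ ρ (el 10) = x ∧ ρ (el 12) = w := by
  have h1 := h.eqs [12, 4, 12, 4, 12, 7, 11, 8, 7, 11, 8, 4, 10, 9, 7, 10, 9, 7] (by
    simpa only [ev, evw_cons, evw_nil, mul_one, List.getD_cons_succ, List.getD_cons_zero, ← mul_assoc] using hl)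
    (by decide +kernel)
  obtain ⟨ρ, hρ⟩ := J3B.hhom _ h1.1 (follows_sound (n := 4) _ h1.1 h1.2 (by decide +kernel))
  exact ⟨ρ, hρ 0 (by decide), hρ 1 (by decide), hρ 2 (by decide), hρ 3 (by decide), hρ 4 (by decide),
    hρ 5 (by decide), hρ 6 (by decide), hρ 7 (by decide), hρ 8 (by decide), hρ 10 (by decide), hρ 12 (by decide)⟩

/-- the second presentation collapses onto the subgroup generated by the first nine letters -/
theorem collapse' (ev : ℕ → G) (H : Subgroup G) (hinv : ∀ x < 13, ev (J3C.il.getD x 0) = (ev x)⁻¹)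
    (hr : ∀ r ∈ J3C.rels, evw ev r = 1) (hs : ∀ x < 9, ev x ∈ H) : gensub ev 13 ≤ H := by
  obtain ⟨f, -, h2⟩ := J3C.covers ev H hinv hr (by
    simp only [J3C.subs, List.forall_mem_cons, evw_cons, evw_nil, mul_one]
    exact ⟨hs 0 (by decide), hs 1 (by decide), hs 2 (by decide), hs 3 (by decide), hs 4 (by decide),
      hs 5 (by decide), hs 6 (by decide), hs 7 (by decide), hs 8 (by decide), forall_nil⟩)
  obtain ⟨i, hi, h3⟩ := h2 1 (one_mem _)
  intro g hg
  obtain ⟨j, hj, h4⟩ := h2 g hg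
  obtain rfl : i = 0 := by omega
  obtain rfl : j = 0 := by omega
  simpa using H.mul_mem h4 (H.inv_mem h3)

theorem collapse (h : Com z p q r s u a c b x w)
    (hl : s * w * s * w * s * w * s * c * x⁻¹ * b * c * x⁻¹ * b * s * x * b⁻¹ * c * x * b⁻¹ * c = 1)
    (H : Subgroup G) (hz : z ∈ H) (hp : p ∈ H) (hq : q ∈ H) (hr : r ∈ H) (hs : s ∈ H) (hu : u ∈ H) (ha : a ∈ H)
    (hc : c ∈ H) (hb : b ∈ H) : x ∈ H ∧ w ∈ H := by
  have h1 := h.eqs [4, 12, 4, 12, 4, 12, 4, 7, 11, 8, 7, 11, 8, 4, 10, 9, 7, 10, 9, 7] (by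
    simpa only [ev, evw_cons, evw_nil, mul_one, List.getD_cons_succ, List.getD_cons_zero, ← mul_assoc] using hl)
    (by decide +kernel)
  have h2 := collapse' _ H h1.1 (follows_sound (n := 4) _ h1.1 h1.2 (by decide +kernel)) (by
    intro i hi
    interval_cases i <;> assumption)
  exact ⟨h2 (mem_gensub (x := 10) (by decide)), h2 (mem_gensub (x := 12) (by decide))⟩
end

theorem cardH : Nat.card J3A.H = 8160 := card_of_index J3G.card J3G.stab.2 (by decide)

theorem sl16 : ∃ N : Subgroup J3A.H, N.Normal ∧ N.index = 2 ∧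
    Nonempty (N ≃* Matrix.SpecialLinearGroup (Fin 2) S16M.F16) := by
  have := S16G.simple
  obtain ⟨φ, hφ⟩ := S16M.iso
  obtain ⟨ρ, hρ⟩ := S16B.hhom (byW J3A.el1 [[0], [1], [3], [4]]) (J3A.L1.invs_one J3G.base _ (by decide +kernel))
    (J3A.L1.rels_one J3G.base _ _ (by decide +kernel))
  refine iso_index_two ρ (inj_of_simple ρ (g := S16B.el 3) fun hc => ?_)
    ((range_hom hρ S16B.htop).le.trans (gensub_byW_le (by decide +kernel))) S16G.card cardH (by decide) φ hφ
  rw [hρ 3 (by decide)] at hc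
  exact J3A.L1.ne_one [4] 17 (by decide +kernel) hc

/-- a group containing `P` has a subgroup `SL₂(16):2` -/
theorem of_inj {G : Type*} [Group G] (ρ : P →* G) (hρ : Function.Injective ρ) :
    ∃ (H : Subgroup G) (N : Subgroup H) (K : Type) (_ : Field K) (_ : Fintype K), N.Normal ∧ N.index = 2 ∧
      Fintype.card K = 16 ∧ Nonempty (N ≃* Matrix.SpecialLinearGroup (Fin 2) K) := by
  obtain ⟨N, h1, h2, ⟨e⟩⟩ := sl16
  let f := J3A.H.equivMapOfInjective ρ hρ
  refine ⟨J3A.H.map ρ, N.map f.toMonoidHom, S16M.F16, inferInstance, inferInstance,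
    h1.map _ f.surjective, ?_, S16M.card16, ⟨(f.subgroupMap N).symm.trans e⟩⟩
  rw [← h2]
  exact Subgroup.index_map_of_bijective f.bijective N

theorem testBit_loop1 (f : ℕ → ℕ) (i a n : ℕ) (h : ∀ c, (f c).testBit i = false) : (loop1 f a n).testBit i = false := by
  induction n with
  | zero => exact Nat.zero_testBit i
  | succ n ih =>
    change Nat.testBit (f (a + n) ||| loop1 f a n) i = false
    rw [Nat.testBit_or, h, ih]; rfl

/-- the points moved by a word -/
noncomputable def mvd (nets : List Net) (w : List ℕ) (m K : ℕ) : ℕ :=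
  loop1 (fun j => force (plane m K j) fun x => Nat.xor (appW nets w x) x) 0 K

theorem mvd_spec {G : Type*} [Group G] [MulAction G ℕ] {m k : ℕ} {nets : List Net} {el : ℕ → G}
    (L : Lvl m nets k el) {w : List ℕ} (hw : allLt k w = true) (K : ℕ) {i : ℕ} (hi : i < m) (h : evw el w • i = i) :
    (mvd nets w m K).testBit i = false := by
  refine testBit_loop1 _ _ _ _ fun c => ?_
  rw [force_eq]
  change Nat.testBit (appW nets w (plane m K c) ^^^ plane m K c) i = false
  rw [Nat.testBit_xor, testBit_appW L.ok, ← L.word (allLt_sound hw) hi, h, Bool.xor_self]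

noncomputable def g17 : P := evw J3A.el1 [3, 4]

theorem g17_order : orderOf g17 = 17 := by
  have : Fact (Nat.Prime 17) := ⟨by norm_num⟩
  refine orderOf_eq_prime ?_ (J3A.L1.ne_one [3, 4] 17 (by decide +kernel))
  rw [g17, ← evw_wpow]
  exact J3A.L1.rels_one' J3G.base [wpow [3, 4] 17] (by decide +kernel) _ List.mem_cons_self

theorem g17_fix {i : ℕ} (hi : i ∈ orbit P 0) (h : g17 • i = i) : i = 0 ∨ i = 3464 := by
  rw [← orbit_top] at hi
  have h1 : J3A.U.testBit i = true := orbit_sub_of_card J3G.stab.1 J3G.stab.2 (by decide) J3A.subU J3A.cU hi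
  have h2 : i < 8192 := by
    by_contra hc
    have : J3A.U < 2 ^ 8192 := by decide +kernel
    rw [Nat.testBit_lt_two_pow (this.trans_le (Nat.pow_le_pow_right (by decide) (by omega)))] at h1
    exact absurd h1 (by decide)
  have h3 := mvd_spec J3A.L1 (by decide) 13 h2 h
  have h4 : J3A.U = mvd J3A.nets1 [3, 4] 8192 13 ||| (2 ^ 0 ||| 2 ^ 3464) := by decide +kernel
  rw [h4, Nat.testBit_or, Nat.testBit_or, h3, Nat.testBit_two_pow, Nat.testBit_two_pow] at h1
  rw [Bool.false_or, Bool.or_eq_true, decide_eq_true_eq, decide_eq_true_eq] at h1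
  exact h1.imp Eq.symm Eq.symm

theorem stab2 : Nat.card (J3A.H ⊓ stabilizer P 3464 : Subgroup P) = 68 := by
  have h1 := card_eq_orbit_mul J3A.H 3464
  have h2 : 3464 ∈ orbit J3A.H 3370 := by
    rw [J3A.o5]
    show J3A.S5.testBit 3464 = true
    decide +kernel
  rw [cardH, orbit_eq_iff.mpr h2, J3A.o5, J3A.c5] at h1
  exact Nat.eq_of_mul_eq_mul_left (by decide : 0 < 120) h1.symm

/-- odd order subgroups of the normaliser of a Sylow 17-subgroup are small -/
theorem syl17 : ∃ g : P, orderOf g = 17 ∧ ∀ D : Subgroup P, D ≤ Subgroup.normalizer (Subgroup.zpowers g : Set P) →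
    Odd (Nat.card D) → Nat.card D ≤ 68 := by
  have := fin
  refine ⟨g17, g17_order, fun D hD hodd => ?_⟩
  have f0 : g17 • 0 = 0 := J3A.L1.map (by decide) (by decide) (by decide +kernel)
  have fq : g17 • 3464 = 3464 := J3A.L1.map (by decide) (by decide) (by decide +kernel)
  have hq : 3464 ∈ orbit P 0 := base_mem J3A.subU [3464] (by decide +kernel) _ List.mem_cons_self
  have key : ∀ d ∈ D, ∀ i, i ∈ orbit P 0 → g17 • i = i → d • i = 0 ∨ d • i = 3464 := fun d hd i hi hf => by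
    refine g17_fix (mem_orbit_of_mem_orbit d hi) ?_
    have h1 : d⁻¹ * g17 * d ∈ Subgroup.zpowers g17 :=
      (Subgroup.mem_normalizer_iff''.mp (hD hd) g17).mp (Subgroup.mem_zpowers _)
    have h2 : d⁻¹ * g17 * d ∈ stabilizer P i := Subgroup.zpowers_le.mpr hf h1
    rw [mem_stabilizer_iff, mul_smul, mul_smul, inv_smul_eq_iff] at h2
    exact h2
  have hle : D ≤ J3A.H ⊓ stabilizer P 3464 := fun d hd => by
    have h0 : d • 0 = 0 := by
      rcases key d hd 0 (mem_orbit_self _) f0 with h | h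
      · exact h
      · rcases key d hd 3464 hq fq with h' | h'
        · obtain ⟨k, hk⟩ := hodd
          have h3 : d ^ (2 * k + 1) = 1 := by
            rw [← hk]; exact congrArg Subtype.val (pow_card_eq_one' (x := (⟨d, hd⟩ : D)))
          have h4 : d ^ 2 ∈ stabilizer P 0 := by rw [mem_stabilizer_iff, sq, mul_smul, h, h']
          have h5 := (stabilizer P 0).pow_mem h4 k
          rw [← pow_mul] at h5
          have h6 : d = (d ^ (2 * k))⁻¹ := eq_inv_of_mul_eq_one_right (by rw [← pow_succ, h3])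
          rw [h6]; exact (stabilizer P 0).inv_mem h5
        · exact absurd (MulAction.injective d (h.trans h'.symm)) (by decide)
    refine ⟨J3G.stab.1 ▸ h0, ?_⟩
    rcases key d hd 3464 hq fq with h' | h'
    · exact absurd (MulAction.injective d (h0.trans h'.symm)) (by decide)
    · exact h'
  rw [← stab2]
  exact Subgroup.card_le_of_le hle

end CfH6.J3P
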