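import Cfsg.Agent.OD.Pre
import Cfsg.Agent.H6.J1G
import Cfsg.Agent.H6.J3P
import Cfsg.Prelude.Def_Spor_J1
/-! A presented simple group of order 175560.  Columns: `t u s y y⁻¹ g g⁻¹` are `0 … 6`. -/
set_option autoImplicit false
set_option maxRecDepth 100000
namespace CfH6.J1P
open CfH6 MulAction Cfsg.Spor
attribute [local instance] J1A.act

abbrev P : Type := J1B.G
abbrev el : ℕ → P := J1B.el

theorem card : Nat.card P = 175560 := J1G.card
theorem simple : IsSimpleGroup P := J1G.simple
theorem fin : Finite P := J1O.finG.1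
theorem htop : gensub el 7 = ⊤ := J1B.htop
theorem hhom {Γ : Type*} [Group Γ] (ev : ℕ → Γ) (h1 : ∀ x < 7, ev (J1B.il.getD x 0) = (ev x)⁻¹)
    (h2 : ∀ r ∈ J1B.rels, evw ev r = 1) : ∃ ρ : P →* Γ, ∀ x < 7, ρ (el x) = ev x := J1B.hhom ev h1 h2

def eqs : List (List ℕ × List ℕ) := [([3, 4], []), ([5, 6], []),
  ([0, 0], []),
  ([1, 1], []),
  ([2, 2], []),
  ([3, 3, 3], []),
  ([1, 3, 1, 3, 1, 3], []),
  ([2, 3, 2, 3], []),
  ([2, 1, 2, 1, 2, 1], []),
  ([0, 1], [1, 0]),
  ([0, 3], [3, 0]),
  ([0, 2], [2, 0]),
  ([5, 5, 5, 5, 5, 5, 5], []),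
  ([5, 0, 6, 1], []),
  ([5, 1, 6, 3, 1, 4], []),
  ([5, 3, 1, 4, 6, 0, 1], []),
  ([3, 5, 4, 6, 6], []),
  ([2, 1, 5, 2, 1, 4, 6], [5, 2, 1, 4, 6, 2, 1])]

theorem hom {G : Type*} [Group G] (t u s y g : G)
    (r0 : t * t = 1)
    (r1 : u * u = 1)
    (r2 : s * s = 1)
    (r3 : y * y * y = 1)
    (r4 : u * y * u * y * u * y = 1)
    (r5 : s * y * s * y = 1)
    (r6 : s * u * s * u * s * u = 1)
    (r7 : t * u = u * t)
    (r8 : t * y = y * t)
    (r9 : t * s = s * t)
    (r10 : g * g * g * g * g * g * g = 1)
    (r11 : g * t * g⁻¹ * u = 1)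
    (r12 : g * u * g⁻¹ * y * u * y⁻¹ = 1)
    (r13 : g * y * u * y⁻¹ * g⁻¹ * t * u = 1)
    (r14 : y * g * y⁻¹ * g⁻¹ * g⁻¹ = 1)
    (r15 : s * u * g * s * u * y⁻¹ * g⁻¹ = g * s * u * y⁻¹ * g⁻¹ * s * u) :
    ∃ ρ : P →* G, ρ (el 0) = t ∧ ρ (el 1) = u ∧ ρ (el 2) = s ∧ ρ (el 3) = y ∧ ρ (el 5) = g := by
  have h1 := eqRels_sound (fun i => [t, u, s, y, y⁻¹, g, g⁻¹].getD i 1) (nc := 7) (k := 7) (il := J1B.il)
    (σ := [[0], [1], [2], [3], [4], [5], [6]]) (eqs := eqs) (by decide +kernel) (by
      simp only [eqs, List.forall_mem_cons, evw_cons, evw_nil, mul_one, List.getD_cons_succ, List.getD_cons_zero,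
        ← mul_assoc]
      exact ⟨mul_inv_cancel _, mul_inv_cancel _, r0, r1, r2, r3, r4, r5, r6, r7, r8, r9, r10, r11, r12, r13, r14, r15, forall_nil⟩)
  obtain ⟨ρ, hρ⟩ := J1B.hhom _ h1.1 (follows_sound (n := 4) _ h1.1 h1.2 (by decide +kernel))
  exact ⟨ρ, hρ 0 (by decide), hρ 1 (by decide), hρ 2 (by decide), hρ 3 (by decide), hρ 5 (by decide)⟩

abbrev PM : MP := ⟨7, 20, 11, 4, 6, 745, 13, 0, 0⟩
def ms : List ℕ := [0xa0000000000000000000000000000000000000001000000000000000000000000000000000000000a00000000000000000000000000000000000000010000000000000000000000000000000000000001000000000000000000000000000000000000000a000000000000000000000000000000000000000a,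
  0xa000000000000000000000000000000000000000a0000000000000000000000000000000000000001000000000000000000000000000000000000000a00000000000000000000000000000000000000010000000000000000000000000000000000000001000000000000000000000000000000000000000a,
  0x8000000000800000000000000a000020000000009000000000600007000000000000008000000000900000000000000a0000300000000060000000007000020000000000000000000700000000020000500000000000000a000000000a0000000000000080000100002000000000300000000000000100008,
  0xa0000000000000000000a00000000000000000001000000000000000000000000000000000000000000000000000000a0000000000000000000100000000000000000000000000000000000000000000000000000010000000000000000000a00000000000000000000,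
  0x100000000000000000000000000000000000000000000100000000000000000000000000000000000000000000a000000000a00000000000000000000000000000000000000000000a000000000000000000000000000000000000000000001000000000a000000000000000000000000000000,
  0xa000010000000000000000000000000000000000000001000000000000000000000000000000000000000a000000000000000000000000000000000000000a000000000000000000000000000000000000000a000000000000000000000000000000000000000100000,
  0x10000000000000000000000000000000000000001000000000000000000000000000000000000000a000000000000000000000000000000000000000a000000000000000000000000000000000000000a00000000000000000000000000000000000000010000a000000000000000000000000000000,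
  0x1000010000000000000000000000000000000000000001000000000000000000000000000000000000000100000000000000000000000000000000000000010000000000000000000000000000000000000001000000000000000000000000000000000000000100000,
  0x10000000000000000000000000000000000000001000000000000000000000000000000000000000100000000000000000000000000000000000000010000000000000000000000000000000000000001000000000000000000000000000000000000000100001000000000000000000000000000000,
  0x1000030000100001000090000300003000030000100001000090000300003000010000a0000a0000200008000080000a000080000a0000200008000080000a000080000a0000200008000080000a000080000a0000a00003000030000100003000010000100009000080000a000080000a0000a0000200008,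
  0x1000030000a0000a00002000030000800003000010000a0000200008000030000a00001000010000200008000080000100008000010000900008000080000a000030000a0000900003000080000a00008000010000a00003000030000a000080000a00001000020000300001000080000a0000a0000900008]
def fwd : List (List ℕ) := [[7, 9, 7, 10], [7, 7, 9, 7, 10, 8], [7, 7, 10, 8, 8, 10, 10, 8, 10, 8, 10, 7, 9], [8, 10, 10, 7, 10, 7, 7, 10, 8, 10, 7, 9, 9, 7, 9, 7], [7, 7, 7, 10, 8, 10, 10, 8, 9, 7, 9, 7, 9, 7, 7, 9], [8, 8, 9, 8, 10, 7, 7], [7, 7, 9, 7, 7, 7, 10]]
def back : List (List ℕ) := [[0, 1, 5, 1], [0, 1, 6, 0], [2, 1, 5, 1, 2, 4, 1, 6, 2, 6], [5, 2, 1, 5, 1, 2, 4, 1, 6, 2]]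
def il : List ℕ := [0, 1, 2, 4, 3, 6, 5, 8, 7, 10, 9]
noncomputable abbrev sem : ℕ → Matrix (Fin 7) (Fin 7) (ZMod 11) := PM.toM (ZMod 11) (Equiv.refl (Fin 7))

theorem D : Mdl PM.mm PM.okb PM.one sem :=
  MP.mdl (P := PM) (ZMod 11) (Equiv.refl (Fin 7)) (by decide) (by decide +kernel)
theorem U : UOk PM.mm PM.okb PM.one sem ms il 11 := D.uok (by decide +kernel)

theorem hX : evU sem ms il 7 = jankoX := Units.ext ((U.val 7 (by decide)).trans (by decide +kernel))
theorem hY : evU sem ms il 9 = jankoY := Units.ext ((U.val 9 (by decide)).trans (by decide +kernel))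

theorem gen : gensub (evU sem ms il) 7 = J1 := by
  have mX : jankoX ∈ J1 := Subgroup.subset_closure (Or.inl rfl)
  have mY : jankoY ∈ J1 := Subgroup.subset_closure (Or.inr rfl)
  apply le_antisymm
  · refine gensub_le fun y hy => ?_
    simpa using U.mem J1 (fun x => Nat.ble 7 x && Nat.blt x 11) (fun x hx => by
      simp only [Bool.and_eq_true, Nat.blt_eq, Nat.ble_eq] at hx
      obtain ⟨h1, h2⟩ := hx
      interval_cases x
      · exact hX ▸ mX
      · exact (U.inv 7 (by decide)).symm ▸ inv_mem (hX ▸ mX)
      · exact hY ▸ mY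
      · exact (U.inv 9 (by decide)).symm ▸ inv_mem (hY ▸ mY)) 0 fwd 7 (by decide +kernel) y hy
  · have h := U.mem (gensub (evU sem ms il) 7) (fun x => Nat.blt x 7) (fun x hx => mem_gensub (Nat.blt_eq.mp hx))
      7 back 4 (by decide +kernel)
    rw [J1, Subgroup.closure_le]
    rintro g (rfl | rfl)
    · exact hX ▸ h 0 (by decide)
    · exact hY ▸ h 2 (by decide)

theorem isoJ1 : IsoJ1 P := by
  have := simple
  obtain ⟨φ, hφ⟩ := J1B.hhom (evU sem ms il) (inv_of_rels (U.rels (by decide +kernel))) (U.rels (by decide +kernel))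
  have h2 : Function.Injective φ := inj_of_simple φ (g := J1B.el 0) fun hc => by
    have := U.val 0 (by decide)
    rw [← hφ 0 (by decide), hc] at this
    exact absurd this (by decide +kernel)
  rw [IsoJ1, ← gen, ← range_hom hφ J1B.htop]
  exact ⟨MonoidHom.ofInjective h2⟩

/-- a group of odd order normalising an element with two fixed points fixes both -/
theorem odd_fix {G : Type*} [Group G] [MulAction G ℕ] {g : G} {q : ℕ} (hq0 : 0 ≠ q) (f0 : g • 0 = 0) (fq : g • q = q)
    (hq : q ∈ orbit G 0) (hfix : ∀ i ∈ orbit G 0, g • i = i → i = 0 ∨ i = q) (D : Subgroup G)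
    (hD : D ≤ Subgroup.normalizer (Subgroup.zpowers g : Set G)) (hodd : Odd (Nat.card D)) :
    D ≤ stabilizer G 0 ⊓ stabilizer G q := fun d hd => by
  have key : ∀ i, i ∈ orbit G 0 → g • i = i → d • i = 0 ∨ d • i = q := fun i hi hf => by
    refine hfix _ (mem_orbit_of_mem_orbit d hi) ?_
    have h1 : d⁻¹ * g * d ∈ Subgroup.zpowers g :=
      (Subgroup.mem_normalizer_iff''.mp (hD hd) g).mp (Subgroup.mem_zpowers _)
    have h2 : d⁻¹ * g * d ∈ stabilizer G i := Subgroup.zpowers_le.mpr hf h1
    rw [mem_stabilizer_iff, mul_smul, mul_smul, inv_smul_eq_iff] at h2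
    exact h2
  have h0 : d • 0 = 0 := by
    rcases key 0 (mem_orbit_self _) f0 with h | h
    · exact h
    · rcases key q hq fq with h' | h'
      · obtain ⟨k, hk⟩ := hodd
        have h3 : d ^ (2 * k + 1) = 1 := by
          rw [← hk]; exact congrArg Subtype.val (pow_card_eq_one' (x := (⟨d, hd⟩ : D)))
        have h4 : d ^ 2 ∈ stabilizer G 0 := by rw [mem_stabilizer_iff, sq, mul_smul, h, h']
        have h5 := (stabilizer G 0).pow_mem h4 k
        rw [← pow_mul] at h5
        have h6 : d = (d ^ (2 * k))⁻¹ := eq_inv_of_mul_eq_one_right (by rw [← pow_succ, h3])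
        rw [h6]; exact (stabilizer G 0).inv_mem h5
      · exact absurd (MulAction.injective d (h.trans h'.symm)) hq0
  refine ⟨h0, ?_⟩
  rcases key q hq fq with h' | h'
  · exact absurd (MulAction.injective d (h0.trans h'.symm)) hq0
  · exact h'

theorem cardH : Nat.card J1A.H = 168 := card_of_index J1G.card J1G.stab.2 (by decide)

theorem g_order : orderOf (el 5) = 7 := by
  have : Fact (Nat.Prime 7) := ⟨by norm_num⟩
  refine orderOf_eq_prime ?_ (by simpa using J1A.L0.ne_one [5] 30 (by decide +kernel))
  have := J1B.hrel [5, 5, 5, 5, 5, 5, 5] (by decide)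
  simpa [pow_succ, mul_assoc] using this

theorem g_fix (i : ℕ) (hi : i ∈ orbit P 0) (h : el 5 • i = i) : i = 0 ∨ i = 1042 := by
  rw [← orbit_top] at hi
  have h1 : J1A.U.testBit i = true := orbit_sub_of_card J1G.stab.1 J1G.stab.2 (by decide) J1A.subU J1A.cU hi
  have h2 : i < 1280 := by
    by_contra hc
    have : J1A.U < 2 ^ 1280 := by decide +kernel
    rw [Nat.testBit_lt_two_pow (this.trans_le (Nat.pow_le_pow_right (by decide) (by omega)))] at h1
    exact absurd h1 (by decide)
  have h3 := J3P.mvd_spec J1A.L0 (w := [5]) (by decide) 11 h2 (by simpa using h)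
  have h4 : J1A.U = J3P.mvd J1A.nets0 [5] 1280 11 ||| (2 ^ 0 ||| 2 ^ 1042) := by decide +kernel
  rw [h4, Nat.testBit_or, Nat.testBit_or, h3, Nat.testBit_two_pow, Nat.testBit_two_pow] at h1
  rw [Bool.false_or, Bool.or_eq_true, decide_eq_true_eq, decide_eq_true_eq] at h1
  exact h1.imp Eq.symm Eq.symm

theorem stab2 : Nat.card (J1A.H ⊓ stabilizer P 1042 : Subgroup P) = 21 := by
  have h1 := card_eq_orbit_mul J1A.H 1042
  have h2 : 1042 ∈ orbit J1A.H 1037 := by
    rw [J1A.o10]
    show J1A.S10.testBit 1042 = true
    decide +kernel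
  rw [cardH, orbit_eq_iff.mpr h2, J1A.o10, J1A.c10] at h1
  exact Nat.eq_of_mul_eq_mul_left (by decide : 0 < 8) h1.symm

theorem syl7' (D : Subgroup P) (hD : D ≤ Subgroup.normalizer (Subgroup.zpowers (el 5) : Set P))
    (hodd : Odd (Nat.card D)) : Nat.card D ≤ 21 := by
  have := fin
  have f0 : el 5 • 0 = 0 := by simpa using J1A.L0.map (w := [5]) (by decide) (by decide) (by decide +kernel)
  have fq : el 5 • 1042 = 1042 := by simpa using J1A.L0.map (w := [5]) (by decide) (by decide) (by decide +kernel)
  have hle := odd_fix (by decide) f0 fq (base_mem J1A.subU [1042] (by decide +kernel) _ List.mem_cons_self) g_fix D hD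
    hodd
  rw [← J1G.stab.1] at hle
  rw [← stab2]
  exact Subgroup.card_le_of_le hle

/-- odd order subgroups of the normaliser of a Sylow 7-subgroup are small -/
theorem syl7 : ∃ g : P, orderOf g = 7 ∧ ∀ D : Subgroup P, D ≤ Subgroup.normalizer (Subgroup.zpowers g : Set P) →
    Odd (Nat.card D) → Nat.card D ≤ 42 :=
  ⟨el 5, g_order, fun D h1 h2 => (syl7' D h1 h2).trans (by decide)⟩

end CfH6.J1P
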