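import Cfsg.Agent.H1.MB2
import Cfsg.Prelude.Def_Spor_Mathieu
/-! Statements of the steps in the recognition of `M₂₃` by its order. -/
set_option autoImplicit false
open Subgroup CfH6 CfH1.MB2
namespace CfH6.M23
universe u

/-- the local data given by the character theory -/
structure Loc0 (G : Type*) [Group G] : Prop where
  simple : IsSimpleGroup G
  card : Nat.card G = 10200960
  c23 : ∀ u : G, orderOf u = 23 → Nat.card (centralizer ({u} : Set G)) = 23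
  n23 : ∀ u : G, orderOf u = 23 → Nat.card (normalizer (zpowers u : Set G)) = 253
  c11 : ∀ u : G, orderOf u = 11 → Nat.card (centralizer ({u} : Set G)) = 11
  n11 : ∀ u : G, orderOf u = 11 → Nat.card (normalizer (zpowers u : Set G)) = 55
  c7 : ∀ u : G, orderOf u = 7 → Nat.card (centralizer ({u} : Set G)) = 14
  n7 : ∀ u : G, orderOf u = 7 → Nat.card (normalizer (zpowers u : Set G)) = 42
  c5 : ∀ u : G, orderOf u = 5 → Nat.card (centralizer ({u} : Set G)) = 15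
  n5 : ∀ u : G, orderOf u = 5 → Nat.card (normalizer (zpowers u : Set G)) = 60
  k17 : Nat.card (ConjClasses G) = 17

/-- the local data after counting classes -/
structure Loc (G : Type*) [Group G] : Prop extends Loc0 G where
  j3 : ∀ u v : G, orderOf u = 3 → orderOf v = 3 → IsConj u v
  c3 : ∀ u : G, orderOf u = 3 → Nat.card (centralizer ({u} : Set G)) = 180
  j6 : ∀ u v : G, orderOf u = 6 → orderOf v = 6 → IsConj u v
  c6 : ∀ u : G, orderOf u = 6 → Nat.card (centralizer ({u} : Set G)) = 12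
  c2 : ∀ z x : G, orderOf z = 2 → orderOf x = 3 → z * x = x * z → Nat.card (centralizer ({z} : Set G)) = 2688
  o9 : ∀ g : G, orderOf g ≠ 9
  o12 : ∀ g : G, orderOf g ≠ 12
  j2 : (∃ g : G, orderOf g = 8) → ∀ u v : G, orderOf u = 2 → orderOf v = 2 → IsConj u v

/-- a self-centralizing `2⁴`, normal in the centralizer of `p` -/
structure EE {G : Type*} [Group G] (p q r s : G) : Prop where
  e4 : E4 p q r s
  self : ∀ k : G, Act p q r s k I4 → k ∈ closure ({p, q, r, s} : Set G)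
  nor : ∀ k : G, k * p = p * k → ∃ M, Act p q r s k M

/-- with the action of `3²` and an element of order 7 -/
structure Fr {G : Type*} [Group G] (p q r s x y g : G) : Prop where
  ee : EE p q r s
  ax : Act p q r s x (1, 2, 8, 12)
  ay : Act p q r s y (2, 3, 4, 8)
  x3 : x ^ 3 = 1
  y3 : y ^ 3 = 1
  xy : x * y = y * x
  g7 : orderOf g = 7
  gp : g * p = p * g
  xg : x * g * x⁻¹ = g ^ 2 ∨ x * g * x⁻¹ = g ^ 4

/-- letters `x x⁻¹ y y⁻¹ a b p q r s τ` -/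
def il : List ℕ := [1, 0, 3, 2, 4, 5, 6, 7, 8, 9, 10]
/-- a presentation of `A₇` -/
def rA : List (List ℕ) := [[0, 0, 0], [2, 2, 2], [0, 2, 1, 3], [4, 0, 3, 4, 2, 1], [5, 0, 2, 5, 3, 1], [4, 0, 2, 4, 0, 2, 4, 0, 2], [5, 0, 3, 5, 0, 3, 5, 0, 3], [4, 5, 4, 5, 4, 5, 4, 5, 4, 5, 4, 5], [0, 4, 5, 0, 4, 5, 0, 4, 5, 0, 4, 5, 0, 4, 5], [2, 4, 5, 2, 4, 5, 2, 4, 5, 2, 4, 5, 2, 4, 5]]
def rE : List (List ℕ) := [[6, 7, 6, 7], [6, 8, 6, 8], [6, 9, 6, 9], [7, 8, 7, 8], [7, 9, 7, 9], [8, 9, 8, 9]]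
def rM : List (List ℕ) := [[0, 6, 1, 6], [0, 7, 1, 7], [0, 8, 1, 9], [0, 9, 1, 8, 9], [2, 6, 3, 7], [2, 7, 3, 6, 7], [2, 8, 3, 8], [2, 9, 3, 9], [4, 6, 4, 6, 8], [4, 7, 4, 7, 8, 9], [4, 8, 4, 8], [4, 9, 4, 9], [5, 6, 5, 6], [5, 7, 5, 7], [5, 8, 5, 6, 8], [5, 9, 5, 7, 9]]
/-- a presentation of `2⁴ : A₇` -/
def rN : List (List ℕ) := rA ++ rE ++ rM
def wS : List ℕ := [4, 5, 4, 5, 4, 5]
def wH : List ℕ := [4, 5, 0, 4, 1, 5, 4]
def wH' : List ℕ := [4, 5, 1, 4, 0, 5, 4]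
/-- the relators of the further involution; only `k = false` occurs -/
def rT (k : Bool) : List (List ℕ) := [[10, 2, 10, 3], [10, 0, 10, 0, 2], [10, 6, 10, 5], [10, 8, 10, 8, 10, 8],
  10 :: wS ++ 10 :: wS.reverse, 10 :: wH ++ 10 :: wH ++ 10 :: cond k wH' wH]

structure Fr3 {G : Type*} [Group G] (ev : ℕ → G) : Prop where
  inv : ∀ x < 10, ev (il.getD x 0) = (ev x)⁻¹
  rel : ∀ w ∈ rN, evw ev w = 1
  ee : EE (ev 6) (ev 7) (ev 8) (ev 9)

def Q0 : Prop := ∀ {G : Type u} [Group G] [Finite G], IsSimpleGroup G → Nat.card G = 10200960 → Loc0 G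
def Q1 : Prop := ∀ {G : Type u} [Group G] [Finite G], Loc0 G → Loc G
def Q2 : Prop := ∀ {G : Type u} [Group G] [Finite G], Loc G → ∃ p q r s x y g : G, Fr p q r s x y g
def Q3 : Prop := ∀ {G : Type u} [Group G] [Finite G], ∀ p q r s x y g : G, Fr p q r s x y g → ∃ ev : ℕ → G, Fr3 ev
def Q4 : Prop := ∀ {G : Type u} [Group G] [Finite G], Loc G → ∀ ev : ℕ → G, Fr3 ev →
  ∃ τ : G, τ * τ = 1 ∧ ∀ w ∈ rT false, evw (Function.update ev 10 τ) w = 1
def Q5 : Prop := ∀ {G : Type u} [Group G] [Finite G], Nat.card G = 10200960 → ∀ ev : ℕ → G,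
  (∀ x < 11, ev (il.getD x 0) = (ev x)⁻¹) → (∀ w ∈ rN ++ rT false, evw ev w = 1) → ev 6 ≠ 1 → Cfsg.Spor.IsoM23 G

theorem upd {G : Type*} [Group G] {ev : ℕ → G} (F : Fr3 ev) {τ : G} (h : τ * τ = 1) :
    (∀ x < 11, Function.update ev 10 τ (il.getD x 0) = (Function.update ev 10 τ x)⁻¹) ∧
      ∀ w ∈ rN, evw (Function.update ev 10 τ) w = 1 := by
  have e : ∀ x < 10, Function.update ev 10 τ x = ev x := fun x hx => Function.update_of_ne hx.ne _ _
  refine ⟨fun x hx => ?_, fun w hw => ?_⟩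
  · by_cases h' : x = 10
    · subst h'
      exact (Function.update_self _ _ _).trans ((eq_inv_of_mul_eq_one_right h).trans (by rw [Function.update_self]))
    · rw [e x (by omega), e _ ((by decide : ∀ x < 10, il.getD x 0 < 10) x (by omega)), F.inv x (by omega)]
  · rw [evw_congr e ((by decide : ∀ w ∈ rN, ∀ x ∈ w, x < 10) w hw), F.rel w hw]

theorem final (h0 : Q0.{u}) (h1 : Q1.{u}) (h2 : Q2.{u}) (h3 : Q3.{u}) (h4 : Q4.{u}) (h5 : Q5.{u}) {G : Type u} [Group G]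
    [Finite G] (hG : Cfsg.IsM23 G) : Cfsg.Spor.IsoM23 G := by
  have L := h1 (h0 hG.1 hG.2)
  obtain ⟨p, q, r, s, x, y, g, F⟩ := h2 L
  obtain ⟨ev, F3⟩ := h3 _ _ _ _ _ _ _ F
  obtain ⟨τ, b1, b2⟩ := h4 L ev F3
  refine h5 L.card (Function.update ev 10 τ) (upd F3 b1).1 (fun w hw => ?_) ?_
  · rcases List.mem_append.1 hw with h | h
    exacts [(upd F3 b1).2 w h, b2 w h]
  · rw [Function.update_of_ne (by norm_num)]
    exact fun e => absurd (F3.ee.e4.inj (c := 1) (d := 0) (by norm_num) (by norm_num) (by rw [el1, el0]; exact e)) (by norm_num)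

end CfH6.M23
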