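import Cfsg.Agent.OD.Pre
import Cfsg.Agent.H6.M22B
import Cfsg.Agent.H6.TCPart
import Cfsg.Agent.H6.LT3
import Cfsg.Agent.H6.LT2
import Cfsg.Agent.H6.LT1
set_option autoImplicit false
set_option maxRecDepth 100000
set_option linter.all false
namespace CfH6.M22O
open CfH6
def s0 : List (List ℕ) := [[0], [1], [2], [3], [4]]
def t0 : List (List ℕ) := [[0], [1], [2], [3]]
theorem cov0 : Covers (gensub (byW M22B.el t0) 4) (gensub (byW M22B.el s0) 5) 22 :=
  cov_step M22B.el M22B.hinv M22B.hrel s0 t0 4 4 (fun ev H => LT3.covers ev H) (by decide +kernel)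
theorem top0 : gensub (byW M22B.el s0) 5 = ⊤ := (gensub_id M22B.el (by decide)).trans M22B.htop
theorem covT0 : Covers (gensub (byW M22B.el t0) 4) ⊤ 22 := cov0.top top0
def s1 : List (List ℕ) := [[0], [1], [2], [3]]
def t1 : List (List ℕ) := [[1], [2], [3]]
theorem cov1 : Covers (gensub (byW M22B.el t1) 3) (gensub (byW M22B.el s1) 4) 56 :=
  cov_step M22B.el M22B.hinv M22B.hrel s1 t1 3 4 (fun ev H => LT2.covers ev H) (by decide +kernel)
def s2 : List (List ℕ) := [[1], [2], [3]]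
def t2 : List (List ℕ) := []
theorem cov2 : Covers (gensub (byW M22B.el t2) 0) (gensub (byW M22B.el s2) 3) 360 :=
  cov_step M22B.el M22B.hinv M22B.hrel s2 t2 0 4 (fun ev H => LT1.covers ev H) (by decide +kernel)
theorem finT2 : Finite (gensub (byW M22B.el t2) 0) ∧ Nat.card (gensub (byW M22B.el t2) 0) ≤ 1 := (gensub_zero _)
theorem fin2 : Finite (gensub (byW M22B.el s2) 3) ∧ Nat.card (gensub (byW M22B.el s2) 3) ≤ 360 :=
  fin_cast (cov2.card_le finT2) (by decide)
theorem finT1 : Finite (gensub (byW M22B.el t1) 3) ∧ Nat.card (gensub (byW M22B.el t1) 3) ≤ 360 := (fin_le (gensub_le_of_subsIn M22B.el (by decide)) fin2)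
theorem fin1 : Finite (gensub (byW M22B.el s1) 4) ∧ Nat.card (gensub (byW M22B.el s1) 4) ≤ 20160 :=
  fin_cast (cov1.card_le finT1) (by decide)
theorem finT0 : Finite (gensub (byW M22B.el t0) 4) ∧ Nat.card (gensub (byW M22B.el t0) 4) ≤ 20160 := (fin_le (gensub_le_of_subsIn M22B.el (by decide)) fin1)
theorem fin0 : Finite (gensub (byW M22B.el s0) 5) ∧ Nat.card (gensub (byW M22B.el s0) 5) ≤ 443520 :=
  fin_cast (cov0.card_le finT0) (by decide)
theorem finG : Finite M22B.G ∧ Nat.card M22B.G ≤ 443520 := fin_top (top0 ▸ fin0)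
end CfH6.M22O
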