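import Cfsg.Agent.OD.Pre
import Cfsg.Agent.H6.M22A
import Cfsg.Agent.H6.M22K
import Cfsg.Agent.H6.M22O
import Cfsg.Agent.H6.M22O
/-! An abstract presentation: order and simplicity. -/
set_option autoImplicit false
set_option maxRecDepth 100000
namespace CfH6.M22G
open CfH6 MulAction
attribute [local instance] M22A.act

theorem stab : M22A.H = stabilizer M22B.G 0 ∧ M22A.H.index = 22 := M22A.stab M22O.covT0

theorem card : Nat.card M22B.G = 443520 := (M22A.top M22O.finG).1

theorem base : ∀ g : M22B.G, (∀ b ∈ M22A.bs, g • b = b) → g = 1 := (M22A.top M22O.finG).2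

theorem simple : IsSimpleGroup M22B.G := by
  have := M22O.finG.1
  refine simple_of stab.1 (by rw [stab.2]; decide) (M22A.hmax stab.1 stab.2) base M22A.hbs fun M hM h => ?_
  exact top_of_index (eq_top_of_collapse M22B.el (n := 4) M22B.hinv M22B.hrel M22B.htop M
    (pow_words M22B.el h (by norm_num) (not_dvd_card card stab.2 (by decide)) 1 M22A.ex (M22A.hex base))
    (by decide +kernel) 1 fun ev' h1 h2 => M22K.covers ev' ⊥ h1 h2 forall_nil)

theorem nprime : ¬ (Nat.card M22B.G).Prime := by rw [card]; norm_num

end CfH6.M22G
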