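import Cfsg.Agent.OD.Pre
import Cfsg.Agent.H6.Led
import Cfsg.Agent.H6.M22G
/-! The presented group is the Mathieu group `M₂₂`. -/
set_option autoImplicit false
set_option maxRecDepth 100000
set_option Elab.async false
set_option linter.all false
namespace CfH6.M22I
open CfH6
open Cfsg Cfsg.Spor CfH4.Gol MulAction

def pa : Equiv.Perm GolayPt := perm [0, 1, 11, 21, 6, 5, 4, 20, 18, 17, 10, 2, 12, 14, 13, 22, 16, 9, 8, 19, 7, 3, 15, 23] (by decide +kernel)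
def pb : Equiv.Perm GolayPt := perm [0, 1, 4, 7, 2, 5, 11, 3, 17, 18, 10, 6, 12, 22, 15, 14, 16, 8, 9, 19, 21, 20, 13, 23] (by decide +kernel)
def pc : Equiv.Perm GolayPt := perm [0, 1, 11, 7, 21, 22, 20, 3, 12, 16, 14, 2, 8, 13, 10, 15, 9, 17, 18, 19, 6, 4, 5, 23] (by decide +kernel)
def pd : Equiv.Perm GolayPt := perm [0, 1, 11, 3, 17, 19, 9, 13, 18, 6, 16, 2, 12, 7, 20, 15, 10, 4, 8, 5, 14, 21, 22, 23] (by decide +kernel)
def pe : Equiv.Perm GolayPt := perm [0, 19, 11, 7, 6, 5, 4, 3, 9, 8, 10, 2, 16, 13, 14, 15, 12, 18, 17, 1, 21, 20, 22, 23] (by decide +kernel)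
def ev (i : ℕ) : Equiv.Perm GolayPt := [pa, pb, pc, pd, pe].getD i 1

theorem iso' : ∃ φ : M22B.G ≃* M22, ∀ x < 5, (φ (M22B.el x)).1 = ev x := by
  have := M22G.simple
  have := M22O.finG.1
  obtain ⟨φ, hφ⟩ := M22B.hhom ev (by decide +kernel) (by decide +kernel)
  have h1 : ∀ g, φ g ∈ M22 := mem_of_gens M22B.htop φ M22.toSubmonoid fun x hx => by
    rw [hφ x hx]
    interval_cases x <;> exact ⟨⟨mem_M24 rfl (by decide +kernel), rfl⟩, rfl⟩
  have h2 : Function.Injective φ := inj_of_simple φ (g := M22B.el 0) (by rw [hφ 0 (by decide)]; decide +kernel)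
  exact ⟨MulEquiv.ofBijective (φ.codRestrict _ h1) (bij_of_inj _ (fun a b h => h2 (congrArg Subtype.val h))
    ⟨inferInstance, M22G.card ▸ Lee.card_M22.2⟩), hφ⟩

theorem iso : IsoM22 M22B.G := ⟨iso'.choose⟩
end CfH6.M22I
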