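import Cfsg.Agent.OD.Pre
import Cfsg.Agent.H6.M24G
import Cfsg.Agent.H6.J4M
import Cfsg.Agent.OD.Helper6x9d4fa949a0
/-! The subgroup `M₂₄` of the presented fourth Janko group. -/
set_option autoImplicit false
set_option maxRecDepth 100000
namespace CfH6.J4N
open CfH6 Cfsg.Spor

def s3 : List (List ℕ) := [[0], [1], [2]]
noncomputable abbrev N : Subgroup J4B.G := gensub (byW J4B.el s3) 3

theorem ex : ∃ ρ : M24B.G →* J4B.G, ∀ x < 3, ρ (M24B.el x) = byW J4B.el s3 x :=
  M24B.hhom _ (byW_inv J4B.el (n := 4) J4B.hinv J4B.hrel (by decide +kernel))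
    (byW_rels J4B.el (n := 4) J4B.hinv J4B.hrel (by decide +kernel))
noncomputable def ρ : M24B.G →* J4B.G := Classical.choose ex
theorem hρ : ∀ x < 3, ρ (M24B.el x) = byW J4B.el s3 x := Classical.choose_spec ex
theorem range : ρ.range = N := range_hom hρ M24B.htop

theorem inj : Function.Injective ρ :=
  have := M24G.simple
  inj_of_simple ρ (g := M24B.el 1) fun hc => by
    have h1 : byW J4B.el s3 1 = J4B.el 1 := mul_one _
    have := J4M.U.val 1 (by decide)
    rw [← J4M.hφ 1 (by decide), ← h1, ← hρ 1 (by decide), hc, map_one] at this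
    exact absurd (congrFun (congrFun this 2) 2) (by decide +kernel)

theorem sub_eq : (Subgroup.closure ({J4.x, J4.y} : Set (FreeGroup J4.Gen))).map
    (PresentedGroup.mk (coxRelators J4.edges ∪ {r | r ∈ J4.extra})) = N := by
  rw [map_closure_eq _ J4B.el J4B.hinv J4B.tr J4B.hmk _ [J4.x, J4.y] (ws := [[0], [1]]) (k := 2)
    (by intro r; simp) (by decide) (by decide +kernel)]
  refine le_antisymm (gensub_le_of_subsIn _ (by decide)) (gensub_le fun y hy => ?_)
  have m : ∀ y < 2, J4B.el y ∈ gensub (byW J4B.el [[0], [1]]) 2 := fun y hy => by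
    have := mem_gensub (el := byW J4B.el [[0], [1]]) hy
    interval_cases y <;> simpa [byW] using this
  interval_cases y
  · simpa [byW, s3] using m 0 (by decide)
  · simpa [byW, s3] using m 1 (by decide)
  · simpa [byW, s3, ← J4B.hinv 1 (by decide), J4B.il] using inv_mem (m 1 (by decide))

end CfH6.J4N
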