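import Cfsg.Agent.OD.Pre
import Cfsg.Agent.H6.J4N
import Cfsg.Agent.H6.J4C
import Cfsg.Agent.H6.J4V
import Cfsg.Agent.H6.V11
import Cfsg.Agent.H6.J4K
import Cfsg.Agent.H6.J4E
import Cfsg.Agent.H6.J4X
import Cfsg.Agent.H6.J4S.p2
import Cfsg.Agent.H6.J4S.p3
import Cfsg.Agent.H6.J4S.p5
import Cfsg.Agent.H6.J4S.p7
import Cfsg.Agent.H6.J4S.p23
import Cfsg.Agent.H6.J4S.p29
import Cfsg.Agent.H6.J4S.p31
import Cfsg.Agent.H6.J4S.p37
import Cfsg.Agent.H6.J4S.p43
/-! The presented fourth Janko group: order and simplicity. -/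
set_option autoImplicit false
set_option maxRecDepth 100000
set_option Elab.async false
set_option linter.all false
namespace CfH6.J4G
open CfH6
open Cfsg.Spor

def ww : List ℕ := [1, 0, 1, 0, 2, 0, 2, 0, 2, 0, 2, 3, 1, 0, 1, 0, 1, 0, 1, 0, 2, 0, 1, 0, 1, 0, 2, 0, 2, 0, 2, 0, 2, 3, 1, 0, 1, 0, 1, 0, 1, 0, 2, 0, 1, 0, 1, 0, 2, 0, 2, 0, 2, 0, 2, 3, 1, 0, 1, 0, 1, 0, 1, 0, 2, 0]
def s4 : List (List ℕ) := [[0], [1], [2], ww]
noncomputable abbrev H : Subgroup J4B.G := gensub (byW J4B.el s4) 4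
theorem ht : J4B.el 3 = (J4B.el 3)⁻¹ := J4B.hinv 3 (by decide)
theorem hg : ∀ w ∈ J4C.gws, evw J4B.el w = 1 := follows_sound (n := 4) J4B.el J4B.hinv J4B.hrel (by decide +kernel)
theorem hw : ∀ w ∈ J4C.bws, evw J4B.el w = 1 := follows_sound (n := 4) J4B.el J4B.hinv J4B.hrel (by decide +kernel)
theorem hN (n : M24B.G) : J4N.ρ n ∈ J4N.N := J4N.range ▸ MonoidHom.mem_range.mpr ⟨n, rfl⟩
theorem hH (n : M24B.G) : J4N.ρ n ∈ H := gensub_le_of_subsIn J4B.el (by decide) (hN n)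
theorem hs : ∀ w ∈ J4C.sws, evw J4B.el w ∈ H := forall_cons (mem_gensub (el := byW J4B.el s4) (x := 3) (by decide)) forall_nil
noncomputable abbrev C := J4C.C J4B.el J4N.ρ J4N.hρ H hH hg (J4C.hbp J4B.el J4N.ρ J4N.hρ ht hw)
  (J4C.hsub J4B.el J4N.ρ J4N.hρ H hs)
theorem hK : C.K = ⊤ := C.K_top (σ := J4N.s3) (nc := 3) (fun x hx => (congrArg J4N.ρ (M24D.cdx x hx)).trans (J4N.hρ x hx))
  rfl ht J4B.htop (by decide)
theorem cov : Covers H ⊤ 173067389 := hK ▸ J4C.covers _ _ _ _ _ _ _ _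
theorem hmax : ∀ L : Subgroup J4B.G, H ≤ L → L = H ∨ L = ⊤ := J4C.hmax _ _ _ _ _ _ _ _ hK

theorem gls : ∀ w ∈ J4B.rels ++ J4V.gls, evw J4B.el w = 1 :=
  forall_app J4B.hrel (J4V.goals J4B.el J4N.ρ J4N.hρ ⊥ hg (J4V.hbp J4B.el J4N.ρ J4N.hρ ht hw))
theorem hρ : ∀ x < 3, J4N.ρ (M24B.el x) = byW (byW J4B.el s4) V11.σ x := fun x hx => by
  have : ∀ x < 3, J4N.s3.getD x [] = subst s4 (V11.σ.getD x []) := by decide
  rw [J4N.hρ x hx, byW, this x hx, evw_subst]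
  rfl
theorem hz : byW J4B.el s4 3 = (byW J4B.el s4 3)⁻¹ := by
  have := byW_rels J4B.el (n := 4) (σ := s4) J4B.hinv gls (rels' := [[3, 3]]) (by decide +kernel) _ List.mem_cons_self
  rw [evw_cons, evw_cons, evw_nil, mul_one] at this
  exact eq_inv_of_mul_eq_one_left this
noncomputable abbrev CV := V11.C (byW J4B.el s4) J4N.ρ hρ J4N.N hN (byW_rels J4B.el (n := 4) J4B.hinv gls (by decide +kernel))
  (V11.hbp _ J4N.ρ hρ hz (byW_rels J4B.el (n := 4) J4B.hinv gls (by decide +kernel)))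
theorem finH : Finite H ∧ Nat.card H ≤ 501397585920 := fin_le (K := CV.K) (gensub_le fun x hx => by
    rcases Nat.lt_succ_iff_lt_or_eq.mp hx with h | rfl
    · have := CV.rho_K (M24B.el x)
      have e : byW J4B.el J4N.s3 x = byW J4B.el s4 x := by interval_cases x <;> rfl
      exact e ▸ J4N.hρ x h ▸ this
    · exact CV.t_K)
  (fin_cast ((V11.covers _ _ _ _ _ _ _).card_le (J4N.range ▸ card_range_le _ M24O2.finG)) (by decide))
theorem finG : Finite J4B.G ∧ Nat.card J4B.G ≤ 86775571046077562880 := fin_top (fin_cast (cov.card_le finH) (by decide))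
theorem big : Nat.card J4B.G = 86775571046077562880 ∧ Function.Injective J4M.φ := inj_of_dvd _ finG
  (dvd_cons J4S.p2 (dvd_cons J4S.p3 (dvd_cons J4S.p5 (dvd_cons J4S.p7 (dvd_cons J4E.p11 (dvd_cons J4S.p23
    (dvd_cons J4S.p29 (dvd_cons J4S.p31 (dvd_cons J4S.p37 J4S.p43 (by decide)) (by decide)) (by decide)) (by decide))
    (by decide)) (by decide)) (by decide)) (by decide)) (by decide))
theorem index : H.index = 173067389 := (index_of_card cov finH big.1 (by decide)).1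

theorem simple : IsSimpleGroup J4B.G := by
  have := finG.1
  have := nontriv_of_card big.1
  have := J4S.factP
  refine simple_max _ hmax (fun M hM h => Or.inl ?_) fun M hM h => ?_
  · exact MP.core_bot J4M.U rfl J4M.φ J4M.hφ big.2 (by decide) _ _ _ J4X.sp s4 (by decide +kernel) M h
  · exact top_of_index (eq_top_of_collapse J4B.el (n := 4) J4B.hinv J4B.hrel J4B.htop M
      (pow_words J4B.el h (by norm_num) (not_dvd_card big.1 index (by decide)) 1 [[0, 1, 3]]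
        (forall_cons (rel_of_inj _ big.2 J4M.hφ (by decide +kernel) J4E.w) forall_nil))
      (by decide +kernel) 1 fun ev' h1 h2 => J4K.covers ev' ⊥ h1 h2 forall_nil)

theorem sub_eq : (Subgroup.closure ({J4.x, J4.y, (J4.y * ((J4.y * J4.x) ^ 4 * J4.y⁻¹ * J4.x)⁻¹ * J4.t *
    ((J4.y * J4.x) ^ 4 * J4.y⁻¹ * J4.x)) ^ 3} : Set (FreeGroup J4.Gen))).map
    (PresentedGroup.mk (coxRelators J4.edges ∪ {r | r ∈ J4.extra})) = H := by
  rw [map_closure_eq _ J4B.el J4B.hinv J4B.tr J4B.hmk _ [J4.x, J4.y, (J4.y * ((J4.y * J4.x) ^ 4 * J4.y⁻¹ * J4.x)⁻¹ * J4.t *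
    ((J4.y * J4.x) ^ 4 * J4.y⁻¹ * J4.x)) ^ 3] (ws := [[0], [1], ww]) (k := 3) (by intro r; simp) (by decide) (by decide +kernel)]
  refine le_antisymm (gensub_le_of_subsIn _ (by decide)) (gensub_le fun y hy => ?_)
  have m : ∀ y < 3, byW J4B.el [[0], [1], ww] y ∈ gensub (byW J4B.el [[0], [1], ww]) 3 := fun y hy => mem_gensub hy
  interval_cases y
  · exact m 0 (by decide)
  · exact m 1 (by decide)
  · have e : byW J4B.el s4 2 = (byW J4B.el [[0], [1], ww] 1)⁻¹ :=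
      (mul_one _).trans ((J4B.hinv 1 (by decide)).trans (congrArg _ (mul_one _).symm))
    exact e ▸ inv_mem (m 1 (by decide))
  · exact m 2 (by decide)
end CfH6.J4G
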