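import Cfsg.Agent.OD.Pre
import Cfsg.Agent.H6.WP
set_option autoImplicit false
set_option maxRecDepth 100000
set_option Elab.async false
set_option linter.all false
namespace CfH6.A9B
open CfH6 MulAction
def il : List ℕ := [1, 0, 3, 2, 5, 4, 7, 6, 9, 8, 11, 10, 13, 12]
def rels : List (List ℕ) := [[0, 0, 0],
  [2, 2, 2],
  [4, 4, 4],
  [6, 6, 6],
  [8, 8, 8],
  [10, 10, 10],
  [12, 12, 12],
  [0, 2, 0, 2],
  [0, 4, 0, 4],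
  [0, 6, 0, 6],
  [0, 8, 0, 8],
  [0, 10, 0, 10],
  [0, 12, 0, 12],
  [2, 4, 2, 4],
  [2, 6, 2, 6],
  [2, 8, 2, 8],
  [2, 10, 2, 10],
  [2, 12, 2, 12],
  [4, 6, 4, 6],
  [4, 8, 4, 8],
  [4, 10, 4, 10],
  [4, 12, 4, 12],
  [6, 8, 6, 8],
  [6, 10, 6, 10],
  [6, 12, 6, 12],
  [8, 10, 8, 10],
  [8, 12, 8, 12],
  [10, 12, 10, 12]]
abbrev G : Type := WP 14 il rels
def el : ℕ → G := wel 14 il rels
theorem hinv : ∀ x < 14, el (il.getD x 0) = (el x)⁻¹ := wp_inv _ _ _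
theorem hrel : ∀ r ∈ rels, evw el r = 1 := wp_rel _ _ _
theorem htop : gensub el 14 = ⊤ := wp_top _ _ _
theorem hhom {Γ : Type*} [Group Γ] (ev : ℕ → Γ) (h1 : ∀ x < 14, ev (il.getD x 0) = (ev x)⁻¹) (h2 : ∀ r ∈ rels, evw ev r = 1) :
    ∃ ρ : G →* Γ, ∀ x < 14, ρ (el x) = ev x := wp_hom _ _ _ (by decide +kernel) ev h1 h2
end CfH6.A9B
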