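import Cfsg.Agent.OD.Pre
import Cfsg.Agent.H6.Big2
/-! A Heisenberg subgroup of a matrix group. -/
set_option autoImplicit false
namespace CfH6
variable {M : Type*} [Monoid M] {mm : ℕ → ℕ → ℕ} {ok : ℕ → Bool} {one : ℕ} {sem : ℕ → M}

theorem UOk.heis [Finite Mˣ] {ms : List ℕ} (U : UOk mm ok one sem ms [1, 0, 3, 2] 4) {R : Subgroup Mˣ}
    (ha : InR ok sem R (lget ms 0 0)) (hb : InR ok sem R (lget ms 0 2)) {p : ℕ} (hp : p.Prime) (Y : ℕ) (hY : sem Y ≠ 1)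
    (h1 : (allLt 4 [1, 3, 0, 2] && chkM mm one ms [1, 3, 0, 2] Y) = true)
    (h2 : ([wpow [0] p, wpow [2] p, wpow [1, 3, 0, 2] p, [0, 1, 3, 0, 2, 1, 3, 1, 2, 0], [2, 1, 3, 0, 2, 3, 3, 1, 2, 0]].all
      fun w => allLt 4 w && chkM mm one ms w one) = true) : p * (p * p) ∣ Nat.card R := by
  have r := U.rels h2
  have i1 : evU sem ms [1, 0, 3, 2] 1 = _ := U.inv 0 (by decide)
  have i3 : evU sem ms [1, 0, 3, 2] 3 = _ := U.inv 2 (by decide)
  have m : ∀ x < 4, InR ok sem R (lget ms 0 x) → evU sem ms [1, 0, 3, 2] x ∈ R := fun x hx ⟨_, u, hu, e⟩ =>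
    (Units.ext (e.trans (U.val x hx).symm) : u = _) ▸ hu
  have c1 := U.word h1
  simp only [List.forall_mem_cons, evw_wpow, evw_cons, evw_nil, mul_one, i1, i3] at r c1
  obtain ⟨r1, r2, r3, r4, r5, -⟩ := r
  refine dvd_heis hp ?_ (fun e => hY (by rw [← c1, e, Units.val_one])) ?_ ?_ r1 r2 r3 R (m 0 (by decide) ha)
    (m 2 (by decide) hb)
  · group
  · rw [← mul_inv_eq_one, ← r4]; group
  · rw [← mul_inv_eq_one, ← r5]; group

end CfH6
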