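import Cfsg.Agent.OD.Pre
import Cfsg.Agent.H6.C1A
import Cfsg.Agent.H6.C1K
import Cfsg.Agent.H6.C1O
import Cfsg.Agent.H6.C1O
/-! An abstract presentation: order and simplicity. -/
set_option autoImplicit false
set_option maxRecDepth 100000
namespace CfH6.C1G
open CfH6 MulAction
attribute [local instance] C1A.act

theorem stab : C1A.H = stabilizer C1B.G 0 ∧ C1A.H.index = 98280 := C1A.stab C1O.covT0

theorem card : Nat.card C1B.G = 4157776806543360000 := (C1A.top C1O.finG).1

theorem base : ∀ g : C1B.G, (∀ b ∈ C1A.bs, g • b = b) → g = 1 := (C1A.top C1O.finG).2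

theorem simple : IsSimpleGroup C1B.G := by
  have := C1O.finG.1
  refine simple_of stab.1 (by rw [stab.2]; decide) (C1A.hmax stab.1 stab.2) base C1A.hbs fun M hM h => ?_
  exact top_of_index (eq_top_of_collapse C1B.el (n := 4) C1B.hinv C1B.hrel C1B.htop M
    (pow_words C1B.el h (by norm_num) (not_dvd_card card stab.2 (by decide)) 1 C1A.ex (C1A.hex base))
    (by decide +kernel) 1 fun ev' h1 h2 => C1K.covers ev' ⊥ h1 h2 forall_nil)

theorem nprime : ¬ (Nat.card C1B.G).Prime := by rw [card]; norm_num

end CfH6.C1G
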