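import Cfsg.Agent.OD.Pre
import Cfsg.Agent.H6.C3A
import Cfsg.Agent.H6.C3K
import Cfsg.Agent.H6.C3O
import Cfsg.Agent.H6.C3O
/-! An abstract presentation: order and simplicity. -/
set_option autoImplicit false
set_option maxRecDepth 100000
namespace CfH6.C3G
open CfH6 MulAction
attribute [local instance] C3A.act

theorem stab : C3A.H = stabilizer C3B.G 0 ∧ C3A.H.index = 276 := C3A.stab C3O.covT0

theorem card : Nat.card C3B.G = 495766656000 := (C3A.top C3O.finG).1

theorem base : ∀ g : C3B.G, (∀ b ∈ C3A.bs, g • b = b) → g = 1 := (C3A.top C3O.finG).2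

theorem simple : IsSimpleGroup C3B.G := by
  have := C3O.finG.1
  refine simple_of stab.1 (by rw [stab.2]; decide) (C3A.hmax stab.1 stab.2) base C3A.hbs fun M hM h => ?_
  exact top_of_index (eq_top_of_collapse C3B.el (n := 4) C3B.hinv C3B.hrel C3B.htop M
    (pow_words C3B.el h (by norm_num) (not_dvd_card card stab.2 (by decide)) 1 C3A.ex (C3A.hex base))
    (by decide +kernel) 1 fun ev' h1 h2 => C3K.covers ev' ⊥ h1 h2 forall_nil)

theorem nprime : ¬ (Nat.card C3B.G).Prime := by rw [card]; norm_num

end CfH6.C3G
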