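import Cfsg.Agent.OD.Pre
import Cfsg.Agent.H6.CoT
/-! Extraspecial groups of order 512 and their automorphism groups. -/
set_option autoImplicit false
set_option maxRecDepth 100000
set_option linter.all false
open CfL MulAction Subgroup CfH9 CfH4
namespace CfH6.Co

theorem es_rels {G : Type*} [Group G] {z : G} (h : ES2 z) (u : ℕ → G) (h0 : u 0 = z) (h1 : ∀ i < 9, ssgn (u i) = 1)
    (A : List (ℕ × ℕ)) (h2 : ∀ j < 9, ∀ i < j, csgn (u i) (u j) = if (i, j) ∈ A then -1 else 1) (rels : List (List ℕ))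
    (h3 : ∀ r ∈ rels, ∃ j < 9, ∃ i < j, r = if (i, j) ∈ A then [i, j, i, j, 0] else [i, j, i, j]) :
    (∀ x < 9, u ([0, 1, 2, 3, 4, 5, 6, 7, 8].getD x 0) = (u x)⁻¹) ∧ ∀ r ∈ rels, evw u r = 1 := by
  have s : ∀ i < 9, u i * u i = 1 := fun i hi => by
    by_contra e; have := h1 i hi; rw [ssgn, if_neg e] at this; omega
  refine ⟨fun x hx => ?_, fun r hr => ?_⟩
  · rw [inv_eq_of_mul_eq_one_right (s x hx)]; interval_cases x <;> rfl
  · obtain ⟨j, hj, i, hi, rfl⟩ := h3 r hr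
    have := h2 j hj i hi
    split_ifs at this ⊢
    · simp only [evw_cons, evw_nil, mul_one, h0]
      rw [← mul_assoc, h.anti (x := u i) (y := u j) fun c => by rw [csgn_of_comm c] at this; omega]
      calc _ = z * (u j * (u i * u i) * u j) * z := by group
        _ = _ := by rw [s i (by omega), mul_one, s j hj, mul_one, h.sq]
    · simp only [evw_cons, evw_nil, mul_one]
      rw [← mul_assoc, csgn_eq_one_iff.1 this, mul_assoc, ← csgn_eq_one_iff.1 this, ← mul_assoc (u i), s i (by omega),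
        one_mul, s j hj]

abbrev Tp := TE tpg
abbrev Tm := TE tmg
noncomputable def Zp : Tp := .mk _ 1
noncomputable def Zm : Tm := .mk _ 1
theorem hZp : ∀ t : Tp, t = 1 ∨ t = Zp ∨ ∃ s, t * s * t⁻¹ * s⁻¹ = Zp := fun t => by
  have : ∀ t : Tp, t = 1 ∨ t = Zp ∨ ∃ s ∈ ([.mk _ 2, .mk _ 4, .mk _ 8, .mk _ 16, .mk _ 32, .mk _ 64, .mk _ 128, .mk _ 256] :
    List Tp), t * s * t⁻¹ * s⁻¹ = Zp := by decide +kernel
  exact (this t).imp id (Or.imp id fun ⟨s, _, e⟩ => ⟨s, e⟩)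
theorem hZm : ∀ t : Tm, t = 1 ∨ t = Zm ∨ ∃ s, t * s * t⁻¹ * s⁻¹ = Zm := fun t => by
  have : ∀ t : Tm, t = 1 ∨ t = Zm ∨ ∃ s ∈ ([.mk _ 2, .mk _ 4, .mk _ 8, .mk _ 16, .mk _ 32, .mk _ 64, .mk _ 128, .mk _ 256] :
    List Tm), t * s * t⁻¹ * s⁻¹ = Zm := by decide +kernel
  exact (this t).imp id (Or.imp id fun ⟨s, _, e⟩ => ⟨s, e⟩)

theorem cZ {T : Type*} [Group T] {Z : T} (h : ∀ t : T, t = 1 ∨ t = Z ∨ ∃ s, t * s * t⁻¹ * s⁻¹ = Z) (h1 : Z ≠ 1)
    (h2 : ∀ s, Z * s = s * Z) (t : T) : (∀ s, t * s = s * t) ∧ t ≠ 1 ↔ t = Z :=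
  ⟨fun a => ((h t).resolve_left a.2).resolve_right fun ⟨s, e⟩ => h1 (by rw [← e, a.1]; group), fun e => e ▸ ⟨h2, h1⟩⟩
theorem Zc : ∀ s, Zp * s = s * Zp := by decide +kernel
theorem cZp : ∀ t : Tp, (∀ s, t * s = s * t) ∧ t ≠ 1 ↔ t = Zp := cZ hZp (by decide +kernel) Zc
theorem cZm : ∀ t : Tm, (∀ s, t * s = s * t) ∧ t ≠ 1 ↔ t = Zm := cZ hZm (by decide +kernel) (by decide +kernel)

theorem es512 {G : Type*} [Group G] [Finite G] {z : G} (h : ES2 z) (hc : Nat.card G = 512) :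
    (∃ ι : Tp →* G, Function.Bijective ι ∧ ι Zp = z) ∨ ∃ ι : Tm →* G, Function.Bijective ι ∧ ι Zm = z := by
  have h0 : Nd z ⊤ := ⟨trivial, fun p _ hp => h.center p fun y => hp y trivial⟩
  have c0 : Nat.card (⊤ : Subgroup G) = 512 := by rw [card_top, hc]
  have ne : ∀ {x y : G}, csgn x y = -1 → x * y ≠ y * x := fun a c => by rw [csgn_of_comm c] at a; omega
  obtain ⟨a, -, b, -, ab, sa, sb⟩ := h0.pairD h (by omega)
  obtain ⟨h1, c1⟩ := h0.split h (mem_top a) (mem_top b) (ne ab)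
  obtain ⟨c, hc', d, hd, cd, sc, sd⟩ := h1.pairD h (by omega)
  obtain ⟨h2, c2⟩ := h1.split h hc' hd (ne cd)
  obtain ⟨e, he, f, hf, ef, se, sf⟩ := h2.pairD h (by omega)
  obtain ⟨h3, c3⟩ := h2.split h he hf (ne ef)
  obtain ⟨p, hp, q, hq, pq, sp⟩ := h3.pair h (by omega)
  have k : ∀ {x y : G}, y ∈ Cx(x) → csgn x y = 1 := fun a => csgn_of_comm (mem_Cx.1 a).symm
  have k1 := k hc'.1.2; have k2 := k hc'.2; have k3 := k hd.1.2; have k4 := k hd.2
  have k5 := k he.1.1.1.2; have k6 := k he.1.1.2; have k7 := k he.1.2; have k8 := k he.2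
  have k9 := k hf.1.1.1.2; have k10 := k hf.1.1.2; have k11 := k hf.1.2; have k12 := k hf.2
  have l1 := k hp.1.1.1.1.1.2; have l2 := k hp.1.1.1.1.2; have l3 := k hp.1.1.1.2; have l4 := k hp.1.1.2
  have l5 := k hp.1.2; have l6 := k hp.2
  have m1 := k hq.1.1.1.1.1.2; have m2 := k hq.1.1.1.1.2; have m3 := k hq.1.1.1.2; have m4 := k hq.1.1.2
  have m5 := k hq.1.2; have m6 := k hq.2
  have kz : ∀ x, csgn z x = 1 := fun x => csgn_of_comm (h.cent x)
  have sz : ssgn z = 1 := if_pos h.sq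
  have o : ∀ s : G, csgn s s = 1 := fun s => csgn_of_comm rfl
  rcases ssgn_cases q with sq | sq <;> rw [sq] at sp
  · obtain ⟨r1, r2⟩ := es_rels h (fun i => [z, a, b, c, d, e, f, p, q].getD i 1) rfl (fun i hi => by
      interval_cases i <;> assumption) [(1, 2), (3, 4), (5, 6), (7, 8)] (fun j hj i hi => by
      interval_cases j <;> interval_cases i <;> first | exact kz _ | assumption) LT27.rels (by decide)
    obtain ⟨ι, -, e2⟩ := TE.exists_hom tpg (fun i => [z, a, b, c, d, e, f, p, q].getD i 1) r1 r2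
    have e3 : ι Zp = z := e2 0 Zp (by decide) (by decide +kernel)
    exact Or.inl ⟨ι, (inj_es hZp ι (e3 ▸ h.ne)).bijective_of_nat_card_le (by rw [hc, TE.card]; rfl), e3⟩
  · have fe := (csgn_comm f e).trans ef
    have pe := (csgn_comm p e).trans l5
    have pf := (csgn_comm p f).trans l6
    obtain ⟨r1, r2⟩ := es_rels h (fun i => [z, a, b, c, d, e, f, e * f * p, e * f * q].getD i 1) rfl (fun i hi => by
      interval_cases i <;> simp [h.ssgn_mul, h.csgn_mul_left, *])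
      [(1, 2), (3, 4), (5, 6), (5, 7), (5, 8), (6, 7), (6, 8), (7, 8)] (fun j hj i hi => by
      interval_cases j <;> interval_cases i <;> simp [h.csgn_mul_left, h.csgn_mul_right, *]) LT28.rels (by decide)
    obtain ⟨ι, -, e2⟩ := TE.exists_hom tmg (fun i => [z, a, b, c, d, e, f, e * f * p, e * f * q].getD i 1) r1 r2
    have e3 : ι Zm = z := e2 0 Zm (by decide) (by decide +kernel)
    exact Or.inr ⟨ι, (inj_es hZm ι (e3 ▸ h.ne)).bijective_of_nat_card_le (by rw [hc, TE.card]; rfl), e3⟩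

theorem autp : Nat.card (MulAut Tp) ≤ 2 * 44590694400 := by
  have := aut_le (g := tpg) (aut_Z cZp) [(.mk _ 2, 270), (.mk _ 4, 128), (.mk _ 8, 70), (.mk _ 16, 32), (.mk _ 32, 18), (.mk _ 64, 8),
    (.mk _ 128, 4), (.mk _ 256, 2)] [] (by decide +kernel)
  rwa [show fixL (MulAut Tp) ([] : List Tp) = ⊤ from top_unique fun _ _ => forall_nil, card_top] at this

theorem autm : Nat.card (MulAut Tm) < 3 * 44590694400 ∧ 17 ∣ Nat.card (MulAut Tm) := by
  have := aut_le (g := tmg) (aut_Z cZm) [(.mk _ 2, 238), (.mk _ 4, 128), (.mk _ 8, 54), (.mk _ 16, 32), (.mk _ 32, 10), (.mk _ 64, 8),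
    (.mk _ 128, 6), (.mk _ 256, 4)] [] (by decide +kernel)
  rw [show fixL (MulAut Tm) ([] : List Tm) = ⊤ from top_unique fun _ _ => forall_nil, card_top] at this
  refine ⟨this.trans_lt (by decide), ?_⟩
  let u : ℕ → Tm := fun i => [Zm, .mk _ 407, .mk _ 19, .mk _ 258, .mk _ 32, .mk _ 238, .mk _ 412, .mk _ 335, .mk _ 17].getD i 1
  obtain ⟨f, e1, e2⟩ := TE.exists_hom tmg u (by decide +kernel) (by decide +kernel)
  have e3 : f Zm = Zm := e2 0 Zm (by decide) (by decide +kernel)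
  let φ := MulEquiv.ofBijective f (Finite.injective_iff_bijective.1 (inj_es hZm f (by rw [e3]; decide +kernel)))
  have : Fact (Nat.Prime 17) := ⟨by norm_num⟩
  have e4 : ∀ t, φ t = evw u (tm.wl t.1) := e1
  have e5 : ∀ (n : ℕ) t, (φ ^ n) t = (fun t : Tm => evw u (tm.wl t.1))^[n] t := fun n => by
    induction n with
    | zero => exact fun _ => rfl
    | succ n ih => exact fun t => by rw [pow_succ, MulAut.mul_apply, ih, e4]; rfl
  rw [← orderOf_eq_prime (x := φ) (p := 17) (MulEquiv.ext fun t => TE.top_of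
    ((φ ^ 17).toMonoidHom.eqLocus (MonoidHom.id _)) (fun x hx a e => by
      change (φ ^ 17) a = a
      rw [e5]; revert x a; decide +kernel) t) fun e => by
    have := e4 (.mk _ 2)
    rw [e] at this; revert this; decide +kernel]
  exact orderOf_dvd_natCard (G := MulAut Tm) ⊤ trivial |>.trans (by rw [card_top])
end CfH6.Co
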