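import Cfsg.Agent.OD.Pre
import Cfsg.Agent.H6.CoD
import Cfsg.Agent.H6.A9O
import Cfsg.Agent.H6.Big2
/-! The automorphism group of the extraspecial group of order 512 as a permutation group. -/
set_option autoImplicit false
set_option maxRecDepth 100000
set_option linter.all false
open CfL MulAction Subgroup CfH9 CfH4
namespace CfH6.Co

abbrev S := MulAut Tp
noncomputable def mkT (k : ℕ) : Tp := if h : k < 512 then ⟨k, h⟩ else 1
theorem mkT_val {k : ℕ} (h : k < 512) : (mkT k).1 = k := congrArg Subtype.val (dif_pos h)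
theorem mkT_eq (t : Tp) : mkT t.1 = t := dif_pos t.2
noncomputable def uS (x k : ℕ) : Tp := mkT (sS.R x (tp.R k 0))

def AutOk (x : ℕ) : Prop := (∀ k < 9, uS x (LT27.il.getD k 0) = (uS x k)⁻¹) ∧ (∀ r ∈ LT27.rels, evw (uS x) r = 1) ∧
  uS x 0 = Zp ∧ ∀ t : Tp, (evw (uS x) (tp.wl t.1)).1 = sS.R x t.1
noncomputable instance (x : ℕ) : Decidable (AutOk x) := by unfold AutOk; infer_instance
theorem kA1 : ∀ x < 19, AutOk x := by decide +kernel
theorem kA2 : ∀ x < 19, AutOk (x + 19) := by decide +kernel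

theorem exA (x : ℕ) : ∃ φ : S, x < 38 → ∀ t, (φ⁻¹ t).1 = sS.R x t.1 := by
  by_cases hx : x < 38
  swap
  · exact ⟨1, fun h => absurd h hx⟩
  have k : AutOk x := by
    by_cases h : x < 19
    · exact kA1 x h
    · rw [show x = x - 19 + 19 by omega]; exact kA2 _ (by omega)
  obtain ⟨f, e1, e2⟩ := TE.exists_hom tpg (uS x) k.1 k.2.1
  have e3 : f Zp = Zp := (e2 0 Zp (by decide) (by decide +kernel)).trans k.2.2.1
  exact ⟨(MulEquiv.ofBijective f (Finite.injective_iff_bijective.1 (inj_es hZp f (by rw [e3]; decide +kernel))))⁻¹,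
    fun _ t => (congrArg Subtype.val (e1 t)).trans (k.2.2.2 t)⟩

noncomputable def eS (x : ℕ) : S := (exA x).choose
noncomputable def r : Rep sS eS := ⟨MulAction.toPermHom S Tp, fun x hx i => (exA x).choose_spec hx i⟩

theorem wd {w : List ℕ} (hw : ∀ x ∈ w, x < 38) (t : Tp) : ((evw eS w)⁻¹ t).1 = sS.trL w t.1 := r.word hw t

theorem base : ∀ g ∈ r.Fx bs, g = 1 := fun g hg => MulEquiv.ext fun t =>
  TE.top_of (g.toMonoidHom.eqLocus (MonoidHom.id _)) (fun x hx a e => by
    have k : ∀ x < 9, (evw mkT (gW.getD x [])).1 = tp.R x 0 ∧ ∀ b ∈ gW.getD x [], b = 1 ∨ b ∈ bs ∧ b < 512 := by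
      decide +kernel
    rw [show a = evw mkT (gW.getD x []) from Subtype.ext (e.symm.trans (k x hx).1.symm)]
    refine list_prod_mem (List.forall_mem_map.2 fun b hb => ?_)
    rcases (k x hx).2 b hb with rfl | h
    · exact aut_Z cZp g
    · exact hg (mkT b) (by rw [mkT_val h.2]; exact h.1)) t

theorem hbs : ∀ b ∈ bs, b < sS.N := by decide +kernel
noncomputable def eqW (u w : List ℕ) : Bool := allLt 38 u && allLt 38 w && sS.same bs u w

theorem weq (u w : List ℕ) (h : eqW u w = true := by decide +kernel) : evw eS u = evw eS w := by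
  simp only [eqW, Bool.and_eq_true] at h
  exact r.of_same base (allLt_sound h.1.1) (allLt_sound h.1.2) h.2

theorem wne (u w : List ℕ) (h : (allLt 38 u && allLt 38 w && !sS.same bs u w) = true := by decide +kernel) :
    evw eS u ≠ evw eS w := fun e => by
  simp only [Bool.and_eq_true] at h
  rw [r.same_of hbs (allLt_sound h.1.1) (allLt_sound h.1.2) e] at h
  exact absurd h.2 (by decide)

noncomputable def apOk (w : List ℕ) (a b : Tp) : Bool := allLt 38 w && Nat.beq (sS.trL w b.1) a.1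
theorem ap (w : List ℕ) (a b : Tp) (h : apOk w a b = true := by decide +kernel) : evw eS w a = b := by
  rw [apOk, Bool.and_eq_true] at h
  have : (evw eS w)⁻¹ b = a := Subtype.ext ((wd (allLt_sound h.1) b).trans (Nat.eq_of_beq_eq_true h.2))
  rw [← this, MulAut.apply_inv_self]

theorem inn (w : List ℕ) (t : Tp) (h : (bs.all fun b => apOk w (mkT b) (t * mkT b * t⁻¹)) = true := by decide +kernel) :
    evw eS w = MulAut.conj t := (inv_mul_eq_one.1 (base _ fun (i : Tp) hi => by
  have := ap _ _ _ (List.all_eq_true.1 h _ hi)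
  rw [mkT_eq] at this
  change (evw eS w)⁻¹ (t * i * t⁻¹) = i
  rw [← this, MulAut.inv_apply_self]))

noncomputable abbrev S0 : Subgroup S := gensub eS 38
theorem wS {w : List ℕ} (h : ∀ x ∈ w, x < 38) : evw eS w ∈ S0 := evw_mem (fun _ => mem_gensub) h

theorem S0_le {R : Subgroup S} (h : ∀ x < 8, eS x ∈ R) : S0 ≤ R := gensub_le fun x => by
  induction x using Nat.strong_induction_on with
  | _ x ih =>
    intro hx
    have k : ∀ x < 38, x < 8 ∨ (allLt x (dfW.getD x []) && eqW (dfW.getD x []) [x]) = true := by decide +kernel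
    refine (k x hx).elim (h x) fun a => ?_
    rw [Bool.and_eq_true] at a
    have := weq _ _ a.2
    rw [evw_cons, evw_nil, mul_one] at this
    exact this ▸ evw_mem (fun y hy => ih y hy (by omega)) (allLt_sound a.1)

theorem kL : sS.lvOk 38 lv [] = true := by decide +kernel
theorem S0_ge : 44590694400 ≤ Nat.card S0 :=
  le_trans (by decide +kernel) ((r.lv_ge le_rfl _ _ kL).trans (card_le_of_le inf_le_left))

noncomputable def c (i : ℕ) : Tp := mkT (cN i)
noncomputable def fxs (fp : List ℕ) : List (ℕ × ℕ) := fp.map fun i => ((c i).1, Nat.shiftLeft 1 (c i).1)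

noncomputable def slvOk (rs : List (List Rul)) (ys : List (List ℕ)) (fp : List ℕ) (ts cs : List (List ℕ)) : Bool :=
  bs.all (fun b => Nat.blt b sS.N) && ys.all (allLt sS.nc) && ts.all (allLt (sS.nc + 1)) && cs.all (allLt sS.nc) &&
    rulOk lv rs [] && (rs.flatten.all fun ρ => allLt sS.nc ρ.y &&
    (ys.contains ρ.y && Nat.beq (sS.trL ρ.y ρ.b) ρ.b' && Nat.beq ρ.S 0 ||
    ρ.y.isEmpty && (fxs fp).contains (ρ.b, ρ.S))) && sS.dfs (sS.slv bs ys ts cs) lv rs []

theorem slv (hS : Nat.card S0 ≤ 44590694400) {rs : List (List Rul)} {ys ts cs : List (List ℕ)} {fp : List ℕ}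
    (h : slvOk rs ys fp ts cs = true) {g : S} (hg : g ∈ S0) (hy : ∀ y ∈ ys, evw eS y * g = g * evw eS y)
    (hf : ∀ i ∈ fp, g (c i) = c i) (ht : ∀ t ∈ ts, evw (upd eS 38 g) t = 1) : ∃ w ∈ cs, g = evw eS w :=
  r.solve le_rfl base kL (hS.trans (by decide +kernel)) rs ys (fxs fp) ts cs h hg hy (fun s hs (i : Tp) hi => by
    obtain ⟨j, hj, rfl⟩ := List.mem_map.1 hs
    have e : i = c j := Subtype.ext hi
    have : g⁻¹ i = c j := by rw [e, ← hf j hj, MulAut.inv_apply_self, hf j hj]
    change Nat.testBit _ (g⁻¹ i).1 = true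
    rw [this]
    exact (congrArg (Nat.testBit · _) (Nat.one_shiftLeft _)).trans Nat.testBit_two_pow_self) ht

theorem t270 (t : Tp) (h : t * t = 1 ∧ t ≠ 1 ∧ t ≠ Zp) : ∃ s ∈ S0, s t = c 9 := by
  have : ∀ t : Tp, t * t = 1 ∧ t ≠ 1 ∧ t ≠ Zp → bitN (lv0.foldr (fun w m => Nat.lor m (Nat.shiftLeft 1 (sS.trL w 463))) 0) t.1
    = true := by decide +kernel
  have k : ∀ l : List (List ℕ), (∀ w ∈ l, ∀ x ∈ w, x < 38) → Nat.testBit (l.foldr (fun w m => Nat.lor m
      (Nat.shiftLeft 1 (sS.trL w 463))) 0) t.1 = true → ∃ s ∈ S0, s t = c 9 := fun l => by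
    induction l with
    | nil => intro _ h; simp at h
    | cons w l ih =>
      intro h1 h2
      change Nat.testBit (_ ||| _) _ = true at h2
      rw [Nat.testBit_or, Bool.or_eq_true] at h2
      refine h2.elim (ih fun v hv => h1 v (List.mem_cons_of_mem _ hv)) fun e => ⟨_, wS (h1 w List.mem_cons_self), ?_⟩
      rw [show t = (evw eS w)⁻¹ (c 9) from Subtype.ext ((wd (h1 w List.mem_cons_self) _).trans (bit_one e)).symm,
        MulAut.apply_inv_self]
  exact k lv0 (allLt_all (by decide +kernel)) (bitN_eq _ _ ▸ this t h)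

def sg9 : List (List ℕ) := [[0], [0, 0], [1], [1, 1], [2], [2, 2], [3], [3, 3], [4], [4, 4], [5], [5, 5], [6], [6, 6]]
theorem A9_ge : 181440 ≤ Nat.card (gensub (byW eS sg9) 14) := le_trans (by decide) (r.chain_ge (byW_gen eS sg9) 9 ch9
  (by decide +kernel))
end CfH6.Co
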