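import Cfsg.Agent.OD.Pre
import Cfsg.Agent.H6.CoS
/-! Solutions of equations in the automorphism group. -/
set_option autoImplicit false
set_option maxRecDepth 100000
set_option Elab.async false
set_option linter.all false
open CfL
namespace CfH6.Co
def V4 : List (List ℕ) := [[], [32], [33], [32, 33]]
def csA : List (List ℕ) := (List.range 7).flatMap fun j => V4.map fun v => wpow [30] j ++ v
theorem sA : slvOk rsA [[30]] [] [] csA = true := by decide +kernel
theorem sB : slvOk rsB [[31]] [9] [[38, 38, 38], wpow [30, 38, 38] 8, wpow [30, 38, 38, 30, 30, 30, 38] 6] [[1]] = true := by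
  decide +kernel
theorem sC : slvOk rsC [[0], [1], [2], [3], [4]] [] [] V4 = true := by decide +kernel
theorem sD : slvOk rsD [[36], [37]] [9] [[38, 38, 38], [0, 38, 0, 38]] [[5], [33, 5, 33], [34], [35]] = true := by
  decide +kernel
theorem sE : slvOk rsE [[0], [1], [2], [3]] [9, 8, 7] [[38, 38, 38]] [[]] = true := by decide +kernel
theorem sF : slvOk rsF [[5, 6, 6, 5]] [3, 4, 5, 6, 7, 8, 9] [] [[], w12] = true := by decide +kernel
end CfH6.Co
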