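import Cfsg.Agent.OD.Pre
import Cfsg.Agent.H6.CoV
import Cfsg.Agent.H7.FStar
/-! The centraliser of the involution acts on its extraspecial subgroup. -/
set_option autoImplicit false
set_option maxRecDepth 100000
set_option linter.all false
open CfL MulAction Subgroup CfH9 CfH4
namespace CfH6.Co

section
variable {G : Type*} [Group G]

theorem rng_ge {A : Type*} [Group A] [Finite G] (θ : G →* A) {a : G} (h : ∀ k, θ k = 1 → k = 1 ∨ k = a) :
    Nat.card G ≤ 2 * Nat.card θ.range := by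
  rw [← θ.ker.card_mul_index, index_ker]
  refine Nat.mul_le_mul_right _ ?_
  change Nat.card (θ.ker : Set G) ≤ 2
  rw [Nat.card_coe_set_eq]
  exact (Set.ncard_le_ncard (t := {1, a}) h).trans ((Set.ncard_insert_le _ _).trans (by simp))

theorem rng_le {A : Type*} [Group A] [Finite G] (θ : G →* A) {a : G} (h : θ a = 1) (h1 : a ≠ 1) :
    2 * Nat.card θ.range ≤ Nat.card G := by
  rw [← θ.ker.card_mul_index, index_ker]
  exact Nat.mul_le_mul_right _ ((one_lt_card_iff_ne_bot _).2 fun e => h1 (e.le h))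

theorem odd_z {z x y : G} {n : ℕ} (z2 : z * z = 1) (c : y * z = z * y) (e : x = y ∨ x = z * y) (hx : x ^ (2 * n + 1) = 1)
    (hy : y ^ (2 * n + 1) = 1) : x = y := e.elim id fun e => by
  rw [e, (show Commute z y from c.symm).mul_pow, hy, pow_succ, pow_mul, pow_two, z2, one_pow, one_mul, mul_one] at hx
  rw [e, hx, one_mul]

theorem card_Cx_conj [Finite G] {a b : G} (h : IsConj a b) : Nat.card Cx(a) = Nat.card Cx(b) := by
  have x := ncard_class_mul a
  have y := ncard_class_mul b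
  rw [show {c | IsConj b c} = {c | IsConj a c} from Set.ext fun _ => ⟨h.trans, h.symm.trans⟩, ← x] at y
  exact (Nat.eq_of_mul_eq_mul_left ((Set.ncard_pos (Set.toFinite _)).2 ⟨a, IsConj.refl a⟩) y).symm

theorem exn [Finite G] {z f x : G} {p m : ℕ} [Fact p.Prime] (h : IsConj z f) (c1 : x * z = z * x) (c2 : x * f = f * x)
    (h5 : orderOf x = p) (hc : Nat.card Cx(z) = p * m) (hm : ¬ p ∣ m) :
    ∃ n, n * z * n⁻¹ = f ∧ n * x * n⁻¹ ∈ zpowers x ∧ x ∈ zpowers (n * x * n⁻¹) := by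
  have hc' := (card_Cx_conj h).symm.trans hc
  obtain ⟨n, rfl⟩ := isConj_iff.1 h
  obtain ⟨c, h1, h2⟩ := conj_into (p := p) (n := 1) (g := n * x * n⁻¹) (zpowers_le.2 (mem_Cx.2 c2))
    (not_dvd_relIndex (zpowers_le.2 (mem_Cx.2 c2)) hc' (by rw [Nat.card_zpowers, h5]) hm)
    (mem_Cx.2 (by calc _ = n * (x * z) * n⁻¹ := by group
      _ = _ := by rw [c1]; group)) (by rw [conj_pow, pow_one, ← h5, pow_orderOf_eq_one]; group)
  have e : c * n * x * (c * n)⁻¹ = c * (n * x * n⁻¹) * c⁻¹ := by group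
  refine ⟨c * n, by rw [← mem_Cx'.1 h1]; group, e ▸ h2, ?_⟩
  rw [eq_of_le_of_card_ge (zpowers_le.2 (e ▸ h2)) (by
    rw [Nat.card_zpowers, Nat.card_zpowers, ← MulAut.conj_apply, MulEquiv.orderOf_eq])]
  exact mem_zpowers x

/-- `g` induces the automorphism `s` -/
def L (ι : Tp →* G) (g : G) (s : S) : Prop := ∀ t, g * ι t * g⁻¹ = ι (s t)

variable {ι : Tp →* G} {g g' : G} {s s' : S}
theorem L.one : L ι 1 1 := fun t => by simp
theorem L.mul (a : L ι g s) (b : L ι g' s') : L ι (g * g') (s * s') := fun t => by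
  rw [MulAut.mul_apply, ← a, ← b]; group
theorem L.inv (a : L ι g s) : L ι g⁻¹ s⁻¹ := fun t => by
  have := a (s⁻¹ t)
  rw [MulAut.apply_inv_self] at this
  rw [← this]; group
theorem L.pow (a : L ι g s) (n : ℕ) : L ι (g ^ n) (s ^ n) := by
  induction n with
  | zero => simpa using L.one
  | succ n ih => rw [pow_succ, pow_succ]; exact ih.mul a
theorem L.evw {ev : ℕ → G} {e : ℕ → S} {k : ℕ} (h : ∀ x < k, L ι (ev x) (e x)) {w : List ℕ} (hw : ∀ x ∈ w, x < k) :
    L ι (evw ev w) (evw e w) := by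
  induction w with
  | nil => exact L.one
  | cons x w ih => exact (h x (hw x List.mem_cons_self)).mul (ih fun y hy => hw y (List.mem_cons_of_mem _ hy))
theorem L.inn (t : Tp) : L ι (ι t) (MulAut.conj t) := fun u => by simp
theorem L.com (a : L ι g s) {t : Tp} (e : s t = t) : g * ι t = ι t * g := mul_inv_eq_iff_eq_mul.1 ((a t).trans (by rw [e]))
end

structure St {G : Type*} [Group G] (z : G) (ι : Tp →* G) : Prop where
  inj : Function.Injective ι
  z0 : ι Zp = z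
  nm : ∀ h, h * z = z * h → ∀ t, h * ι t * h⁻¹ ∈ ι.range
  ct : ∀ h, (∀ t, h * ι t = ι t * h) → h = 1 ∨ h = z
  card : Nat.card Cx(z) = 2 * 44590694400
  cj : ∃ t ≠ Zp, IsConj z (ι t)

/-- odd orders of letters -/
def od (x : ℕ) : ℕ := if x = 30 then 3 else 1
def oddL : List ℕ := [0, 1, 2, 3, 4, 5, 6, 7, 30, 31, 34, 35]
theorem od_pow : ∀ x ∈ oddL, eS x ^ (2 * od x + 1) = 1 := fun x hx => by
  have : ∀ x ∈ oddL, eqW (wpow [x] (2 * od x + 1)) [] = true := by decide +kernel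
  simpa [evw_wpow] using weq _ _ (this x hx)

namespace St
variable {G : Type*} [Group G] {z : G} {ι : Tp →* G} (h : St z ι) {g g' : G} {s s' : S}
include h

theorem z2 : z * z = 1 := by rw [← h.z0, ← map_mul, show Zp * Zp = 1 by decide +kernel, map_one]
theorem z1 : z ≠ 1 := fun e => absurd (h.inj (h.z0.trans (e.trans (map_one ι).symm))) (by decide +kernel)
theorem zc (t : Tp) : ι t * z = z * ι t := by rw [← h.z0, ← map_mul, ← map_mul, Zc]
theorem cz (a : L ι g s) : g * z = z * g := h.z0 ▸ a.com (aut_Z cZp s)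
theorem Lz : L ι z 1 := fun t => by rw [← h.zc]; simp
theorem uq (a : L ι g s) (b : L ι g' s) : g = g' ∨ g = z * g' :=
  (h.ct _ fun t => (a.mul b.inv).com (by simp)).imp mul_inv_eq_one.1 mul_inv_eq_iff_eq_mul.1
theorem eqS (a : L ι g s) (b : L ι g s') : s = s' := MulEquiv.ext fun t => h.inj ((a t).symm.trans (b t))
theorem fix (a : L ι g s) {t : Tp} (e : g * ι t = ι t * g) : s t = t := h.inj (by rw [← a, e]; group)
theorem odd (a : L ι g s) (b : L ι g' s) {n : ℕ} (e : g ^ (2 * n + 1) = 1) (e' : g' ^ (2 * n + 1) = 1) : g = g' :=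
  odd_z h.z2 (h.cz b) (h.uq a b) e e'
theorem sq1 (a : L ι g 1) : g * g = 1 := by rcases h.uq a L.one with e | e <;> simp [e, h.z2]

variable [Finite G]

theorem lift : Nat.card S0 ≤ 44590694400 ∧ (∀ s ∈ S0, ∃ g, L ι g s) ∧ ∀ g, g * z = z * g → ∃ s ∈ S0, L ι g s := by
  obtain ⟨θ, e⟩ := exists_theta h.inj Cx(z) fun k hk => h.nm k (mem_Cx.1 hk)
  have c1 := rng_ge θ (a := ⟨z, mem_Cx.2 rfl⟩) fun k hk => (h.ct k fun t => by
    have := e k t
    rw [hk] at this
    exact mul_inv_eq_iff_eq_mul.1 this.symm).imp Subtype.ext Subtype.ext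
  have c2 : 2 * Nat.card θ.range ≤ 2 * 44590694400 := h.card ▸ rng_le θ (a := ⟨z, mem_Cx.2 rfl⟩)
    (MulEquiv.ext fun t => h.inj (by rw [e, ← h.zc]; simp)) fun e => h.z1 (congrArg Subtype.val e)
  rw [h.card] at c1
  have l1 : S0 ≤ θ.range := S0_le fun x hx => by
    have := sq_mem_of_card (R := θ.range) (autp.trans c1) (eS x * eS x)
    have k := od_pow x ((show ∀ x < 8, x ∈ oddL by decide) x hx)
    rw [show od x = 1 from if_neg (by omega)] at k
    rwa [show eS x * eS x * (eS x * eS x) = eS x ^ (2 * 1 + 1) * eS x by simp [pow_succ, mul_assoc], k, one_mul] at this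
  have c3 := Nat.le_of_mul_le_mul_left c2 two_pos
  have l2 := eq_of_le_of_card_ge l1 (c3.trans S0_ge)
  refine ⟨l2 ▸ c3, fun s hs => ?_, fun g hg => ⟨θ ⟨g, mem_Cx.2 hg⟩, l2.ge ⟨_, rfl⟩, fun t => (e ⟨g, mem_Cx.2 hg⟩ t).symm⟩⟩
  obtain ⟨g, rfl⟩ := l1 hs
  exact ⟨g, fun t => (e g t).symm⟩

theorem lift_odd (hs : s ∈ S0) {n : ℕ} (hn : s ^ (2 * n + 1) = 1) : ∃ g, L ι g s ∧ g ^ (2 * n + 1) = 1 := by
  obtain ⟨b, hb⟩ := h.lift.2.1 s hs
  rcases h.uq (hn ▸ hb.pow (2 * n + 1)) L.one with e | e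
  · exact ⟨b, hb, e⟩
  · refine ⟨z * b, by simpa using h.Lz.mul hb, ?_⟩
    rw [(show Commute z b from (h.cz hb).symm).mul_pow, e, pow_succ, pow_mul, pow_two, h.z2, one_pow, one_mul, mul_one, h.z2]

theorem cjc : IsConj z (ι (c 9)) := by
  obtain ⟨t, t1, ht⟩ := h.cj
  obtain ⟨s, hs, e⟩ := t270 t ⟨h.inj (by rw [map_mul, map_one, sq_of_isConj ht h.z2]),
    fun e => ne_one_of_isConj ht h.z1 (by rw [e, map_one]), t1⟩
  obtain ⟨b, hb⟩ := h.lift.2.1 s hs
  exact ht.trans (isConj_iff.2 ⟨b, e ▸ hb t⟩)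

theorem exEv : ∃ ev : ℕ → G, (∀ x < 38, L ι (ev x) (eS x)) ∧ ∀ x ∈ oddL, ev x ^ (2 * od x + 1) = 1 := by
  have : ∀ x, ∃ g, (x < 38 → L ι g (eS x)) ∧ (x ∈ oddL → g ^ (2 * od x + 1) = 1) := fun x => by
    by_cases h1 : x ∈ oddL
    · obtain ⟨g, a, b⟩ := h.lift_odd (mem_gensub (show x < 38 by revert x; decide)) (od_pow x h1)
      exact ⟨g, fun _ => a, fun _ => b⟩
    by_cases h2 : x < 38
    · obtain ⟨g, a⟩ := h.lift.2.1 _ (mem_gensub h2)
      exact ⟨g, fun _ => a, fun b => absurd b h1⟩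
    · exact ⟨1, fun b => absurd b h2, fun b => absurd b h1⟩
  choose ev h1 h2 using this
  exact ⟨ev, h1, h2⟩
end St

theorem exSt {G : Type*} [Group G] [Finite G] (z : G) (hz : orderOf z = 2) (Q : Subgroup Cx(z)) [Q.Normal]
    (hF : Cfsg.generalizedFittingSubgroup Cx(z) = Q) (hQ : Cfsg.IsExtraspecial 2 Q) (hc : Nat.card Q = 2 ^ 9)
    (hq : Nat.card (Cx(z) ⧸ Q) = 174182400)
    (hw : ∃ g : G, (∃ hq : g * z * g⁻¹ ∈ Cx(z), (⟨g * z * g⁻¹, hq⟩ : Cx(z)) ∈ Q) ∧ g * z * g⁻¹ ≠ z) : ∃ ι, St z ι := by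
  obtain ⟨z0, h0⟩ := exists_es2 hQ
  have cz : ∀ g : Cx(z), (∀ q : Q, g * q = q * g) → g = 1 ∨ g = z0 := fun g hg => by
    have : g ∈ Q := hF ▸ CfH7.centralizer_fstar_le fun q hq => (hg ⟨q, hF ▸ hq⟩).symm
    exact (h0.center ⟨g, this⟩ fun y => Subtype.ext (hg y)).imp (congrArg Subtype.val) (congrArg Subtype.val)
  have z1 : z ≠ 1 := fun e => by rw [e, orderOf_one] at hz; omega
  have e0 : z = z0 := congrArg Subtype.val ((cz ⟨z, mem_Cx.2 rfl⟩ fun q => Subtype.ext (mem_Cx.1 q.1.2).symm).resolve_left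
    fun e => z1 (congrArg Subtype.val e))
  have hH : Nat.card Cx(z) = 2 * 44590694400 := by rw [card_eq_card_quotient_mul_card_subgroup Q, hq, hc]; rfl
  rcases es512 h0 hc with ⟨ι, i1, i2⟩ | ⟨ι, i1, i2⟩
  · have rg : ((Cx(z)).subtype.comp (Q.subtype.comp ι)).range = Q.map (Cx(z)).subtype := by
      rw [MonoidHom.range_comp, MonoidHom.range_comp, MonoidHom.range_eq_top.2 i1.2, ← MonoidHom.range_eq_map, range_subtype]
    have e1 : ((ι Zp : Cx(z)) : G) = z := by rw [i2, ← e0]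
    refine ⟨(Cx(z)).subtype.comp (Q.subtype.comp ι), ⟨(subtype_injective _).comp ((subtype_injective _).comp i1.1), e1, fun g hg t => ?_,
      fun g hg => ?_, hH, ?_⟩⟩
    · exact rg.ge ⟨_, ‹Q.Normal›.conj_mem _ (ι t).2 ⟨g, mem_Cx.2 hg⟩, rfl⟩
    · refine (cz ⟨g, mem_Cx.2 ((congrArg (g * ·) e1.symm).trans ((hg Zp).trans (congrArg (· * g) e1)))⟩ fun q => ?_).imp
        (congrArg Subtype.val) fun e => (congrArg Subtype.val e).trans e0.symm
      obtain ⟨t, rfl⟩ := i1.2 q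
      exact Subtype.ext (hg t)
    · obtain ⟨g, ⟨h1, h2⟩, h3⟩ := hw
      obtain ⟨t, ht⟩ := i1.2 ⟨_, h2⟩
      have : g * z * g⁻¹ = ι t := by rw [ht]
      exact ⟨t, fun e => h3 (by rw [this, e, i2, ← e0]), isConj_iff.2 ⟨g, this⟩⟩
  · exfalso
    obtain ⟨θ, e⟩ := exists_theta (ι := Q.subtype.comp ι) ((subtype_injective _).comp i1.1) ⊤ fun k _ t => by
      obtain ⟨s, hs⟩ := i1.2 ⟨_, ‹Q.Normal›.conj_mem _ (ι t).2 k⟩
      exact ⟨s, congrArg Subtype.val hs⟩
    have c1 := rng_ge θ (a := ⟨z0, trivial⟩) fun k hk => (cz k fun q => by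
      obtain ⟨t, rfl⟩ := i1.2 q
      have := e k t
      rw [hk] at this
      exact mul_inv_eq_iff_eq_mul.1 this.symm).imp Subtype.ext Subtype.ext
    have c2 : Nat.card θ.range ∣ 2 * 44590694400 := by rw [← hH, ← index_ker, ← card_top (G := Cx(z))]; exact index_dvd_card _
    have c3 := θ.range.card_mul_index
    have c4 := autm
    rw [card_top, hH] at c1
    have c5 : θ.range.index < 3 := by
      by_contra c
      have : Nat.card θ.range * 3 ≤ Nat.card θ.range * θ.range.index := Nat.mul_le_mul_left _ (by omega)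
      omega
    have := index_ne_zero_of_finite (H := θ.range)
    rcases (Nat.Prime.dvd_mul (by norm_num)).1 (c3 ▸ c4.2) with a | a
    · exact absurd (a.trans c2) (by decide)
    · exact absurd (Nat.le_of_dvd (by omega) a) (by omega)

end CfH6.Co
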