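import Cfsg.Agent.OD.Pre
import Cfsg.Agent.H6.CoE
import Cfsg.Agent.OD.Helper6x7a5e377700
import Cfsg.Agent.OD.Helper6xb99efbc52f
import Cfsg.Agent.OD.Helper6xd444d06704
/-! A subgroup `A₉` in the centraliser of the involution. -/
set_option autoImplicit false
set_option maxRecDepth 100000
set_option linter.all false
open CfL MulAction Subgroup CfH9 CfH4
namespace CfH6.Co

theorem cjw {G : Type*} [Group G] {ev : ℕ → G} {m : G} (v : ℕ) (g : G) {t : List ℕ}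
    (ht : ∀ x ∈ t, x = v ∨ m * ev x = ev x * m) :
    evw (upd ev v (m * g * m⁻¹)) t = m * evw (upd ev v g) t * m⁻¹ := by
  refine Eq.trans ?_ (map_evw (MulAut.conj m).toMonoidHom _ t).symm
  refine congrArg List.prod (List.map_congr_left fun x hx => ?_)
  by_cases e : x = v
  · simp [upd, e]
  · simp [upd, e, (ht x hx).resolve_left e]

theorem evw_com {G : Type*} [Group G] {ev : ℕ → G} {m : G} {w : List ℕ} (h : ∀ x ∈ w, m * ev x = ev x * m) :
    m * evw ev w = evw ev w * m :=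
  (mem_Cx.1 (list_prod_mem (List.forall_mem_map.2 fun x hx => mem_Cx.2 (h x hx).symm))).symm

theorem levw {G : Type*} [Group G] {ι : Tp →* G} {ev : ℕ → G} {g : G} {s : S} (h : ∀ x < 38, L ι (ev x) (eS x))
    (a : L ι g s) {t : List ℕ} (ht : ∀ x ∈ t, x < 39) : L ι (evw (upd ev 38 g) t) (evw (upd eS 38 s) t) :=
  L.evw (k := 39) (fun x hx => by
    unfold upd
    split_ifs
    · exact a
    · exact h x (by omega)) ht

noncomputable def d8 : List Tp := [1, c 9, c 8, c 9 * c 8, Zp, Zp * c 9, Zp * c 8, Zp * (c 9 * c 8)]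

structure Mo {G : Type*} [Group G] (z : G) (ι : Tp →* G) (ev : ℕ → G) : Prop extends St z ι where
  l : ∀ x < 38, L ι (ev x) (eS x)
  o : ∀ x ∈ oddL, ev x ^ (2 * od x + 1) = 1

def wP : List (ℕ × ℕ × List ℕ) := [(0, 1, []), (0, 2, [1, 2, 3, 1, 2]), (0, 3, [1, 3, 2, 1, 3]), (0, 4, [1, 4, 2, 1, 4]),
  (0, 5, [1, 5, 2, 1, 5]), (0, 6, [1, 6, 2, 1, 6]), (1, 2, [0, 1, 2, 0, 1]), (1, 3, [0, 1, 3, 0, 1]), (1, 4, [0, 1, 4, 0, 1]),
  (1, 5, [0, 1, 5, 0, 1]), (1, 6, [0, 1, 6, 0, 1]), (2, 3, [0, 1, 2, 3, 0, 1]), (2, 4, [0, 1, 2, 4, 0, 1]),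
  (2, 5, [0, 1, 2, 5, 0, 1]), (2, 6, [0, 1, 2, 6, 0, 1]), (3, 4, [0, 1, 3, 4, 0, 1]), (3, 5, [0, 1, 3, 5, 0, 1]),
  (3, 6, [0, 1, 3, 6, 0, 1]), (4, 5, [0, 1, 4, 5, 0, 1]), (4, 6, [0, 1, 4, 6, 0, 1]), (5, 6, [0, 1, 5, 6, 0, 1])]

namespace Mo
variable {G : Type*} [Group G] {z : G} {ι : Tp →* G} {ev : ℕ → G} (h : Mo z ι ev) {g g' k : G} {s s' : S}
include h

theorem lw (w : List ℕ) (hw : allLt 38 w = true := by decide) : L ι (evw ev w) (evw eS w) := L.evw h.l (allLt_sound hw)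

theorem act (w : List ℕ) (a b : Tp) (e : apOk w a b = true := by decide +kernel) :
    evw ev w * ι a * (evw ev w)⁻¹ = ι b := by
  rw [h.lw w (by rw [apOk, Bool.and_eq_true] at e; exact e.1), ap w a b e]

theorem fx (w : List ℕ) (a : Tp) (e : apOk w a a = true := by decide +kernel) : evw ev w * ι a = ι a * evw ev w :=
  mul_inv_eq_iff_eq_mul.1 (h.act w a a e)

theorem o3 (x : ℕ) (hx : x ∈ oddL ∧ od x = 1 := by decide) : ev x ^ (2 * 1 + 1) = 1 := hx.2 ▸ h.o x hx.1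

theorem oc (a : L ι k s') (b : L ι g s) (b' : L ι g' (s' * s * s'⁻¹)) {n : ℕ} (e : g ^ (2 * n + 1) = 1)
    (e' : g' ^ (2 * n + 1) = 1) : k * g * k⁻¹ = g' :=
  h.odd ((a.mul b).mul a.inv) b' (by rw [conj_pow, e]; simp) e'

theorem ow (w : List ℕ) (x : ℕ) (v : List ℕ) {n : ℕ} (e : ev x ^ (2 * n + 1) = 1) (e' : evw ev v ^ (2 * n + 1) = 1)
    (k : (Nat.blt x 38 && allLt 38 w && allLt 38 v && eqW (w ++ [x]) (v ++ w)) = true := by decide +kernel) :
    evw ev w * ev x * (evw ev w)⁻¹ = evw ev v := by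
  simp only [Bool.and_eq_true, Nat.blt_eq] at k
  refine h.oc (h.lw w k.1.1.2) (h.l x k.1.1.1) ?_ e e'
  rw [mul_inv_eq_iff_eq_mul.2 (by simpa using weq _ _ k.2)]
  exact h.lw v k.1.2

theorem lq (u w : List ℕ) (e : eqW u w = true := by decide +kernel) : L ι (evw ev u) (evw eS w) :=
  weq u w e ▸ h.lw u (by simp only [eqW, Bool.and_eq_true] at e; exact e.1.1)

theorem sqw (w : List ℕ) (e : eqW w [] = true := by decide +kernel) : evw ev (w ++ w) = 1 := by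
  rw [evw_append, h.sq1 (h.lq w [] e)]

theorem sqc (a : L ι g s) (b : L ι g' s) {n : ℕ} (e : g ^ (2 * n + 1) = 1) (c : k * g' = g' * k) : k * g = g * k := by
  have : g * g = g' * g' := by
    rcases h.uq a b with e | e
    · rw [e]
    · rw [e, mul_assoc, ← mul_assoc g', h.cz b, ← mul_assoc, ← mul_assoc, h.z2, one_mul]
  have c2 : Commute k ((g * g) ^ (n + 1)) := this ▸ ((show Commute k g' from c).mul_right c).pow_right _
  rwa [← pow_two, ← pow_mul, show 2 * (n + 1) = 2 * n + 1 + 1 from rfl, pow_succ, e, one_mul] at c2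

theorem dv (a : L ι k s) {v : List ℕ} (hv : v ∈ V4) (b : L ι g (s * evw eS v)) : ∃ t ∈ d8, g = k * ι t := by
  have : ∃ t, t ∈ d8 ∧ Zp * t ∈ d8 ∧ evw eS v = MulAut.conj t := by
    simp only [V4, List.mem_cons, List.not_mem_nil, or_false] at hv
    rcases hv with rfl | rfl | rfl | rfl
    exacts [⟨1, by decide +kernel, by decide +kernel, inn _ _⟩, ⟨c 9, by decide +kernel, by decide +kernel, inn _ _⟩,
      ⟨c 8, by decide +kernel, by decide +kernel, inn _ _⟩, ⟨c 9 * c 8, by decide +kernel, by decide +kernel, inn _ _⟩]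
  obtain ⟨t, t1, t2, e⟩ := this
  rcases h.uq (e ▸ b) (a.mul (L.inn t)) with e | e
  · exact ⟨t, t1, e⟩
  · exact ⟨_, t2, by rw [e, map_mul, h.z0, ← mul_assoc, ← mul_assoc, h.cz a]⟩

theorem c1 (t : Tp) (e : t ≠ 1 := by decide +kernel) : ι t ≠ 1 := fun a => e (h.inj (a.trans (map_one ι).symm))

variable [Finite G]

theorem slv {rs : List (List Rul)} {ys ts cs : List (List ℕ)} {fp : List ℕ} (k : slvOk rs ys fp ts cs = true)
    (hg : g * z = z * g) (hy : ∀ y ∈ ys, evw ev y * g = g * evw ev y) (hf : ∀ i ∈ fp, g * ι (c i) = ι (c i) * g)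
    (ht : ∀ t ∈ ts, evw (upd ev 38 g) t = 1) : ∃ w ∈ cs, L ι g (evw eS w) := by
  obtain ⟨s, hs, a⟩ := h.lift.2.2 g hg
  have k' := k
  simp only [slvOk, Bool.and_eq_true] at k'
  obtain ⟨w, hw, e⟩ := Co.slv h.lift.1 k hs (fun y e => h.eqS ((h.lw y (List.all_eq_true.1 k'.1.1.1.1.1.2 y e)).mul a)
    (hy y e ▸ a.mul (h.lw y (List.all_eq_true.1 k'.1.1.1.1.1.2 y e)))) (fun i e => h.fix a (hf i e)) fun t e =>
      h.eqS (levw h.l a (allLt_all k'.1.1.1.1.2 t e)) (ht t e ▸ L.one)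
  exact ⟨w, hw, e ▸ a⟩

theorem CX (hg : g * z = z * g) (hx : ev 30 * g = g * ev 30) : ∃ j : ℕ, ∃ t ∈ d8, g = ev 30 ^ j * ι t := by
  obtain ⟨w, hw, a⟩ := h.slv sA hg (forall_cons (by simpa using hx) forall_nil) forall_nil forall_nil
  obtain ⟨j, -, hw⟩ := List.mem_flatMap.1 hw
  obtain ⟨v, hv, rfl⟩ := List.mem_map.1 hw
  rw [evw_append, evw_wpow, evw_cons, evw_nil, mul_one] at a
  exact ⟨j, h.dv ((h.l 30 (by decide)).pow j) hv a⟩

theorem exm : ∃ m, m * z * m⁻¹ = ι (c 9) * z ∧ ∀ x < 5, m * ev x = ev x * m := by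
  have : Fact (Nat.Prime 7) := ⟨by norm_num⟩
  have x7 : ev 30 ^ 7 = 1 := h.o 30 (by decide)
  have xz := h.cz (h.l 30 (by decide))
  have fd : ∀ y ∈ [30, 31, 1], ∀ t ∈ d8, y = 1 ∧ t ≠ c 9 ∨ Commute (ev y) (ι t) := fun y hy t ht =>
    ((by decide +kernel : ∀ y ∈ [30, 31, 1], ∀ t ∈ d8, y = 1 ∧ t ≠ c 9 ∨ apOk [y] t t = true) y hy t ht).imp id fun e =>
      show _ * _ = _ * _ by simpa using h.fx _ _ e
  have xc := fun t ht => (fd 30 (by decide) t ht).resolve_left (by simp)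
  have uc := fun t ht => (fd 31 (by decide) t ht).resolve_left (by simp)
  have c9 : c 9 ∈ d8 := by decide +kernel
  obtain ⟨n, n1, ⟨j, hj⟩, i, hi⟩ := exn (m := 12740198400) h.cjc xz (xc _ c9) (orderOf_eq_prime x7 fun e =>
    wne [30] [] (by decide +kernel) (by simpa using h.eqS (h.l 30 (by decide)) (e ▸ L.one))) h.card (by norm_num)
  have U2 : ev 31 * ev 30 * (ev 31)⁻¹ = ev 30 ^ 2 := by
    simpa [pow_two] using h.ow [31] 30 [30, 30] (n := 3) x7 (by
      rw [show evw ev [30, 30] = ev 30 ^ 2 by simp [pow_two], ← pow_mul, mul_comm, pow_mul, x7, one_pow])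
  have UY : ev 31 * ev 1 = ev 1 * ev 31 :=
    mul_inv_eq_iff_eq_mul.1 (by simpa using h.ow [31] 1 [1] (h.o3 1) (by simpa using h.o3 1))
  have p7 : ∀ k : ℕ, (ev 30 ^ k) ^ 7 = 1 := fun k => by rw [← pow_mul, mul_comm, pow_mul, x7, one_pow]
  obtain ⟨k, t, ht, e⟩ := h.CX (g := n⁻¹ * z * n) (by
    calc _ = n⁻¹ * (z * (n * z * n⁻¹)) * n := by group
      _ = n⁻¹ * ((n * z * n⁻¹) * z) * n := by rw [n1, h.zc]
      _ = _ := by group) (by
    have : z * ev 30 ^ j = ev 30 ^ j * z := ((show Commute (ev 30) z from xz).zpow_left j).symm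
    calc ev 30 * _ = n⁻¹ * ((n * ev 30 * n⁻¹) * z) * n := by group
      _ = _ * ev 30 := by rw [← show ev 30 ^ j = _ from hj, ← this, show ev 30 ^ j = _ from hj]; group)
  have u2 : n⁻¹ * z * n * (n⁻¹ * z * n) = 1 := by
    calc _ = n⁻¹ * (z * z) * n := by group
      _ = 1 := by rw [h.z2]; group
  have e1 : n⁻¹ * z * n = ι t := by
    have : (n⁻¹ * z * n) ^ (2 * 4) = 1 := by rw [pow_mul, pow_two, u2, one_pow]
    rw [e, ((xc t ht).pow_left k).mul_pow, ← map_pow, (by decide +kernel : ∀ t ∈ d8, t ^ (2 * 4) = 1) t ht, map_one,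
      mul_one, pow_succ, p7, one_mul] at this
    rw [e, this, one_mul]
  obtain ⟨y, hy, y2, y3⟩ : ∃ y ∈ d8, y * y = 1 ∧ y * t * y⁻¹ = Zp * t := by
    refine ((((by decide +kernel : ∀ t ∈ d8, t * t ≠ 1 ∨ t = 1 ∨ t = Zp ∨ ∃ y ∈ d8, y * y = 1 ∧ y * t * y⁻¹ = Zp * t) t
      ht).resolve_left fun a => a (h.inj ?_)).resolve_left fun a => h.z1 ?_).resolve_left fun a => ?_
    · rw [map_mul, ← e1, u2, map_one]
    · simpa [a, mul_assoc] using congrArg (n * · * n⁻¹) e1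
    · rw [a, h.z0] at e1
      exact absurd (h.inj (n1.symm.trans (by rw [h.z0]; nth_rewrite 1 [← e1]; group))) (by decide +kernel : c 9 ≠ Zp)
  have m1 : n * ι y * n⁻¹ * z * (n * ι y * n⁻¹)⁻¹ = ι (c 9) * z := by
    calc _ = n * (ι y * (n⁻¹ * z * n) * (ι y)⁻¹) * n⁻¹ := by group
      _ = _ := by rw [e1, ← map_inv, ← map_mul, ← map_mul, y3, map_mul, h.z0, ← e1, ← n1]; group
  have m2 : n * ι y * n⁻¹ * ι (c 9) * (n * ι y * n⁻¹)⁻¹ = ι (c 9) := by
    rw [← n1]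
    calc _ = n * (ι y * z * (ι y)⁻¹) * n⁻¹ := by group
      _ = _ := by rw [h.zc]; group
  have m3 : Commute (n * ι y * n⁻¹) (ev 30) := by
    rw [← show (n * ev 30 * n⁻¹) ^ i = ev 30 from hi]
    exact ((xc y hy).symm.conj n).zpow_right i
  have m4 : n * ι y * n⁻¹ * (n * ι y * n⁻¹) = 1 := by rw [conj_mul, ← map_mul, y2]; simp
  generalize n * ι y * n⁻¹ = m at m1 m2 m3 m4
  have cz : ∀ g, Commute g z → Commute g (ι (c 9)) → Commute (m * g * m⁻¹) z ∧ Commute (m * g * m⁻¹) (ι (c 9)) :=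
    fun g a b => by
      have a := a.conj m
      have b := b.conj m
      rw [m1] at a; rw [m2] at b
      exact ⟨by simpa using b.inv_right.mul_right a, b⟩
  have mU : m * ev 31 = ev 31 * m := by
    have Uz : Commute (ev 31) z := h.cz (h.l 31 (by decide))
    obtain ⟨k, t, ht, e⟩ := h.CX (g := (ev 31)⁻¹ * (m * ev 31 * m⁻¹)) (Uz.inv_left.mul_left (cz _ Uz (uc _ c9)).1) (by
      symm
      calc _ = (ev 31)⁻¹ * m * (ev 31 * ev 30 * (ev 31)⁻¹) * ev 31 * m⁻¹ := by rw [mul_assoc, mul_assoc, m3.inv_left.eq]; group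
        _ = (ev 31)⁻¹ * (ev 31 * ev 30 * (ev 31)⁻¹) * m * ev 31 * m⁻¹ := by
          rw [U2, mul_assoc _ m, (m3.pow_right 2).eq, ← mul_assoc (ev 31)⁻¹]
        _ = _ := by group)
    rw [inv_mul_eq_iff_eq_mul, ← mul_assoc] at e
    have a2 : ev 31 * ev 30 ^ k * (ev 31)⁻¹ = (ev 30 ^ k) ^ 2 := by rw [← conj_pow, U2, ← pow_mul, ← pow_mul, mul_comm]
    have a3 : (ev 31 * ev 30 ^ k) ^ 3 = 1 := by
      have := p7 k
      generalize ev 30 ^ k = a at a2 this
      calc _ = ev 31 * a * (ev 31)⁻¹ * (ev 31 * (ev 31 * a * (ev 31)⁻¹) * (ev 31)⁻¹) * ev 31 ^ (2 * 1 + 1) * a := by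
            simp only [pow_succ, pow_zero]; group
        _ = 1 := by rw [a2, ← conj_pow, a2, h.o3 31, mul_one, ← this]; group
    have a4 : (m * ev 31 * m⁻¹) ^ 3 = 1 := by rw [conj_pow, h.o3 31]; simp
    rw [e, ((uc t ht).mul_left ((xc t ht).pow_left k)).mul_pow, a3, one_mul, ← map_pow] at a4
    rw [(by decide +kernel : ∀ t ∈ d8, t ^ 3 = 1 → t = 1) t ht (h.inj (a4.trans (map_one ι).symm)), map_one, mul_one] at e
    have a5 : ev 30 ^ k * ev 30 ^ k = 1 := by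
      have : m * (m * ev 31 * m⁻¹) * m⁻¹ = ev 31 := by
        calc _ = m * m * ev 31 * (m * m)⁻¹ := by group
          _ = _ := by rw [m4]; group
      rw [e, ← conj_mul, e, (m3.pow_right k).eq, mul_inv_cancel_right, mul_assoc] at this
      exact mul_eq_left.1 this
    have a6 : (ev 30 ^ k) ^ (2 * 4) = 1 := by rw [pow_mul, pow_two, a5, one_pow]
    rw [pow_succ, p7, one_mul] at a6
    rwa [a6, mul_one, mul_inv_eq_iff_eq_mul] at e
  have mY : m * ev 1 = ev 1 * m := by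
    have := cz _ (h.cz (h.l 1 (by decide))) ((fd 1 (by decide) _ c9).resolve_left (by simp))
    obtain ⟨w, hw, a⟩ := h.slv sB this.1 (forall_cons (by
      have : Commute (ev 31) m := mU.symm
      simpa using ((this.mul_right UY).mul_right this.inv_right).eq) forall_nil) (forall_cons this.2 forall_nil) fun t ht => by
        rw [cjw 38 _ fun x hx => ((by decide : ∀ t ∈ [[38, 38, 38], wpow [30, 38, 38] 8, wpow [30, 38, 38, 30, 30, 30, 38] 6],
          ∀ x ∈ t, x = 38 ∨ x = 30) t ht x hx).imp id fun e => e ▸ m3, ← mul_one (ev 1), show ev 1 * 1 = evw ev [1] from rfl,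
          ← evw_plug, mul_inv_eq_one, mul_eq_left]
        revert t
        exact forall_cons (by simpa [plug, pow_succ, mul_assoc] using h.o3 1) (forall_cons (h.sqw (wpow [30, 1, 1] 4))
          (forall_cons (h.sqw (wpow [30, 1, 1, 30, 30, 30, 1] 3)) forall_nil))
    rw [List.mem_singleton.1 hw] at a
    exact mul_inv_eq_iff_eq_mul.1 (h.odd a (by simpa using h.l 1 (by decide)) (by rw [conj_pow, h.o3 1]; simp) (h.o3 1))
  refine ⟨m, m1, fun x hx => ?_⟩
  have k := (by decide +kernel : ∀ x < 5, (x ∈ oddL ∧ od x = 1) ∧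
    eqW (wK.getD x []) [x] = true ∧ ∀ y ∈ wK.getD x [], y = 30 ∨ y = 1) x hx
  refine h.sqc (h.l x (by omega)) (mul_one (eS x) ▸ h.lq _ _ k.2.1) (h.o3 x k.1)
    (evw_com fun y hy => (k.2.2 y hy).elim (fun e => e ▸ m3) fun e => e ▸ mY)

theorem relA (u w : List ℕ) (k : (allLt 7 u && allLt 7 w && eqW u w) = true := by decide +kernel) :
    evw ev u = evw ev w := by
  have r0 : evw ev [0, 1, 0, 1] = 1 := by
    obtain ⟨m, m1, m2⟩ := h.exm
    refine (h.uq (h.lq [0, 1, 0, 1] []) L.one).resolve_right fun e => h.c1 (c 9) (by decide +kernel) ?_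
    have := evw_com (w := [0, 1, 0, 1]) fun x hx => m2 x (by revert x; decide)
    rw [e, mul_one] at this
    rwa [this, mul_inv_cancel_right, eq_comm, mul_eq_right] at m1
  have o := fun x (hx : x < 7) => h.o3 x (by revert x; decide)
  have r1 : ∀ s ∈ wP, evw ev [s.1, s.2.1, s.1, s.2.1] = 1 := fun s hs => by
    have k := (by decide +kernel : ∀ s ∈ wP, s.1 < 7 ∧ s.2.1 < 7 ∧
      (Nat.blt 0 38 && allLt 38 s.2.2 && allLt 38 [s.1] && eqW (s.2.2 ++ [0]) ([s.1] ++ s.2.2)) = true ∧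
      (Nat.blt 1 38 && allLt 38 s.2.2 && allLt 38 [s.2.1] && eqW (s.2.2 ++ [1]) ([s.2.1] ++ s.2.2)) = true) s hs
    have a := h.ow _ _ _ (h.o3 0) (by simpa using o _ k.1) k.2.2.1
    have b := h.ow _ _ _ (h.o3 1) (by simpa using o _ k.2.1) k.2.2.2
    simp only [evw_cons, evw_nil, mul_one] at a b r0 ⊢
    rw [← a, ← b]
    simp only [conj_mul, r0]
    simp
  let pr : ℕ → S × G := fun x => (eS x, ev x)
  have ep : ∀ w, evw pr w = (evw eS w, evw ev w) := fun w =>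
    Prod.ext (map_evw (MonoidHom.fst S G) _ w) (map_evw (MonoidHom.snd S G) _ w)
  have rl : ∀ rels : List (List ℕ), (∀ r ∈ rels, eqW (subst sg9 r) [] = true ∧ ((∃ x < 7, subst sg9 r = wpow [x] 3) ∨
      ∃ s ∈ wP, subst sg9 r = [s.1, s.2.1, s.1, s.2.1])) → ∀ r ∈ rels, evw (byW pr sg9) r = 1 := fun rels k r hr => by
    rw [← evw_subst, ep, weq _ _ (k r hr).1]
    refine Prod.ext rfl ?_
    rcases (k r hr).2 with ⟨x, hx, e⟩ | ⟨s, hs, e⟩ <;> rw [e]
    · simpa [evw_wpow] using o x hx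
    · exact r1 s hs
  obtain ⟨ρ, hρ⟩ := A9B.hhom (byW pr sg9) (inv_of_rels (rl _ (by decide +kernel))) (rl _ (by decide +kernel))
  simp only [Bool.and_eq_true] at k
  have m : ∀ w, allLt 7 w = true → evw pr w ∈ ρ.range := fun w hw => evw_mem (K := ρ.range) (fun x hx => ⟨A9B.el (2 * x), by
    rw [hρ _ (by omega)]; interval_cases x <;> exact mul_one _⟩) (allLt_sound hw)
  have := graph_one (card_range_le ρ A9O.finG) (A9_ge.trans (card_le_of_le (gensub_le fun x hx =>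
    mem_map.2 ⟨_, ⟨_, hρ x hx⟩, congrArg Prod.fst (ep _)⟩))) (mul_mem (m u k.1.1) (inv_mem (m w k.1.2))) (by simp [ep, weq _ _ k.2])
  simpa [ep, mul_inv_eq_one] using this
end Mo
end CfH6.Co
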