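import Cfsg.Agent.OD.Pre
import Cfsg.Agent.H6.CoF
import Cfsg.Agent.H6.LT38
import Cfsg.Agent.L.ZP
import Cfsg.Agent.OD.Helper3x2a47a6fbf7
import Cfsg.Agent.OD.Helper6x46f5089be8
/-! An involution in the centraliser of an `A₇`, and one centralising `A₉`. -/
set_option autoImplicit false
set_option maxRecDepth 100000
set_option linter.all false
open CfL MulAction Subgroup CfH9 CfH4
namespace CfH6.Co

def CA {G : Type*} [Group G] (ev : ℕ → G) : Subgroup G := centralizer (ev '' {x | x < 5})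
theorem mem_CA {G : Type*} [Group G] {ev : ℕ → G} {g : G} : g ∈ CA ev ↔ ∀ x < 5, g * ev x = ev x * g := by
  simp only [CA, mem_centralizer_iff, Set.forall_mem_image, eq_comm (b := g * _)]; rfl

noncomputable def tw : D4 → Tp | .r i => (c 9 * c 8) ^ i.val | .sr i => c 9 * (c 9 * c 8) ^ i.val
def dd {G : Type*} [Group G] (ev : ℕ → G) : G := evw ev [5, 6, 6, 5]

structure Tr {G : Type*} [Group G] (z : G) (ι : Tp →* G) (ev T : ℕ → G) : Prop where
  c0 : T 0 = ι (c 9) ∨ T 0 = z * ι (c 9)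
  c1 : T 1 = dd ev * T 0 * (dd ev)⁻¹
  pA : T 2 ∈ CA ev
  sq : ∀ x < 3, T x * T x = 1
  r : ∀ w ∈ LT38.rels, evw T w = 1

structure Sol {G : Type*} [Group G] (z : G) (ι : Tp →* G) (ev : ℕ → G) (y : G) : Prop where
  z : Commute y z
  c : Commute y (ι (c 9))
  w : ∀ w ∈ [w5, w3], Commute (evw ev w) y
  o : y ^ (2 * 1 + 1) = 1
  x : ev 0 * (y * (ev 0 * y)) = 1

namespace Mo
variable {G : Type*} [Group G] [Finite G] {z : G} {ι : Tp →* G} {ev T : ℕ → G} (h : Mo z ι ev) {g y : G}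
include h

theorem d2 : dd ev * dd ev = 1 := (evw_append _ _ _).symm.trans (h.relA _ [])
theorem di : (dd ev)⁻¹ = dd ev := inv_eq_of_mul_eq_one_right h.d2
theorem dz : Commute (dd ev) z := h.cz (h.lw _)
theorem dc : dd ev * ι (c 9) * (dd ev)⁻¹ = ι (c 8) := h.act _ _ _
theorem dX (x : ℕ) (hx : x < 5) : dd ev * ev x * (dd ev)⁻¹ = (ev x)⁻¹ := by
  have := h.relA ([5, 6, 6, 5] ++ [x] ++ [5, 6, 6, 5] ++ [x]) [] (by revert x; decide +kernel)
  simp only [evw_append, evw_cons ev x, evw_nil, mul_one] at this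
  rw [h.di]; exact eq_inv_of_mul_eq_one_left this
theorem dA (hg : g ∈ CA ev) : dd ev * g * (dd ev)⁻¹ ∈ CA ev := mem_CA.2 fun x hx => by
  have := (show Commute g (ev x) from mem_CA.1 hg x hx).conj (dd ev)
  rw [h.dX x hx] at this
  exact Commute.inv_right_iff.1 this
theorem tA (t : Tp) (ht : t ∈ d8 := by decide +kernel) : ι t ∈ CA ev := mem_CA.2 fun x hx => by
  simpa using (h.fx [x] t ((by decide +kernel : ∀ t ∈ d8, ∀ x < 5, apOk [x] t t = true) t ht x hx)).symm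

theorem exT : (∃ T, Tr z ι ev T ∧ T 0 = ι (c 9)) ∧ ∀ p ∈ CA ev, ∀ q ∈ CA ev, p * p = 1 → q * q = 1 →
    (p * q) ^ 3 = 1 ∨ (p * q) ^ 4 = 1 ∨ (p * q) ^ 5 = 1 := by
  let φ : D4 →* CA ev := MonoidHom.mk' (fun u => ⟨ι (tw u), h.tA _ (by revert u; decide +kernel)⟩) fun u v =>
    Subtype.ext ((congrArg ι (by revert u v; decide +kernel)).trans (map_mul ι _ _))
  have e0 : (φ (.r 2) : G) = z := (congrArg ι (by decide +kernel)).trans h.z0
  have e9 : (φ (.sr 0) : G) = ι (c 9) := congrArg ι (by decide +kernel)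
  have e8 : (φ (.sr 1) : G) = ι (c 8) := congrArg ι (by decide +kernel)
  have k : CM φ (.r 2) := ⟨(injective_iff_map_eq_one φ).2 fun u hu =>
      (by decide +kernel : ∀ u, tw u = 1 → u = 1) u (h.inj ((congrArg Subtype.val hu).trans (map_one ι).symm)),
    by decide, fun g hg => by
      obtain ⟨v, hv, a⟩ := h.slv sC (g := g) (e0 ▸ congrArg Subtype.val hg) (fun y hy => by
        obtain ⟨x, hx, rfl⟩ := (by decide : ∀ y ∈ [[0], [1], [2], [3], [4]], ∃ x < 5, y = [x]) y hy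
        simpa using (mem_CA.1 g.2 x hx).symm) forall_nil forall_nil
      obtain ⟨t, ht, e⟩ := h.dv L.one hv (by rwa [one_mul])
      obtain ⟨u, rfl⟩ := (by decide +kernel : ∀ t ∈ d8, ∃ u, tw u = t) t ht
      exact ⟨u, Subtype.ext (e.trans (one_mul _)).symm⟩⟩
  obtain ⟨m, m1, m2⟩ := h.exm
  have m3 : ι (c 8) * m * z * (ι (c 8) * m)⁻¹ = ι (c 9) := by
    calc _ = ι (c 8) * (m * z * m⁻¹) * (ι (c 8))⁻¹ := by group
      _ = _ := by rw [m1, ← h.z0, ← map_inv, ← map_mul, ← map_mul, ← map_mul]; exact congrArg ι (by decide +kernel)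
  have m4 := mul_mem (h.tA (c 8)) (mem_CA.2 m2)
  have ha : IsConj (φ (.r 2)) (φ (.sr 0)) := isConj_iff.2 ⟨⟨_, m4⟩, Subtype.ext (by simpa only [coe_mul, coe_inv, e0, e9])⟩
  have hb : IsConj (φ (.r 2)) (φ (.sr 1)) := isConj_iff.2 ⟨⟨_, h.dA m4⟩, Subtype.ext (by
    simp only [coe_mul, coe_inv, e0, e8]
    calc _ = dd ev * (ι (c 8) * m * ((dd ev)⁻¹ * z * dd ev) * (ι (c 8) * m)⁻¹) * (dd ev)⁻¹ := by group
      _ = _ := by rw [h.dz.inv_left.eq, inv_mul_cancel_right, m3, h.dc])⟩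
  obtain ⟨p, q, R, r1, -⟩ := k.d8_R ha hb
  have v := fun {a b : CA ev} (e : a = b) => congrArg Subtype.val e
  refine ⟨⟨ev4 (ι (c 9)) (ι (c 8)) p 1, ⟨Or.inl rfl, h.dc.symm, p.2, fun x hx => ?_, ?_⟩, rfl⟩, fun p hp q hq a b => by
    simpa [Subtype.ext_iff] using d8_pow (k.d8_both ha hb) (c := ⟨p, hp⟩) (d := ⟨q, hq⟩) (Subtype.ext a) (Subtype.ext b)⟩
  · interval_cases x
    exacts [e9 ▸ v R.a2, e8 ▸ v R.b2, v R.c2]
  · simp only [LT38.rels, List.forall_mem_cons, evw_cons, evw_nil, ev4, mul_one]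
    refine ⟨e8 ▸ e9 ▸ v R.ab, e9 ▸ v R.ac, e8 ▸ v R.bc, e8 ▸ e9 ▸ v R.abc, ?_, forall_nil⟩
    have a : ι (c 8) * p * z * (ι (c 8) * p)⁻¹ = ι (c 9) := by simpa only [coe_mul, coe_inv, e0, e8, e9] using v r1
    have b : ι (c 9) * ι (c 8) * ι (c 9) * ι (c 8) = z := by
      rw [← h.z0, ← map_mul, ← map_mul, ← map_mul]; exact congrArg ι (by decide +kernel)
    rw [mul_inv_rev, inv_eq_of_mul_eq_one_right (v R.c2),
      inv_eq_of_mul_eq_one_right (show ι (c 8) * ι (c 8) = 1 from e8 ▸ v R.b2), ← b] at a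
    have := congrArg (· * ι (c 9)) a
    simpa only [mul_assoc, (show ι (c 9) * ι (c 9) = 1 from e9 ▸ v R.a2)] using this

theorem sol (s : Sol z ι ev y) : y = ev 5 ∨ y = ι (c 8) * ev 5 * (ι (c 8))⁻¹ ∨ y = ev 34 ∨ y = ev 35 := by
  have k : ∀ x w, w ∈ [w5, w3] → eqW [x] w = true → evw ev [x] * y = y * evw ev [x] := fun x w hw e => by
    rcases h.uq (h.lq _ _ e) (h.lw w ((by decide : ∀ w ∈ [w5, w3], allLt 38 w = true) w hw)) with e | e <;> rw [e]
    · exact s.w w hw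
    · exact s.z.symm.mul_left (s.w w hw)
  obtain ⟨w, hw, a⟩ := h.slv sD s.z (forall_cons (k 36 w5 (by decide) (by decide +kernel))
    (forall_cons (k 37 w3 (by decide) (by decide +kernel)) forall_nil)) (forall_cons s.c forall_nil)
    (forall_cons (by simpa [upd, pow_succ, mul_assoc] using s.o) (forall_cons (by simpa [upd] using s.x) forall_nil))
  simp only [List.mem_cons, List.not_mem_nil, or_false] at hw
  have b := fun x (a : L ι y (evw eS [x])) hx hx' => h.odd a (by simpa using h.l x hx) s.o (h.o3 x hx')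
  rcases hw with rfl | rfl | rfl | rfl
  · exact Or.inl (b 5 a (by decide) (by decide))
  · refine Or.inr (Or.inl (h.oc (L.inn _) (h.l 5 (by decide)) ?_ (h.o3 5) s.o).symm)
    rw [← map_inv, show (c 8)⁻¹ = c 8 by decide +kernel, ← inn [33] (c 8)]
    simpa [mul_assoc] using a
  · exact Or.inr (Or.inr (Or.inl (b 34 a (by decide) (by decide))))
  · exact Or.inr (Or.inr (Or.inr (b 35 a (by decide) (by decide))))

theorem XX (a : Commute g (ev 5)) (b : Commute g (ι (c 8) * ev 5 * (ι (c 8))⁻¹)) : Commute g z := by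
  have e : (ev 5)⁻¹ * (ι (c 8) * ev 5 * (ι (c 8))⁻¹) = ι (c 2 * (c 8)⁻¹) := by
    have := h.act [5] (c 2) (c 8)
    rw [evw_cons, evw_nil, mul_one] at this
    rw [map_mul, map_inv]
    nth_rewrite 1 [← this]
    group
  have := (e ▸ a.inv_right.mul_right b).pow_right 2
  rwa [← map_pow, show (c 2 * (c 8)⁻¹) ^ 2 = Zp by decide +kernel, h.z0] at this

variable (t : Tr z ι ev T)
include t

theorem ti (x : ℕ) (hx : x < 3 := by decide) : (T x)⁻¹ = T x := inv_eq_of_mul_eq_one_right (t.sq x hx)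
theorem t1 : T 1 = ι (c 8) ∨ T 1 = z * ι (c 8) := t.c0.imp (fun e => by rw [t.c1, e, h.dc]) fun e => by
  rw [t.c1, e, ← h.dc, ← mul_assoc, h.dz.eq]; group
theorem tz : Commute (T 0) z := by
  rcases t.c0 with e | e <;> rw [e]
  exacts [h.zc _, (Commute.refl z).mul_left (h.zc _)]
theorem cT (a : Commute g z) : Commute g (ι (c 9)) ↔ Commute g (T 0) := by
  rcases t.c0 with e | e <;> rw [e]
  exact ⟨a.mul_right, fun b => by simpa using a.inv_right.mul_right b⟩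
theorem cT1 (a : Commute g z) : T 1 * g * (T 1)⁻¹ = ι (c 8) * g * (ι (c 8))⁻¹ := by
  rcases h.t1 t with e | e <;> rw [e]
  rw [← h.zc, mul_assoc _ z, ← a.eq]; group
theorem t0 : T 0 ≠ z ∧ T 0 ≠ 1 := by
  rcases t.c0 with e | e <;> rw [e, ← h.z0]
  · exact ⟨fun e => absurd (h.inj e) (by decide +kernel), h.c1 _⟩
  · rw [← map_mul]; exact ⟨fun e => absurd (h.inj e) (by decide +kernel), h.c1 _⟩
theorem zz : T 0 * T 1 * T 0 * T 1 = z := by
  have : ι (c 9) * ι (c 8) * ι (c 9) * ι (c 8) = z := by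
    rw [← h.z0, ← map_mul, ← map_mul, ← map_mul]; exact congrArg ι (by decide +kernel)
  rcases t.c0 with e | e <;> rcases h.t1 t with e' | e' <;> rw [e, e', ← h.z0] <;> simp only [← map_mul] <;>
    exact congrArg ι (by decide +kernel)
theorem pc : Commute (T 2) (T 0) := by
  have := t.r [0, 2, 0, 2] (by decide)
  simp only [evw_cons, evw_nil, mul_one] at this
  rw [← mul_assoc, mul_eq_one_iff_eq_inv, mul_inv_rev, h.ti t 0, h.ti t 2] at this
  exact this.symm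
theorem br : T 1 * T 2 * (T 1)⁻¹ = T 2 * T 1 * (T 2)⁻¹ := by
  have := t.r [1, 2, 1, 2, 1, 2] (by decide)
  simp only [evw_cons, evw_nil, mul_one] at this
  rw [← mul_assoc, ← mul_assoc, mul_eq_one_iff_eq_inv, mul_inv_rev, mul_inv_rev, h.ti t 1, h.ti t 2] at this
  rw [h.ti t 1, h.ti t 2, this]
theorem pz : T 1 * T 2 * z * (T 1 * T 2)⁻¹ = T 0 := by
  have := t.r [1, 2, 0, 1, 0, 1, 2, 1, 0] (by decide)
  rw [← h.zz t, mul_inv_rev, h.ti t 1, h.ti t 2, ← mul_inv_eq_one, h.ti t 0]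
  simpa only [evw_cons, evw_nil, mul_one, mul_assoc] using this
theorem pz' : T 2 * z * (T 2)⁻¹ = T 0 * z := by
  calc _ = (T 1)⁻¹ * (T 1 * T 2 * z * (T 1 * T 2)⁻¹) * T 1 := by group
    _ = T 0 * T 0 * (T 1 * T 0 * T 1) := by rw [h.pz t, t.sq 0 (by decide), h.ti t 1, one_mul]
    _ = _ := by rw [← h.zz t]; group

theorem conj (s : Sol z ι ev y) : Sol z ι ev (T 2 * y * (T 2)⁻¹) := by
  have a := s.z.conj (T 2)
  have b := ((h.cT t s.z).1 s.c).conj (T 2)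
  rw [h.pz' t] at a
  rw [(h.pc t).eq, mul_inv_cancel_right] at b
  have a : Commute (T 2 * y * (T 2)⁻¹) z := by simpa using b.inv_right.mul_right a
  refine ⟨a, (h.cT t a).2 b, fun w hw => ?_, by rw [conj_pow, s.o]; simp, ?_⟩
  · have : Commute (evw ev w) (T 2) := (evw_com fun x hx => mem_CA.1 t.pA x (by revert w x; decide)).symm
    exact (this.mul_right (s.w w hw)).mul_right this.inv_right
  · rw [← mul_inv_eq_iff_eq_mul.2 (mem_CA.1 t.pA 0 (by decide))]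
    simp only [conj_mul, s.x]
    simp

omit t in
theorem solX : Sol z ι ev (ev 5) := ⟨h.cz (h.l 5 (by decide)), show _ * _ = _ * _ by simpa using h.fx [5] (c 9),
  fun w hw => show _ * _ = _ * _ by
  have := h.relA (w ++ [5]) (5 :: w) (by revert w; decide +kernel)
  rwa [evw_append, evw_cons, evw_cons, evw_nil, mul_one] at this,
  h.o3 5, by simpa using h.relA [0, 5, 0, 5] []⟩

theorem no2 : T 2 * ev 5 * (T 2)⁻¹ ≠ ι (c 8) * ev 5 * (ι (c 8))⁻¹ := fun e => by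
  rw [← h.cT1 t h.solX.z] at e
  have b : T 1 * (T 1 * ev 5 * (T 1)⁻¹) * (T 1)⁻¹ = ev 5 := by
    calc _ = T 1 * T 1 * ev 5 * (T 1 * T 1)⁻¹ := by group
      _ = _ := by rw [t.sq 1 (by decide)]; group
  have := h.XX (g := T 1 * T 2) (mul_inv_eq_iff_eq_mul.1 (by
      calc _ = T 1 * (T 2 * ev 5 * (T 2)⁻¹) * (T 1)⁻¹ := by group
        _ = _ := by rw [e, b]))
    (mul_inv_eq_iff_eq_mul.1 (by
      rw [← h.cT1 t h.solX.z]
      calc _ = T 1 * T 2 * (T 1)⁻¹ * ev 5 * (T 1 * T 2 * (T 1)⁻¹)⁻¹ := by simp only [mul_inv_rev, h.ti t 1, h.ti t 2, mul_assoc]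
        _ = T 2 * (T 1 * (T 2 * ev 5 * (T 2)⁻¹) * (T 1)⁻¹) * (T 2)⁻¹ := by
          rw [h.br t]; simp only [mul_inv_rev, h.ti t 1, h.ti t 2, mul_assoc]
        _ = _ := by rw [e, b, e]))
  exact (h.t0 t).1 (by rw [← h.pz t, this.eq, mul_inv_cancel_right])

omit t in
theorem exT2 : ∃ T, Tr z ι ev T ∧ T 2 * ev 5 * (T 2)⁻¹ ≠ ev 5 := by
  obtain ⟨T, t, e⟩ := h.exT.1
  by_cases a : T 2 * ev 5 * (T 2)⁻¹ = ev 5
  swap
  · exact ⟨T, t, a⟩
  have i : ∀ x < 3, T (LT38.il.getD x 0) = (T x)⁻¹ := fun x hx => by rw [h.ti t x hx]; interval_cases x <;> rfl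
  have k := follows_sound (n := 4) T i (fun w hw => mem_bot.1 (LT38.words T ⊥ i t.r forall_nil w hw))
    (ws := ([[0, 0], [1, 1], [2, 2]] ++ LT38.rels).map (subst [[0, 1, 0, 1, 0], [0, 1, 0, 1, 1], [1, 2, 1]])) (by decide +kernel)
  replace k := fun w hw => evw_subst T _ w ▸ k _ (List.mem_map_of_mem hw)
  have e1 : T 1 = ι (c 8) := by rw [t.c1, e, h.dc]
  have e0 : byW T [[0, 1, 0, 1, 0], [0, 1, 0, 1, 1], [1, 2, 1]] 0 = z * T 0 := by simp [byW, ← h.zz t, mul_assoc]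
  have e2 : byW T [[0, 1, 0, 1, 0], [0, 1, 0, 1, 1], [1, 2, 1]] 2 = T 1 * T 2 * (T 1)⁻¹ := by simp [byW, h.ti t 1, mul_assoc]
  refine ⟨_, ⟨Or.inr (e ▸ e0), ?_, e2 ▸ mul_mem (mul_mem (e1 ▸ h.tA _) t.pA) (inv_mem (e1 ▸ h.tA _)), fun x hx => ?_,
    fun w hw => k w (List.mem_append_right _ hw)⟩, fun b => ?_⟩
  · rw [e0, ← mul_assoc, h.dz.eq, mul_assoc, mul_assoc, ← mul_assoc (dd ev), ← t.c1]
    simp [byW, ← h.zz t, mul_assoc]
  · simpa using k [x, x] (by revert x; decide)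
  · have := h.XX (mul_inv_eq_iff_eq_mul.1 a) (mul_inv_eq_iff_eq_mul.1 (by
      rw [← e1]
      nth_rewrite 2 [← b]
      rw [e2]
      simp only [mul_inv_rev, h.ti t 1, ← mul_assoc, t.sq 1 (by decide), one_mul]
      rw [mul_assoc _ (T 1) (T 1), t.sq 1 (by decide), mul_one]))
    have c := h.pz' t
    rw [this.eq, mul_inv_cancel_right, eq_comm, mul_eq_right] at c
    exact (h.t0 t).2 c

theorem cen (a : T 2 * ev 5 * (T 2)⁻¹ ≠ ev 5) : Commute (T 1 * T 2 * (T 1)⁻¹) (ev 5) ∧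
    Commute (T 2 * dd ev * T 2 * dd ev * T 2) (ev 5) := by
  have s := h.conj t h.solX
  obtain ⟨u, hu, e⟩ : ∃ u ∈ [(34, 35), (35, 34)], T 2 * ev 5 * (T 2)⁻¹ = ev u.1 := by
    rcases ((h.sol s).resolve_left a).resolve_left (h.no2 t) with e | e
    exacts [⟨(34, 35), by decide, e⟩, ⟨(35, 34), by decide, e⟩]
  have k := (by decide +kernel : ∀ u ∈ [(34, 35), (35, 34)], (u.1 ∈ oddL ∧ od u.1 = 1) ∧ (u.2 ∈ oddL ∧ od u.2 = 1) ∧
    u.1 < 38 ∧ u.2 < 38 ∧ apOk [u.1] (c 8) (c 8) = true ∧ apOk [u.2] (c 9) (c 9) = true ∧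
    (Nat.blt u.2 38 && allLt 38 [5, 6, 6, 5] && allLt 38 [u.1, u.1] && eqW ([5, 6, 6, 5] ++ [u.2]) ([u.1, u.1] ++ [5, 6, 6, 5])) = true ∧
    (∀ w ∈ [w5, w3], (Nat.blt u.2 38 && allLt 38 w && allLt 38 [u.2] && eqW (w ++ [u.2]) ([u.2] ++ w)) = true) ∧
    (∀ w ∈ [[5], [33, 5, 33], [u.1]], (allLt 38 [u.2] && allLt 38 w && !sS.same bs [u.2] w) = true) ∧
    (u = (34, 35) ∨ u = (35, 34))) u hu
  obtain ⟨a, b⟩ := u
  obtain ⟨k1, k2, k3, k4, k5, k6, k7, k8, k9, k0⟩ := k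
  dsimp only at *
  have pp : ∀ g, T 2 * (T 2 * g * (T 2)⁻¹) * (T 2)⁻¹ = g := fun g => by
    calc _ = T 2 * T 2 * g * (T 2 * T 2)⁻¹ := by group
      _ = _ := by rw [t.sq 2 (by decide)]; group
  have e' : T 2 * ev a * (T 2)⁻¹ = ev 5 := by rw [← e, pp]
  have a1 : T 1 * ev a * (T 1)⁻¹ = ev a := by
    rw [h.cT1 t (h.cz (h.l a k3)), mul_inv_eq_iff_eq_mul]; simpa using (h.fx _ _ k5).symm
  have a2 : T 2 * (T 1 * ev 5 * (T 1)⁻¹) * (T 2)⁻¹ = T 1 * ev 5 * (T 1)⁻¹ := by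
    calc _ = T 2 * T 1 * (T 2)⁻¹ * (T 2 * ev 5 * (T 2)⁻¹) * (T 2 * T 1 * (T 2)⁻¹)⁻¹ := by group
      _ = T 1 * (T 2 * ((T 1)⁻¹ * (T 1 * ev a * (T 1)⁻¹) * T 1) * (T 2)⁻¹) * (T 1)⁻¹ := by rw [← h.br t, e, a1]; group
      _ = _ := by rw [← e']; group
  have ia : evw ev [a, a] = (ev a)⁻¹ := eq_inv_of_mul_eq_one_left (by simpa [pow_succ] using h.o3 a k1)
  have a3 : dd ev * ev b * (dd ev)⁻¹ = (ev a)⁻¹ := ia ▸ h.ow _ b _ (h.o3 b k2) (by rw [ia, inv_pow, h.o3 a k1, inv_one]) k7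
  have sb : Sol z ι ev (ev b) := ⟨h.cz (h.l b k4), show _ * _ = _ * _ by simpa using h.fx _ _ k6, fun w hw => mul_inv_eq_iff_eq_mul.1 (by
    simpa using h.ow w b _ (h.o3 b k2) (by simpa using h.o3 b k2) (k8 w hw)), h.o3 b k2, by
      have := s.x
      rw [e, ← inv_eq_one, mul_inv_rev, mul_inv_rev, mul_inv_rev, ← a3, ← h.dX 0 (by decide)] at this
      simp only [conj_mul, mul_inv_eq_one, mul_eq_left] at this
      calc _ = ev 0 * (ev b * ev 0 * ev b * ev 0) * (ev 0)⁻¹ := by group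
        _ = 1 := by rw [this]; group⟩
  have ne := fun w hw (g : G) (l : L ι g (evw eS w)) (e : ev b = g) => wne _ _ (k9 w hw)
    ((mul_one _).trans (h.eqS (h.l b k4) (e ▸ l)))
  have a4 : T 2 * ev b * (T 2)⁻¹ = ev b := by
    have : ∀ g, g = ev 34 ∨ g = ev 35 → g = ev a ∨ g = ev b := fun g x => by
      rcases k0 with k | k <;> cases k
      exacts [x, x.symm]
    refine (this _ (((h.sol (h.conj t sb)).resolve_left fun x => ?_).resolve_left fun x => ?_)).resolve_left fun x => ?_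
    · exact ne [a] (by simp) _ (h.lw [a] (by simpa [allLt])) (by rw [← pp (ev b), x, e, evw_cons, evw_nil, mul_one])
    · refine ne [33, 5, 33] (by simp) _ ?_ (by rw [← pp (ev b), x, ← h.cT1 t h.solX.z, a2, h.cT1 t h.solX.z])
      have := ((L.inn (ι := ι) (c 8)).mul (h.l 5 (by decide))).mul (L.inn (c 8)).inv
      rw [← map_inv MulAut.conj, show (c 8)⁻¹ = c 8 by decide +kernel, ← inn [33] (c 8)] at this
      simpa [mul_assoc] using this
    · exact ne [5] (by simp) _ (h.lw [5]) (by rw [← pp (ev b), x, e', evw_cons, evw_nil, mul_one])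
  have a5 : dd ev * ev a * (dd ev)⁻¹ = (ev b)⁻¹ := by
    rw [← inv_inv (ev a), ← a3, h.di]
    simp only [mul_inv_rev, h.di, ← mul_assoc, h.d2, one_mul]
    rw [mul_assoc, h.d2, mul_one]
  refine ⟨mul_inv_eq_iff_eq_mul.1 ?_, mul_inv_eq_iff_eq_mul.1 ?_⟩
  · calc _ = T 1 * (T 2 * (T 1 * ev 5 * (T 1)⁻¹) * (T 2)⁻¹) * (T 1)⁻¹ := by
          simp only [mul_inv_rev, h.ti t 1, h.ti t 2, mul_assoc]
      _ = T 1 * T 1 * ev 5 * (T 1 * T 1)⁻¹ := by rw [a2]; group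
      _ = _ := by rw [t.sq 1 (by decide)]; group
  · calc _ = T 2 * (dd ev * (T 2 * (dd ev * (T 2 * ev 5 * (T 2)⁻¹) * (dd ev)⁻¹) * (T 2)⁻¹) * (dd ev)⁻¹) * (T 2)⁻¹ := by
          group
      _ = _ := by rw [e, a5, ← conj_inv, a4, ← conj_inv, a3, inv_inv, e']
end Mo
end CfH6.Co
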