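import Cfsg.Agent.OD.Pre
import Cfsg.Agent.H6.K3B
import Cfsg.Agent.H6.TCPart
import Cfsg.Agent.H6.LT34
import Cfsg.Agent.H6.LT35
set_option autoImplicit false
set_option maxRecDepth 100000
set_option linter.all false
namespace CfH6.K3O
open CfH6
def s0 : List (List ℕ) := [[0], [1], [2], [3]]
def t0 : List (List ℕ) := [[0], [1], [2]]
theorem cov0 : Covers (gensub (byW K3B.el t0) 3) (gensub (byW K3B.el s0) 4) 108 :=
  cov_step K3B.el K3B.hinv K3B.hrel s0 t0 3 4 (fun ev H => LT34.covers ev H) (by decide +kernel)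
theorem top0 : gensub (byW K3B.el s0) 4 = ⊤ := (gensub_id K3B.el (by decide)).trans K3B.htop
theorem covT0 : Covers (gensub (byW K3B.el t0) 3) ⊤ 108 := cov0.top top0
def s1 : List (List ℕ) := [[0], [1], [2]]
def t1 : List (List ℕ) := []
theorem cov1 : Covers (gensub (byW K3B.el t1) 0) (gensub (byW K3B.el s1) 3) 336 :=
  cov_step K3B.el K3B.hinv K3B.hrel s1 t1 0 4 (fun ev H => LT35.covers ev H) (by decide +kernel)
theorem finT1 : Finite (gensub (byW K3B.el t1) 0) ∧ Nat.card (gensub (byW K3B.el t1) 0) ≤ 1 := (gensub_zero _)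
theorem fin1 : Finite (gensub (byW K3B.el s1) 3) ∧ Nat.card (gensub (byW K3B.el s1) 3) ≤ 336 :=
  fin_cast (cov1.card_le finT1) (by decide)
theorem finT0 : Finite (gensub (byW K3B.el t0) 3) ∧ Nat.card (gensub (byW K3B.el t0) 3) ≤ 336 := (fin_le (gensub_le_of_subsIn K3B.el (by decide)) fin1)
theorem fin0 : Finite (gensub (byW K3B.el s0) 4) ∧ Nat.card (gensub (byW K3B.el s0) 4) ≤ 36288 :=
  fin_cast (cov0.card_le finT0) (by decide)
theorem finG : Finite K3B.G ∧ Nat.card K3B.G ≤ 36288 := fin_top (top0 ▸ fin0)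
end CfH6.K3O
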