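import Cfsg.Agent.OD.Pre
import Cfsg.Agent.L.ZA
import Cfsg.Agent.H6.K3O
/-! A faithful action of a group of order 36288. -/
set_option autoImplicit false
set_option maxRecDepth 100000
set_option Elab.async false
set_option linter.all false
namespace CfH6.Co
open CfH6
open CfL MulAction Subgroup
noncomputable def kc0 : ℕ := (nat_lit 0xd7ab4e8b77ea64c78a54bcd42edccf1e057b0f5f65a70dcde70d66ccc1858c8b519744a4a97d97f56b2676ea8cf46da72042ca49c8314dac5708c284ef0aa46e4d9b42478a305a3cca91a5929d447c50b3438b8c20442880e184820610080)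
noncomputable def kc1 : ℕ := (nat_lit 0xcfa306ad76aed2ad5e769931f2d9859ae3fc58e8bc7392ab76b859ba7cc6fb0bcbda2b556d4a8b12d3544b329a3a08a7c59a765488c6d69a890e0c02cf5d9470d8c123e459105cb0ba1329c6241680f1c123839526147841a0c5080c04100)
noncomputable def kc2 : ℕ := (nat_lit 0xd7ab4e8cf52fe4c7330e0cb42ec4b76a1557d3ec66a70dcdeacd66e297298488f1975ca5656aa7f5dc2576ea8bd44da7343ec8e4937160ac5700ba84855e2726dc92066788315e3c70d523130b468489d3464c1628282080e181090214180)
noncomputable def kc3 : ℕ := (nat_lit 0xd38b5dcbf6ef539baab49cf96368cd06bc0b385e50c8e1bd486cf1b262f70365f7583b9ea6d584e9a55588911d2a3210a29d325c58e70d2c32621167ef8bba72d1a932278a2e1eb55aa4aa069d4028f893620a860a4880e06305840e08001)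
noncomputable def kT : Tab := ⟨nat_lit 108, nat_lit 4, nat_lit 7, nat_lit 127, [kc0, kc1, kc2, kc3], 0, 0, 0, 0, 0⟩
noncomputable def kch : List (Stp × ℕ) := [(⟨0, [[0], [1], [2], [3]], 2, [((nat_lit 107), (nat_lit 0x39fc4e0ee16ea85469736984ae4b258fc6a230b82405fcf87bbc5e2e771b75bad766b3d96c56330586bd5e2e55aab52a95469f4ca692a9749a351c8945a11047d3b1c0e46d379a4d6673117cb25a2a154a44c27124964523104863c1f0e86836188c85a2f140ac4a271087c36150b044260d0702014050380))]⟩, 108),
  (⟨11, [[0], [1], [2]], 2, [((nat_lit 41), (nat_lit 0xa59e396cce693099acde70d7cbf165ed3d9e50253254f381c2dd633058491472251276381c4a44c27104842d160b))]⟩, 42),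
  (⟨13, [[2, 1, 0, 1, 2], [0, 2, 1, 2, 1, 2, 0]], 1, [((nat_lit 7), (nat_lit 0xaeb4212fcd8d0d))]⟩, 8)]
def kb : List ℕ := [0, 11, 13]
theorem kact : kT.Act K3B.il K3B.rels := ⟨by decide +kernel, by decide +kernel, by decide +kernel⟩

theorem k3eq {G : Type*} [Group G] {ev : ℕ → G} (h1 : ∀ x < 4, ev (K3B.il.getD x 0) = (ev x)⁻¹)
    (h2 : ∀ r ∈ K3B.rels, evw ev r = 1) (u w : List ℕ)
    (k : (allLt 4 u && allLt 4 w && kT.same kb u w) = true := by decide +kernel) : evw ev u = evw ev w := by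
  obtain ⟨r⟩ : Nonempty (Rep kT K3B.el) := kact.rep
  obtain ⟨ρ, hρ⟩ := K3B.hhom ev h1 h2
  have := K3O.finG.1
  simp only [Bool.and_eq_true] at k
  rw [← hom_evw hρ u (allLt_sound k.1.1), ← hom_evw hρ w (allLt_sound k.1.2), r.of_same (fun g hg =>
    r.chain_base (K := ⊤) (σ := [[0], [1], [2], [3]]) (fun _ => trivial) 7 kch (by decide +kernel)
      (card_top (G := K3B.G) ▸ K3O.finG.2.trans (by decide)) g trivial hg) (allLt_sound k.1.1) (allLt_sound k.1.2) k.2]
end CfH6.Co
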