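import Cfsg.Agent.OD.Pre
import Cfsg.Agent.H6.CoG
import Cfsg.Agent.H6.K3R
import Cfsg.Agent.H6.LT36
import Cfsg.Agent.H6.LT37
import Cfsg.Agent.H6.SoB
import Cfsg.Agent.OD.Helper6xb252c8dd1a
/-! The relations of the presentation hold. -/
set_option autoImplicit false
set_option maxRecDepth 100000
set_option linter.all false
open CfL MulAction Subgroup CfH9 CfH4
namespace CfH6.Co

theorem com2 {G : Type*} [Group G] {a b : G} (ha : a * a = 1) (hb : b * b = 1) (c : Commute a b) :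
    a * (b * (a * b)) = 1 := by rw [c.eq, ← mul_assoc b, hb, one_mul, ha]

theorem evw_cg {G : Type*} [Group G] {f g : ℕ → G} {w : List ℕ} (h : ∀ x ∈ w, f x = g x) : evw f w = evw g w :=
  congrArg List.prod (List.map_congr_left h)

def EE {G : Type*} [Group G] (ev T : ℕ → G) : ℕ → G := ev4 (T 0) (dd ev) (T 2) (evw ev [4, 5, 5, 4])
def R0 : List (List ℕ) := LT38.rels.map (subst [[0], [1, 0, 1], [2]]) ++ [1, 3, 1, 3, 1, 3] ::
  [[0], [1, 0, 1, 2, 1, 0, 1], [2, 1, 2, 1, 2], wpow [0, 1] 4].map fun u => u ++ ([3] ++ (u ++ [3]))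
def σ5 : List (List ℕ) := [wpow [0, 1] 4, [2, 1, 2, 1, 2], [0], [1], [3]]
def σD : List (List ℕ) := [[], [], []] ++ dW
def FF {G : Type*} [Group G] (ev T : ℕ → G) (x : ℕ) : G := if x < 5 then byW (EE ev T) σ5 x else byW ev σD x

namespace Mo
variable {G : Type*} [Group G] [Finite G] {z : G} {ι : Tp →* G} {ev T : ℕ → G} (h : Mo z ι ev) {g k : G}
  (t : Tr z ι ev T)
include h t

theorem sqE (x : ℕ) (hx : x < 4) : EE ev T x * EE ev T x = 1 := by
  interval_cases x
  exacts [t.sq 0 (by decide), h.d2, t.sq 2 (by decide), (evw_append _ _ _).symm.trans (h.relA _ [])]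
theorem iE (x : ℕ) (hx : x < 4) : EE ev T ([0, 1, 2, 3].getD x 0) = (EE ev T x)⁻¹ := by
  rw [inv_eq_of_mul_eq_one_right (h.sqE t x hx)]; interval_cases x <;> rfl
theorem Ez : evw (EE ev T) (wpow [0, 1] 4) = z := by
  rw [← h.zz t, t.c1, h.di]; simp [wpow, EE, ev4, mul_assoc]
theorem Eb : evw (EE ev T) [2, 1, 2, 1, 2] = T 2 * dd ev * T 2 * dd ev * T 2 := by simp [EE, ev4, mul_assoc]
theorem cT' (hk : Commute k z) (a : Commute g z) (b : Commute g (k * T 0 * k⁻¹)) : Commute g (k * ι (c 9) * k⁻¹) := by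
  rcases t.c0 with e | e <;> rw [e] at b
  · exact b
  · rw [← mul_assoc, hk.eq] at b
    simpa [mul_assoc] using a.inv_right.mul_right b
theorem TA : T 0 ∈ CA ev ∧ T 1 ∈ CA ev := by
  have : T 0 ∈ CA ev := by
    rcases t.c0 with e | e <;> rw [e]
    exacts [h.tA _, mul_mem (h.z0 ▸ h.tA _) (h.tA _)]
  exact ⟨this, t.c1 ▸ h.dA this⟩
theorem bA : T 2 * dd ev * T 2 * dd ev * T 2 ∈ CA ev := by
  simpa [h.di, mul_assoc] using mul_mem (mul_mem t.pA (h.dA t.pA)) t.pA

variable (a : T 2 * ev 5 * (T 2)⁻¹ ≠ ev 5)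
include a

theorem r0 : ∀ w ∈ R0, evw (EE ev T) w = 1 := by
  refine forall_app (List.forall_mem_map.2 fun w hw => ?_) (forall_cons ?_ (List.forall_mem_map.2 fun u hu => ?_))
  · rw [evw_subst, ← t.r w hw]
    refine evw_congr (k := 3) (fun x hx => ?_) (by revert w; decide)
    interval_cases x <;> simp [byW, EE, ev4, t.c1, h.di, mul_assoc]
  · simpa [EE, ev4, dd, wpow, mul_assoc] using h.relA (wpow [5, 6, 6, 5, 4, 5, 5, 4] 3) []
  have k : ∀ g ∈ CA ev, Commute g (ev 5) → Commute g (EE ev T 3) := fun g a b => evw_com fun x hx => by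
    rcases (by decide : ∀ x ∈ [4, 5, 5, 4], x < 5 ∨ x = 5) x hx with e | rfl
    exacts [mem_CA.1 a x e, b]
  simp only [evw_append, evw_cons _ 3, evw_nil, mul_one]
  simp only [List.mem_cons, List.not_mem_nil, or_false] at hu
  rcases hu with rfl | rfl | rfl | rfl
  · refine com2 (by simpa using h.sqE t 0 (by decide)) (h.sqE t 3 (by decide)) ?_
    rw [evw_cons, evw_nil, mul_one]
    exact ((h.cT t (h.cz (h.lw _))).1 (h.fx _ _)).symm
  · rw [show evw (EE ev T) [1, 0, 1, 2, 1, 0, 1] = T 1 * T 2 * (T 1)⁻¹ by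
      rw [h.ti t 1, t.c1, h.di]; simp [EE, ev4, mul_assoc]]
    exact com2 (by rw [conj_mul, t.sq 2 (by decide)]; simp) (h.sqE t 3 (by decide))
      (k _ (mul_mem (mul_mem (h.TA t).2 t.pA) (inv_mem (h.TA t).2)) (h.cen t a).1)
  · refine com2 (mul_eq_one_iff_eq_inv.2 (evw_rev (h.sqE t) (w := [2, 1, 2, 1, 2]) (by decide))) (h.sqE t 3 (by decide)) ?_
    rw [h.Eb t]; exact k _ (h.bA t) (h.cen t a).2
  · rw [h.Ez t]
    exact com2 h.z2 (h.sqE t 3 (by decide)) (h.cz (h.lw _)).symm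

theorem r3 : ∀ w ∈ K3B.rels, evw (EE ev T) w = 1 := by
  have e : ∀ n, (T 2 * (dd ev * T 2 * (dd ev)⁻¹)) ^ n = 1 → ∀ w ∈ wpow [2, 1, 2, 1] n :: R0, evw (EE ev T) w = 1 :=
    fun n e => forall_cons (by rw [evw_wpow, ← e, h.di]; simp [EE, ev4, mul_assoc]) (h.r0 t a)
  have no : ¬ Covers Cx(ι (c 3)) (gensub (EE ev T) 4) 1 := fun x => by
    have y := x.relIndex
    have := relIndex_eq_one.1 (le_antisymm y.2 (Nat.pos_of_ne_zero y.1)) (mem_gensub (show 0 < 4 by decide))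
    have := (h.cT t (h.zc (c 3))).2 (mem_Cx.1 this).symm
    exact absurd (h.inj ((map_mul ι _ _).trans (this.eq.trans (map_mul ι _ _).symm))) (by decide +kernel)
  have s : ∀ s ∈ [[1], [3]], evw (EE ev T) s ∈ Cx(ι (c 3)) :=
    forall_cons (mem_Cx.2 (by rw [evw_cons, evw_nil, mul_one]; exact h.fx _ _))
      (forall_cons (mem_Cx.2 (by rw [evw_cons, evw_nil, mul_one]; exact h.fx _ _)) forall_nil)
  rcases h.exT.2 _ t.pA _ (h.dA t.pA) (t.sq 2 (by decide)) (by rw [conj_mul, t.sq 2 (by decide)]; simp) with b | b | b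
  · exact fun w hw => e _ b w (by revert w; decide)
  · exact (no (LT36.covers _ _ (h.iE t) (fun w hw => e _ b w (by revert w; decide)) s)).elim
  · exact (no (LT37.covers _ _ (h.iE t) (fun w hw => e _ b w (by revert w; decide)) s)).elim

theorem bX (x : ℕ) (hx : x < 7) : Commute (FF ev T 1) (ev x) := by
  have e : FF ev T 1 = T 2 * dd ev * T 2 * dd ev * T 2 := h.Eb t
  have b := (h.cen t a).2
  rcases (by omega : x < 5 ∨ x = 5 ∨ x = 6) with k | rfl | rfl
  · exact e ▸ mem_CA.1 (h.bA t) x k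
  · exact e ▸ b
  · have c : Commute (FF ev T 1) (dd ev) := by
      have := k3eq (h.iE t) (h.r3 t a) ([2, 1, 2, 1, 2] ++ [1]) ([1] ++ [2, 1, 2, 1, 2])
      rwa [evw_append, evw_append, evw_cons _ 1 [], evw_nil, mul_one] at this
    have := h.relA [6] ([5, 6, 6, 5] ++ [5] ++ [5] ++ [5, 6, 6, 5])
    simp only [evw_append, evw_cons _ _ [], evw_nil, mul_one] at this
    rw [← e] at b
    exact this ▸ ((c.mul_right b).mul_right b).mul_right c

omit a in
theorem FD (x : ℕ) (hx : 3 ≤ x) : FF ev T x = byW ev σD x := by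
  unfold FF
  split_ifs
  · interval_cases x <;> exact mul_one _
  · rfl

theorem om : evw (FF ev T) (wpow [1, 2, 3, 4] 8) = 1 := by
  have q := fun u w k => k3eq (h.iE t) (h.r3 t a) u w k
  have e : evw (FF ev T) (wpow [1, 2, 3, 4] 8) = evw (EE ev T) (subst σ5 (wpow [1, 2, 3, 4] 8)) := by
    rw [evw_subst]; exact evw_congr (k := 5) (fun x hx => if_pos hx) (by decide)
  have cm : ∀ u ∈ [wpow [0, 1] 4, [0], [1, 0, 1], [3, 1, 0, 1, 3]],
      Commute (evw (FF ev T) (wpow [1, 2, 3, 4] 8)) (evw (EE ev T) u) := fun u hu => by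
    rw [e, Commute, SemiconjBy, ← evw_append, ← evw_append]
    exact q _ _ (by revert u; decide +kernel)
  have cz := h.Ez t ▸ cm _ List.mem_cons_self
  have o : evw (FF ev T) (wpow [1, 2, 3, 4] 8) ^ (2 * 1 + 1) = 1 := by rw [e, ← evw_wpow, q _ [] (by decide +kernel), evw_nil]
  have e4 : (evw ev [4, 5, 5, 4])⁻¹ = evw ev [4, 5, 5, 4] := inv_eq_of_mul_eq_one_right (h.sqE t 3 (by decide))
  obtain ⟨w, hw, b⟩ := h.slv sE cz (fun y hy => by
      obtain ⟨x, hx, rfl⟩ := (by decide : ∀ y ∈ [[0], [1], [2], [3]], ∃ x < 4, y = [x]) y hy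
      have d := h.relA ([5, 6, 6, 5] ++ [4, 5, 5, 4] ++ [x]) ([x] ++ ([5, 6, 6, 5] ++ [4, 5, 5, 4])) (by
        clear hy; revert x; decide +kernel)
      simp only [evw_append, evw_cons _ _ [], evw_nil, mul_one] at d
      have := ((h.bX t a x (by omega)).mul_left ((show Commute (T 0) (ev x) from mem_CA.1 (h.TA t).1 x (by omega)).mul_left
        d)).pow_left 8
      rw [evw_wpow]
      simpa [FF, byW, σ5, EE, ev4, dd] using this.symm.eq)
    (forall_cons ((h.cT t cz).2 (by simpa [EE, ev4] using cm [0] (by decide))) <| forall_cons (h.dc ▸ h.cT' t h.dz cz (by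
      simpa [h.di, EE, ev4, mul_assoc] using cm [1, 0, 1] (by decide))) <| forall_cons (by
      rw [← h.act ([4, 5, 5, 4] ++ [5, 6, 6, 5]) (c 9) (c 7)]
      refine h.cT' t (h.cz (h.lw _)) cz ?_
      rw [evw_append, mul_inv_rev, e4, show (evw ev [5, 6, 6, 5])⁻¹ = dd ev from h.di]
      simpa only [EE, ev4, dd, mul_assoc, evw_cons _ _ [], evw_cons (ev4 _ _ _ _), evw_nil, mul_one] using
        cm [3, 1, 0, 1, 3] (by decide)) forall_nil)
    (forall_cons (by simpa [upd, pow_succ, mul_assoc] using o) forall_nil)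
  rw [List.mem_singleton.1 hw] at b
  exact h.odd b L.one o (one_pow _)

theorem sqF (x : ℕ) (hx : x < 9) : FF ev T x * FF ev T x = 1 := by
  rcases (by decide +kernel : ∀ x < 9, x < 5 ∧ (allLt 4 (subst σ5 [x, x]) && allLt 4 [] && kT.same kb (subst σ5 [x, x]) []) = true ∨
    3 ≤ x ∧ (allLt 7 (subst σD [x, x]) && allLt 7 [] && eqW (subst σD [x, x]) []) = true) x hx with e | e
  · have := k3eq (h.iE t) (h.r3 t a) _ _ e.2
    rw [evw_subst] at this
    simpa [FF, e.1] using this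
  · have := h.relA _ _ e.2
    rw [evw_subst] at this
    simpa [h.FD t x e.1] using this

theorem rS : ∀ w ∈ SoB.rels, evw (FF ev T) w = 1 := fun w hw => by
  rcases (by decide +kernel : ∀ w ∈ SoB.rels, w = wpow [1, 2, 3, 4] 8 ∨
    (∀ x ∈ w, x < 5) ∧ (allLt 4 (subst σ5 w) && allLt 4 [] && kT.same kb (subst σ5 w) []) = true ∨
    (∀ x ∈ w, 3 ≤ x) ∧ (allLt 7 (subst σD w) && allLt 7 [] && eqW (subst σD w) []) = true ∨
    ∃ x < 3, ∃ y < 9, w = [x, y, x, y] ∧ 3 ≤ y ∧ allLt 7 (σD.getD y []) = true ∧ apOk (σD.getD y []) (c 9) (c 9) = true)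
    w hw with rfl | e | e | ⟨x, hx, y, hy, rfl, e⟩
  · exact h.om t a
  · rw [evw_congr (ev := FF ev T) (ev' := byW (EE ev T) σ5) (fun x hx => if_pos hx) e.1, ← evw_subst, k3eq (h.iE t) (h.r3 t a) _ _ e.2, evw_nil]
  · rw [evw_cg fun x hx => h.FD t x (e.1 x hx), ← evw_subst, h.relA _ _ e.2, evw_nil]
  · simp only [evw_cons, evw_nil, mul_one]
    refine com2 (h.sqF t a x (by omega)) (h.sqF t a y hy) ?_
    rw [h.FD t y e.1]
    have cz : Commute (byW ev σD y) z := h.cz (L.evw h.l fun x hx => (allLt_sound e.2.1 x hx).trans (by decide))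
    interval_cases x
    · exact (show FF ev T 0 = z from h.Ez t) ▸ cz.symm
    · exact evw_com fun x hx => h.bX t a x (allLt_sound e.2.1 x hx)
    · exact (show FF ev T 2 = T 0 from mul_one _) ▸ ((h.cT t cz).1 (h.fx _ _ e.2.2)).symm

omit t a in
theorem exρ : ∃ ρ : SoB.G →* G, ρ (SoB.el 0) = z ∧ ∀ ζ, (∀ g, g * ζ = ζ * g) → ζ * ζ = 1 → ρ ζ = 1 := by
  obtain ⟨T, t, a⟩ := h.exT2
  obtain ⟨ρ, e⟩ := SoB.hhom (FF ev T) (fun x hx => by
    rw [inv_eq_of_mul_eq_one_right (h.sqF t a x hx)]; interval_cases x <;> rfl) (h.rS t a)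
  have e0 : FF ev T 0 = z := h.Ez t
  have e2 : FF ev T 2 = T 0 := mul_one _
  refine ⟨ρ, (e 0 (by decide)).trans e0, fun ζ c1 c2 => ?_⟩
  have cm : ∀ x < 9, Commute (ρ ζ) (FF ev T x) := fun x hx => by
    rw [← e x hx, Commute, SemiconjBy, ← map_mul, ← map_mul, c1]
  have g2 : ρ ζ * ρ ζ = 1 := by rw [← map_mul, c2, map_one]
  generalize ρ ζ = g at cm g2
  have cz : Commute g z := e0 ▸ cm 0 (by decide)
  have cc : ∀ i < 7, Commute g (ι (c (9 - i))) := fun i hi => by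
    induction i with
    | zero => exact (h.cT t cz).2 (e2 ▸ cm 2 (by decide))
    | succ i ih =>
      have := cm (i + 3) (by omega)
      rw [h.FD t _ (by omega)] at this
      rw [← h.act (σD.getD (i + 3) []) (c (9 - i)) _ ((by decide +kernel : ∀ i < 6,
        apOk (σD.getD (i + 3) []) (c (9 - i)) (c (9 - (i + 1))) = true) i (by omega))]
      exact (this.mul_right (ih (by omega))).mul_right this.inv_right
  obtain ⟨w, hw, b⟩ := h.slv sF cz (forall_cons (h.FD t 3 le_rfl ▸ cm 3 (by decide)).symm forall_nil) (fun i hi => by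
    obtain ⟨j, hj, rfl⟩ := (by decide : ∀ i ∈ [3, 4, 5, 6, 7, 8, 9], ∃ j < 7, i = 9 - j) i hi
    exact cc j hj) forall_nil
  simp only [List.mem_cons, List.not_mem_nil, or_false] at hw
  rcases hw with rfl | rfl
  · refine (h.uq b L.one).resolve_right fun k => (h.t0 t).1 ?_
    rw [mul_one] at k
    have k3 : ∀ {x y : G}, x * x = 1 → y * y = 1 → Commute x y → x * (y * (x * (y * (x * y)))) = 1 → y = x :=
      fun {x y} a b c d => by
        rw [← mul_assoc x y (x * _), ← mul_assoc x y (x * y), mul_assoc x y (x * y), com2 a b c, mul_one] at d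
        exact mul_left_cancel (d.trans a.symm)
    have r := h.rS t a
    have b1 := k3 h.z2 (h.sqF t a 1 (by decide)) (k ▸ cm 1 (by decide)) (by simpa [e0] using r [0, 1, 0, 1, 0, 1] (by decide))
    exact k3 h.z2 (t.sq 0 (by decide)) (h.tz t).symm (by simpa [b1, e2] using r [1, 2, 1, 2, 1, 2] (by decide))
  · rw [inn w12 (c 1 * c 2)] at b
    have : g * g = ι (c 1 * c 2 * (c 1 * c 2)) := by
      rcases h.uq b (L.inn _) with k | k <;> rw [k, map_mul ι (c 1 * c 2)]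
      rw [mul_assoc, ← mul_assoc (ι _), h.zc, ← mul_assoc, ← mul_assoc, h.z2, one_mul]
    exact absurd (this.symm.trans g2) (h.c1 _)
end Mo
end CfH6.Co
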