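import Cfsg.Agent.OD.Pre
import Cfsg.Agent.H6.CoU
/-! Involutions in the automorphism group of the extraspecial group of order 512. -/
set_option autoImplicit false
set_option maxRecDepth 100000
set_option linter.all false
open CfL MulAction Subgroup CfH9 CfH4
namespace CfH6.Co

theorem esT : ES2 Zp := by
  have z2 : Zp * Zp = 1 := by decide +kernel
  refine ⟨by decide +kernel, Zc, z2, fun x y => ?_, fun x h => (em _).imp id fun e => (cZp x).1 ⟨h, e⟩⟩
  let K : Subgroup Tp := ⟨⟨⟨{y | ∀ x, x * y = y * x ∨ x * y = Zp * (y * x)}, fun {a b} ha hb x => by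
    rw [← mul_assoc]
    rcases ha x with e | e <;> rcases hb x with e' | e' <;> simp only [e, e', mul_assoc, true_or, or_true]
    · right; rw [← mul_assoc a, ← Zc, mul_assoc]
    · left; rw [← mul_assoc a, ← Zc, mul_assoc, ← mul_assoc Zp, z2, one_mul]⟩, fun x => by simp⟩, fun {a} ha x => by
    refine (ha (a⁻¹ * x * a⁻¹)).imp (fun e => ?_) fun e => ?_
    · simpa [mul_assoc] using e.symm
    · simp only [mul_assoc, inv_mul_cancel, mul_one, mul_inv_cancel_left] at e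
      rw [e, ← mul_assoc, z2, one_mul]⟩
  have k : ∀ j < 9, ∀ x, x * mkT (tp.R j 0) = mkT (tp.R j 0) * x ∨ x * mkT (tp.R j 0) = Zp * (mkT (tp.R j 0) * x) := by
    decide +kernel
  exact TE.top_of K (fun j hj a e => by have := k j hj; rwa [e, mkT_eq] at this) y x

noncomputable def eU (x : ℕ) : S := byW eS dU (x % 34)
noncomputable def tN : List ℕ → ℕ → ℕ := List.rec (fun i => i) fun x _ ih i => ih (sU.R (Nat.mod x 34) i)
noncomputable def W (w : List ℕ) : S := (evw eU w)⁻¹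
noncomputable def iv (w : List ℕ) (u : Tp) : Tp := mkT (tN w u.1)

theorem eU1 (x : ℕ) : eU x ∈ S0 ∧ ∀ u : Tp, ((eU x)⁻¹ u).1 = sU.R (x % 34) u.1 := by
  have := (allN_iff _ _).1 kU (x % 34) (Nat.mod_lt _ (by decide))
  rw [Bool.and_eq_true, allN_iff] at this
  exact ⟨wS (allLt_sound this.1), fun u => (wd (allLt_sound this.1) u).trans (Nat.eq_of_beq_eq_true (this.2 _ u.2))⟩

theorem W_app (u w : List ℕ) : W (u ++ w) = W w * W u := by rw [W, evw_append, mul_inv_rev]; rfl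
theorem W_cons (x : ℕ) (w : List ℕ) : W (x :: w) = W w * W [x] := W_app [x] w
theorem W_nil : W [] = 1 := inv_one
theorem Wv (w : List ℕ) : ∀ u : Tp, (W w u).1 = tN w u.1 := by
  induction w with
  | nil => exact fun _ => rfl
  | cons x w ih => exact fun u => by rw [W, evw_cons, mul_inv_rev, MulAut.mul_apply, ← W, ih, (eU1 x).2]; rfl
theorem Wa (w : List ℕ) (u : Tp) : W w u = iv w u := by rw [iv, ← Wv, mkT_eq]
theorem WS (w : List ℕ) : W w ∈ S0 := inv_mem (list_prod_mem (List.forall_mem_map.2 fun x _ => (eU1 x).1))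

noncomputable def gn (k : ℕ) : Tp := mkT (2 ^ (k + 1))
theorem ext8 {f g : S} (h : ∀ k < 8, f (gn k) = g (gn k)) : f = g := MulEquiv.ext fun t =>
  TE.top_of (f.toMonoidHom.eqLocus g.toMonoidHom) (fun x hx a e => by
    have k : ∀ x < 9, mkT (tp.R x 0) = if x = 0 then Zp else gn (x - 1) := by decide +kernel
    have := k x hx
    rw [e, mkT_eq] at this
    split_ifs at this <;> rw [this]
    · exact (aut_Z cZp f).trans (aut_Z cZp g).symm
    · exact h _ (by change x < 9 at hx; omega)) t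

theorem half_eq {a b : Tp} (h : a.1 / 2 = b.1 / 2) : a = b ∨ a = b * Zp := by
  have : ∀ b : Tp, (b * Zp).1 / 2 = b.1 / 2 ∧ (b * Zp).1 ≠ b.1 := by decide +kernel
  have := this b
  exact (show a.1 = b.1 ∨ a.1 = (b * Zp).1 by omega).imp Subtype.ext Subtype.ext

theorem cj_half (u b : Tp) : (u * b * u⁻¹).1 / 2 = b.1 / 2 := by
  have : ∀ b : Tp, (Zp * b).1 / 2 = b.1 / 2 := by decide +kernel
  rcases esT.comm u b with e | e <;> simp [e, mul_assoc, this]

theorem cjZ (u : Tp) : MulAut.conj (u * Zp) = MulAut.conj u := MulEquiv.ext fun t => by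
  simp only [MulAut.conj_apply, mul_inv_rev]
  rw [mul_assoc u, Zc]; group

theorem cj_cj (f : S) (u : Tp) : f * MulAut.conj u * f⁻¹ = MulAut.conj (f u) := MulEquiv.ext fun t => by simp

theorem cj_one {u : Tp} (h : MulAut.conj u = 1) : u = 1 ∨ u = Zp :=
  esT.center u fun y => mul_inv_eq_iff_eq_mul.1 (congrArg (· y) h)

theorem triv_inner {f : S} (h : ∀ k < 8, f (gn k) = gn k ∨ f (gn k) = gn k * Zp) : ∃ u, f = MulAut.conj u := by
  have k : ∀ n < 8, ∀ k < 8, gn (n ^^^ 1) * gn k * (gn (n ^^^ 1))⁻¹ = if k = n then gn k * Zp else gn k := by decide +kernel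
  have : ∀ n ≤ 8, ∃ u : Tp, ∀ k < 8, u * gn k * u⁻¹ = if k < n then f (gn k) else gn k := fun n => by
    induction n with
    | zero => exact fun _ => ⟨1, by simp⟩
    | succ n ih =>
      intro hn
      obtain ⟨u, hu⟩ := ih (by omega)
      rcases h n hn with e | e
      · refine ⟨u, fun k hk => (hu k hk).trans ?_⟩
        rcases lt_trichotomy k n with c | rfl | c
        · rw [if_pos c, if_pos (by omega)]
        · simp [e]
        · rw [if_neg (by omega), if_neg (by omega)]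
      · refine ⟨u * gn (n ^^^ 1), fun j hj => ?_⟩
        rw [← MulAut.conj_apply, map_mul, MulAut.mul_apply, MulAut.conj_apply (gn _), k n hn j hj]
        rcases lt_trichotomy j n with c | rfl | c
        · rw [if_neg c.ne, if_pos (by omega), MulAut.conj_apply, hu j hj, if_pos c]
        · rw [if_pos rfl, if_pos (by omega), map_mul, aut_Z cZp, MulAut.conj_apply, hu j hj, if_neg (lt_irrefl _), e]
        · rw [if_neg c.ne', if_neg (by omega), MulAut.conj_apply, hu j hj, if_neg (by omega)]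
  obtain ⟨u, hu⟩ := this 8 le_rfl
  exact ⟨u, ext8 fun k hk => ((hu k hk).trans (if_pos hk)).symm⟩

noncomputable def eqE (u w : List ℕ) : Bool := all1 (fun k => Nat.beq (tN u (gn k).1) (tN w (gn k).1)) 8
noncomputable def eqZ (u w : List ℕ) : Bool :=
  all1 (fun k => Nat.beq (Nat.div (tN u (gn k).1) 2) (Nat.div (tN w (gn k).1) 2)) 8

theorem of_eqE {u w : List ℕ} (h : eqE u w = true) : W u = W w := ext8 fun k hk =>
  Subtype.ext (by rw [Wv, Wv]; exact Nat.eq_of_beq_eq_true ((all1_iff _ _).1 h k hk))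

theorem of_eqZ {u w : List ℕ} (h : eqZ u w = true) : ∃ v, W u = W w * MulAut.conj v := by
  obtain ⟨v, e⟩ := triv_inner (f := (W w)⁻¹ * W u) fun k hk => by
    have := Nat.eq_of_beq_eq_true ((all1_iff _ _).1 h k hk)
    rw [← Wv, ← Wv] at this
    rcases half_eq this with e | e <;> simp [e, aut_Z cZp]
  exact ⟨v, by rw [← e]; group⟩

def prods : List ℕ → List (List ℕ) := List.rec [[]] fun x _ ih => ih ++ ih.map (x :: ·)
noncomputable def pcOk : List ℕ → Bool := List.rec true fun x l ih =>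
  eqZ [x, x] [] && l.all (fun y => eqZ [y, x] [x, y] || l.any fun k => eqZ [y, x] [x, k, y]) && ih

theorem exU (l : List ℕ) (h : pcOk l = true) : ∃ K : Subgroup S, IsPGroup 2 K ∧ (∀ v, MulAut.conj v ∈ K) ∧
    (∀ x ∈ l, W [x] ∈ K) ∧ ∀ g ∈ K, ∃ e ∈ prods l, (∀ y ∈ e, y ∈ l) ∧ ∃ v, g = W e * MulAut.conj v := by
  induction l with
  | nil =>
    refine ⟨MulAut.conj.range, ?_, fun v => ⟨v, rfl⟩, forall_nil, ?_⟩
    · rw [MonoidHom.range_eq_map]
      exact (IsPGroup.of_card (n := 9) (card_top.trans TE.card)).map _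
    · rintro _ ⟨v, rfl⟩
      exact ⟨[], List.mem_cons_self, forall_nil, v, by rw [W_nil, one_mul]⟩
  | cons x l ih =>
    have h : (eqZ [x, x] [] && l.all (fun y => eqZ [y, x] [x, y] || l.any fun k => eqZ [y, x] [x, k, y]) && pcOk l) = true := h
    simp only [Bool.and_eq_true, List.all_eq_true, Bool.or_eq_true, List.any_eq_true] at h
    obtain ⟨K, k1, k2, k3, k4⟩ := ih h.2
    have s2 : W [x] * W [x] ∈ K := by
      obtain ⟨v, e⟩ := of_eqZ h.1.1
      rw [← W_cons, e, W_nil, one_mul]; exact k2 v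
    have n1 : ∀ e : List ℕ, (∀ y ∈ e, y ∈ l) → W [x] * W e * (W [x])⁻¹ ∈ K := fun e he => by
      induction e with
      | nil => simp [W_nil]
      | cons y e ih =>
        have a := he y List.mem_cons_self
        have : W [x] * W [y] * (W [x])⁻¹ ∈ K := by
          rcases h.1.2 y a with c | ⟨k, b, c⟩ <;> obtain ⟨v, c⟩ := of_eqZ c <;>
            rw [← W_cons, c, W_cons, mul_assoc, mul_assoc, ← mul_assoc (W [x]), cj_cj]
          exacts [mul_mem (k3 y a) (k2 _), mul_mem (W_cons k [y] ▸ mul_mem (k3 y a) (k3 k b)) (k2 _)]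
        convert mul_mem (ih fun z hz => he z (List.mem_cons_of_mem _ hz)) this using 1
        rw [W_cons y e]; group
    have n2 : ∀ g ∈ K, W [x] * g * (W [x])⁻¹ ∈ K := fun g hg => by
      obtain ⟨e, -, e1, v, rfl⟩ := k4 g hg
      convert mul_mem (n1 e e1) (cj_cj (W [x]) v ▸ k2 (W [x] v)) using 1
      group
    have m : ∀ a b, a * (W [x])⁻¹ ∈ K → b * (W [x])⁻¹ ∈ K → a * b ∈ K := fun a b ha hb => by
      convert mul_mem ha (mul_mem (n2 _ hb) s2) using 1; group
    let K' : Subgroup S := ⟨⟨⟨{g | g ∈ K ∨ g * (W [x])⁻¹ ∈ K}, fun {a b} ha hb => by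
      rcases ha with ha | ha <;> rcases hb with hb | hb
      · exact Or.inl (mul_mem ha hb)
      · exact Or.inr (by rw [mul_assoc]; exact mul_mem ha hb)
      · right; convert mul_mem ha (n2 _ hb) using 1; group
      · exact Or.inl (m a b ha hb)⟩, Or.inl (one_mem _)⟩, fun {a} ha => ha.imp inv_mem fun ha => by
      convert mul_mem (inv_mem (m a a ha ha)) ha using 1; group⟩
    refine ⟨K', fun ⟨g, hg⟩ => ?_, fun v => Or.inl (k2 v), List.forall_mem_cons.2 ⟨Or.inr (by simp), fun y hy => Or.inl (k3 y hy)⟩,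
      fun g hg => ?_⟩
    · obtain ⟨n, e⟩ := k1 ⟨g * g, hg.elim (fun a => mul_mem a a) fun a => m g g a a⟩
      exact ⟨n + 1, Subtype.ext (by rw [pow_succ', SubgroupClass.coe_pow, pow_mul, pow_two]; exact congrArg Subtype.val e)⟩
    · rcases hg with hg | hg <;> obtain ⟨e, e0, e1, v, e2⟩ := k4 _ hg
      · exact ⟨e, List.mem_append_left _ e0, fun y hy => List.mem_cons_of_mem _ (e1 y hy), v, e2⟩
      · refine ⟨x :: e, List.mem_append_right _ (List.mem_map_of_mem e0), List.forall_mem_cons.2 ⟨List.mem_cons_self,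
          fun y hy => List.mem_cons_of_mem _ (e1 y hy)⟩, (W [x])⁻¹ v, ?_⟩
        rw [← cj_cj, W_cons, mul_inv_eq_iff_eq_mul.1 e2]; group

def L5 : List ℕ := [11, 21, 23, 24, 25]
noncomputable def chk1 : List (List ℕ) → List (List ℕ) → Bool := List.rec (fun _ => true) fun e _ ih cs =>
  Bool.rec (ih cs) (L5.contains ((cs.headD []).headD 0) && eqZ (e ++ (cs.headD []).tail)
    ((cs.headD []).tail ++ [(cs.headD []).headD 0]) && ih cs.tail) (eqZ (e ++ e) [])

theorem chk1_sound (l : List (List ℕ)) : ∀ cs, chk1 l cs = true → ∀ e ∈ l, eqZ (e ++ e) [] = true →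
    ∃ ρ ∈ L5, ∃ c, eqZ (e ++ c) (c ++ [ρ]) = true := by
  induction l with
  | nil => exact fun _ _ _ h => absurd h List.not_mem_nil
  | cons a l ih =>
    intro cs h e he h2
    have h : (Bool.rec (chk1 l cs) (L5.contains ((cs.headD []).headD 0) && eqZ (a ++ (cs.headD []).tail)
      ((cs.headD []).tail ++ [(cs.headD []).headD 0]) && chk1 l cs.tail) (eqZ (a ++ a) []) : Bool) = true := h
    cases b : eqZ (a ++ a) [] <;> rw [b] at h <;> rcases List.mem_cons.1 he with rfl | he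
    · exact absurd (b.symm.trans h2) (by decide)
    · exact ih _ h e he h2
    all_goals simp only [Bool.and_eq_true, List.contains_iff_mem] at h
    exacts [⟨_, h.1.1, _, h.1.2⟩, ih _ h.2 e he h2]

theorem k1 : chk1 (prods (List.range 12)).tail ceU = true := by decide +kernel

def R8 : List ℕ := [11, 19, 20, 21, 22, 23, 24, 25]
def Lc : List (List ℕ) := [[], [16], [2, 16], [17, 3], [2, 16, 17], [3, 16, 17], [3, 17], [16, 17], [2, 3, 16, 17]]
def Lq (ρ : ℕ) : List ℕ := if ρ = 11 then [0, 4, 16, 20] else if ρ = 21 then [0, 4, 8, 12] else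
  [0, 4, 16, 20].flatMap fun a => (if ρ = 23 then [0, 64, 256, 320] else [0, 64, 128, 192]).map (a + ·)
def Lm (ρ : ℕ) : List (ℕ × ℕ × List ℕ) := if ρ = 11 then [(11, 0, []), (19, 32, []), (20, 96, [])] else if ρ = 21 then
  [(21, 0, []), (21, 32, [1, 15, 1, 17, 16, 1]), (22, 96, [])] else [(ρ, 0, [])]

theorem k2 : ∀ ρ ∈ L5, eqE [ρ, ρ] [] = true ∧ (∀ m ∈ Lm ρ, m.1 ∈ R8 ∧ ∀ k < 8,
    iv (ρ :: m.2.2) (mkT m.2.1 * gn k * (mkT m.2.1)⁻¹) = iv (m.2.2 ++ [m.1]) (gn k)) ∧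
    ∀ v : Tp, iv [ρ] v * v = 1 ∨ iv [ρ] v * v = Zp → ∃ c ∈ Lc, ∃ q ∈ Lq ρ, ∃ m ∈ Lm ρ,
      (iv [ρ] (mkT q) * iv c v * (mkT q)⁻¹).1 / 2 = (mkT m.2.1).1 / 2 ∧ eqE (ρ :: c) (c ++ [ρ]) = true := by decide +kernel

noncomputable def rU : Rep sU eU := ⟨MulAction.toPermHom S Tp, fun x hx i => by
  have := (eU1 x).2 i
  rwa [Nat.mod_eq_of_lt (show x < 34 from hx)] at this⟩

theorem cls (hS : Nat.card S0 ≤ 44590694400) (hI : ∀ v, MulAut.conj v ∈ S0) {s : S} (hs : s ∈ S0) (s2 : s * s = 1) :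
    (∃ u, s = MulAut.conj u) ∨ ∃ m ∈ R8, IsConj s (W [m]) := by
  obtain ⟨K, p, k2', k3, k4⟩ := exU (List.range 12) (by decide +kernel)
  have l : K ≤ S0 := fun g hg => by
    obtain ⟨e, -, -, v, rfl⟩ := k4 g hg
    exact mul_mem (WS e) (hI v)
  have c1 : 2 ^ 20 ≤ Nat.card K := le_trans (by decide +kernel) ((rU.lv_ge (by decide) _ _ kLU).trans
    (card_le_of_le (inf_le_left.trans (gensub_le fun x hx => by
      rw [show eU x = (W [x])⁻¹ by simp [W]]
      refine inv_mem ((lt_or_ge x 12).elim (fun a => k3 x (List.mem_range.2 a)) fun a => ?_)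
      obtain ⟨v, e⟩ := of_eqZ ((show ∀ x < 14, 12 ≤ x → eqZ [x] [] = true by decide +kernel) x hx a)
      rw [e, W_nil, one_mul]; exact k2' v))))
  obtain ⟨n, hn⟩ := p.exists_card_eq
  have c2 := card_mul_relIndex l
  rw [hS.antisymm S0_ge, hn] at c2
  obtain ⟨c, -, hc⟩ := conj_into (p := 2) (n := 1) l (fun ⟨j, hj⟩ => by
    obtain ⟨i, rfl⟩ := Nat.exists_eq_add_of_le ((Nat.pow_le_pow_iff_right (by decide)).1 (hn ▸ c1))
    exact absurd (show 2 ^ 21 ∣ 44590694400 from ⟨2 ^ i * j, by rw [← c2, hj]; ring⟩) (by decide)) hs (by rw [pow_one, pow_two, s2])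
  obtain ⟨e, e0, -, v, e1⟩ := k4 _ hc
  have j1 : IsConj s (W e * MulAut.conj v) := isConj_iff.2 ⟨c, e1⟩
  rcases (show e = [] ∨ e ∈ (prods (List.range 12)).tail from List.mem_cons.1 e0) with rfl | e0
  · exact Or.inl ⟨c⁻¹ v, by rw [← cj_cj, ← one_mul (MulAut.conj v), ← W_nil, ← e1]; group⟩
  obtain ⟨ρ, r1, d, r2⟩ := chk1_sound _ _ k1 e e0 ((all1_iff _ _).2 fun k hk => by
    have : W (e ++ e) = MulAut.conj ((W e)⁻¹ v * v)⁻¹ := by
      rw [W_app, map_inv, map_mul, ← cj_cj, eq_inv_iff_mul_eq_one, ← sq_of_isConj j1 s2]; group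
    rw [← Wv, this]
    exact Nat.beq_eq ▸ cj_half _ _)
  obtain ⟨v', r2⟩ := of_eqZ r2
  have j2 : IsConj s (W [ρ] * MulAut.conj (W d (v' * v))) := j1.trans (isConj_iff.2 ⟨W d, by
    rw [W_app, W_app] at r2
    rw [← cj_cj, ← mul_assoc, r2, map_mul]; group⟩)
  generalize W d (v' * v) = y at j2
  obtain ⟨a1, a2, a3⟩ := k2 ρ r1
  have a1 : W [ρ] * W [ρ] = 1 := (W_cons ρ [ρ]).symm.trans ((of_eqE a1).trans W_nil)
  obtain ⟨c, -, q, -, m, m1, b1, b2⟩ := a3 y (cj_one (by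
    rw [← Wa, map_mul, ← cj_cj, inv_eq_of_mul_eq_one_right a1, ← sq_of_isConj j2 s2]; group))
  have b2 : W c * W [ρ] = W [ρ] * W c := (W_cons _ _).symm.trans ((of_eqE b2).trans (W_app _ _))
  have b3 : MulAut.conj (W [ρ] (mkT q) * W c y * (mkT q)⁻¹) = MulAut.conj (mkT m.2.1) := by
    rw [Wa, Wa]
    rcases half_eq b1 with e | e <;> simp only [e, cjZ]
  refine Or.inr ⟨m.1, (a2 m m1).1, j2.trans (isConj_iff.2 ⟨W m.2.2 * (MulAut.conj (mkT q) * W c), ?_⟩)⟩
  have b4 : W m.2.2 * (W [ρ] * MulAut.conj (mkT m.2.1)) = W [m.1] * W m.2.2 := by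
    rw [← mul_assoc, ← W_cons, ← W_app]
    exact ext8 fun k hk => by rw [MulAut.mul_apply, Wa, Wa]; exact (a2 m m1).2 k hk
  rw [← b3, map_mul, map_mul, map_inv, ← cj_cj, ← cj_cj (W c), inv_eq_of_mul_eq_one_right a1, ← mul_assoc (W [ρ]),
    ← mul_assoc (W [ρ]), ← mul_assoc (W [ρ]), ← mul_assoc (W [ρ]), a1, one_mul] at b4
  rw [mul_inv_rev, ← mul_assoc, mul_inv_eq_iff_eq_mul, ← b4, ← mul_assoc _ (W [ρ]), mul_assoc _ _ (W [ρ]), mul_assoc _ _ (W [ρ]), b2]
  group
end CfH6.Co
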