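import Cfsg.Agent.OD.Pre
import Cfsg.Agent.H6.CoI
/-! Commuting conjugates of a weakly closed involution. -/
set_option autoImplicit false
set_option maxRecDepth 100000
set_option linter.all false
open CfL MulAction Subgroup CfH9 CfH4
namespace CfH6.Co

structure S1 {G : Type*} [Group G] (z : G) (ι : Tp →* G) : Prop where
  inj : Function.Injective ι
  z0 : ι Zp = z
  nm : ∀ h, h * z = z * h → ∀ t, h * ι t * h⁻¹ ∈ ι.range
  ct : ∀ h, (∀ t, h * ι t = ι t * h) → h = 1 ∨ h = z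
  card : Nat.card Cx(z) = 2 * 44590694400

namespace S1
variable {G : Type*} [Group G] {z : G} {ι : Tp →* G} (h : S1 z ι) {g g' : G} {s s' : S}
include h

theorem z2 : z * z = 1 := by rw [← h.z0, ← map_mul, esT.sq, map_one]
theorem z1 : z ≠ 1 := fun e => esT.ne (h.inj (h.z0.trans (e.trans (map_one ι).symm)))
theorem zc (t : Tp) : ι t * z = z * ι t := by rw [← h.z0, ← map_mul, ← map_mul, Zc]
theorem cz (a : L ι g s) : g * z = z * g := h.z0 ▸ a.com (aut_Z cZp s)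
theorem Lz : L ι z 1 := fun t => by rw [← h.zc]; simp
theorem uq (a : L ι g s) (b : L ι g' s) : g = g' ∨ g = z * g' :=
  (h.ct _ fun t => (a.mul b.inv).com (by simp)).imp mul_inv_eq_one.1 mul_inv_eq_iff_eq_mul.1
theorem eqS (a : L ι g s) (b : L ι g s') : s = s' := MulEquiv.ext fun t => h.inj ((a t).symm.trans (b t))
theorem fix (a : L ι g s) {t : Tp} (e : g * ι t = ι t * g) : s t = t := h.inj (by rw [← a, e]; group)
theorem nin {u : Tp} (a : L ι g (MulAut.conj u)) : g ∈ ι.range :=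
  (h.uq a (L.inn u)).elim (fun e => ⟨u, e.symm⟩) fun e => ⟨Zp * u, by rw [e, map_mul, h.z0]⟩

variable [Finite G]

theorem lift : Nat.card S0 ≤ 44590694400 ∧ (∀ s ∈ S0, ∃ g, L ι g s) ∧ ∀ g, g * z = z * g → ∃ s ∈ S0, L ι g s := by
  obtain ⟨θ, e⟩ := exists_theta h.inj Cx(z) fun k hk => h.nm k (mem_Cx.1 hk)
  have c1 := rng_ge θ (a := ⟨z, mem_Cx.2 rfl⟩) fun k hk => (h.ct k fun t => by
    have := e k t
    rw [hk] at this
    exact mul_inv_eq_iff_eq_mul.1 this.symm).imp Subtype.ext Subtype.ext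
  have c2 : 2 * Nat.card θ.range ≤ 2 * 44590694400 := h.card ▸ rng_le θ (a := ⟨z, mem_Cx.2 rfl⟩)
    (MulEquiv.ext fun t => h.inj (by rw [e, ← h.zc]; simp)) fun e => h.z1 (congrArg Subtype.val e)
  rw [h.card] at c1
  have l1 : S0 ≤ θ.range := S0_le fun x hx => by
    have := sq_mem_of_card (R := θ.range) (autp.trans c1) (eS x * eS x)
    have k := od_pow x ((show ∀ x < 8, x ∈ oddL by decide) x hx)
    rw [show od x = 1 from if_neg (by omega)] at k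
    rwa [show eS x * eS x * (eS x * eS x) = eS x ^ (2 * 1 + 1) * eS x by simp [pow_succ, mul_assoc], k, one_mul] at this
  have c3 := Nat.le_of_mul_le_mul_left c2 two_pos
  have l2 := eq_of_le_of_card_ge l1 (c3.trans S0_ge)
  refine ⟨l2 ▸ c3, fun s hs => ?_, fun g hg => ⟨θ ⟨g, mem_Cx.2 hg⟩, l2.ge ⟨_, rfl⟩, fun t => (e ⟨g, mem_Cx.2 hg⟩ t).symm⟩⟩
  obtain ⟨g, rfl⟩ := l1 hs
  exact ⟨g, fun t => (e g t).symm⟩

theorem inS (a : L ι g s) : s ∈ S0 := by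
  obtain ⟨s', b, c⟩ := h.lift.2.2 g (h.cz a)
  rwa [h.eqS a c]
end S1

structure Wk {G : Type*} [Group G] (z : G) (ι : Tp →* G) : Prop extends S1 z ι where
  wk : ∀ u, IsConj z (ι u) → u = Zp

structure Pr {G : Type*} [Group G] (z t : G) (ι κ : Tp →* G) (s s' : S) : Prop where
  a : Wk z ι
  b : Wk t κ
  cj : IsConj z t
  ne : t ≠ z
  l : L ι t s
  l' : L κ z s'

def Ty (G : Type*) [Group G] (s : S) : Prop := ∃ (z t : G) (ι κ : Tp →* G) (s' : S), Pr z t ι κ s s'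

noncomputable def Fs (s : S) : Subgroup Tp := s.toMonoidHom.eqLocus (MonoidHom.id _)

variable {G : Type*} [Group G] [Finite G] {z t : G} {ι κ : Tp →* G} {s s' : S}

theorem Wk.mk' (h : Wk z ι) (c : IsConj z t) (n : t ≠ z) (l : L ι t s) : Ty G s := by
  obtain ⟨g, rfl⟩ := isConj_iff.1 c
  have b : Wk (g * z * g⁻¹) ((MulAut.conj g).toMonoidHom.comp ι) := by
    refine ⟨⟨(MulAut.conj g).injective.comp h.inj, congrArg (g * · * g⁻¹) h.z0, fun k hk u => ?_, fun k hk => ?_,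
      (card_Cx_conj c).symm.trans h.card⟩, fun u hu => h.wk u (c.trans (hu.trans (isConj_iff.2 ⟨g, rfl⟩).symm))⟩
    · obtain ⟨v, e⟩ := h.nm (g⁻¹ * k * g) (by
        calc _ = g⁻¹ * (k * (g * z * g⁻¹)) * g := by group
          _ = _ := by rw [hk]; group) u
      exact ⟨v, by simp [e, mul_assoc]⟩
    · refine (h.ct (g⁻¹ * k * g) fun u => ?_).imp (fun e => ?_) fun e => by rw [← e]; group
      · calc _ = g⁻¹ * (k * (g * ι u * g⁻¹)) * g := by group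
          _ = _ := by rw [show k * (g * ι u * g⁻¹) = g * ι u * g⁻¹ * k from hk u]; group
      · calc k = g * (g⁻¹ * k * g) * g⁻¹ := by group
          _ = 1 := by rw [e]; group
  obtain ⟨s', -, l'⟩ := b.lift.2.2 z (h.cz l).symm
  exact ⟨_, _, _, _, s', h, b, c, n, l, l'⟩

namespace Pr
variable (P : Pr z t ι κ s s')
include P

theorem symm : Pr t z κ ι s' s := ⟨P.b, P.a, P.cj.symm, P.ne.symm, P.l', P.l⟩

theorem conj {r : S} (hc : IsConj s r) : ∃ ι', Pr z t ι' κ r s' := by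
  obtain ⟨c, rfl⟩ := isConj_iff.1 hc
  have e : ι (c⁻¹ Zp) = z := by rw [aut_Z cZp, P.a.z0]
  refine ⟨ι.comp c⁻¹.toMonoidHom, ⟨⟨P.a.inj.comp c⁻¹.injective, e, fun k hk u => ?_, fun k hk => P.a.ct k fun u => ?_,
    P.a.card⟩, fun u hu => c⁻¹.injective ((P.a.wk _ hu).trans (aut_Z cZp _).symm)⟩, P.b, P.cj, P.ne,
    fun u => (P.l _).trans (by simp), P.l'⟩
  · obtain ⟨v, e⟩ := P.a.nm k hk (c⁻¹ u)
    exact ⟨c v, by simpa using e⟩
  · simpa using hk (c u)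

theorem nt : t ∉ ι.range := fun ⟨u, e⟩ => P.ne (by rw [← e, P.a.wk u (e ▸ P.cj), P.a.z0])

theorem cls : ∃ m ∈ R8, IsConj s (W [m]) := (Co.cls P.a.lift.1 (fun v => P.a.inS (L.inn v)) (P.a.inS P.l)
  (P.a.eqS (P.l.mul P.l) (P.b.z2 ▸ L.one))).resolve_left fun ⟨u, e⟩ => P.nt (P.a.nin (e ▸ P.l))

theorem Ifix {i : Tp} (h : ι i ∈ κ.range) : s i = i := by
  obtain ⟨u, e⟩ := h
  exact P.a.fix P.l (e ▸ (P.b.zc u).symm)

theorem IZ : ι Zp ∉ κ.range := P.a.z0 ▸ P.symm.nt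

theorem Iw {i : Tp} (h : ι i ∈ κ.range) (c : IsConj t (ι i * t)) : i = 1 := by
  obtain ⟨u, e⟩ := h
  have := P.b.wk (u * Zp) (by rwa [map_mul, e, P.b.z0])
  exact P.a.inj (by rw [← e, mul_eq_right.1 this, map_one, map_one])

theorem cq (q : Tp) : ι q * t * (ι q)⁻¹ = ι (q * (s q)⁻¹) * t := by rw [map_mul, map_inv, ← P.l]; group

theorem In {h : G} {c : S} (a : L ι h c) (e : h * t = t * h) {i : Tp} (hi : ι i ∈ κ.range) : ι (c i) ∈ κ.range := by
  obtain ⟨u, e'⟩ := hi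
  rw [← a, ← e']; exact P.b.nm h e u

theorem lc {c : S} (hc : c ∈ S0) (e : c * s = s * c) : ∃ h, L ι h c ∧ (h * t * h⁻¹ = t ∨ h * t * h⁻¹ = z * t) := by
  obtain ⟨h, a⟩ := P.a.lift.2.1 c hc
  exact ⟨h, a, P.a.uq (by simpa [e] using (a.mul P.l).mul a.inv) P.l⟩

theorem odd {c : S} (hc : c ∈ S0) (e : c * s = s * c) (c3 : c * c * c = 1) : ∃ h, L ι h c ∧ h * t = t * h := by
  obtain ⟨h, a, b | b⟩ := P.lc hc e
  · exact ⟨h, a, mul_inv_eq_iff_eq_mul.1 b⟩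
  have z3 : h * h * h * t = t * (h * h * h) := by
    rcases P.a.uq (c3 ▸ (a.mul a).mul a) L.one with e | e <;> simp [e, P.a.cz P.l]
  rw [mul_inv_eq_iff_eq_mul] at b
  have e2 : h * h * t = t * (h * h) := by
    calc _ = h * z * t * h := by rw [mul_assoc, b]; group
      _ = z * (h * t) * h := by rw [P.a.cz a]; group
      _ = z * z * (t * (h * h)) := by rw [b]; group
      _ = _ := by rw [P.a.z2, one_mul]
  rw [mul_assoc h h h, mul_assoc h, e2, ← mul_assoc h, b, mul_assoc (z * t), mul_assoc z] at z3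
  exact absurd (mul_eq_right.1 z3) P.a.z1

theorem exβ : ∃ β : Fs s' →* S, Function.Injective β ∧ ∀ b : Fs s', L ι (κ b) (β b) := by
  obtain ⟨θ, e⟩ := exists_theta P.a.inj Cx(z) fun k hk => P.a.nm k (mem_Cx.1 hk)
  let β := θ.comp ((κ.comp (Fs s').subtype).codRestrict Cx(z) fun b => mem_Cx.2 (P.l'.com b.2).symm)
  have l : ∀ b : Fs s', L ι (κ b) (β b) := fun b u => (e ⟨κ b, mem_Cx.2 (P.l'.com b.2).symm⟩ u).symm
  refine ⟨β, (injective_iff_map_eq_one β).2 fun b hb => ?_, l⟩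
  rcases P.a.uq (hb ▸ l b) L.one with e | e
  · exact Subtype.ext (P.b.inj (e.trans (map_one κ).symm))
  · exact absurd ⟨b, e.trans (mul_one z)⟩ P.symm.nt

variable {b : Tp} {f : S} (l : L ι (κ b) f)
include l

theorem F1 {a : Tp} (ha : s a = a) : ι (f a * a⁻¹) ∈ κ.range := by
  rw [map_mul, map_inv, ← l, mul_assoc, mul_assoc, ← mul_assoc (ι a), ← map_inv κ]
  exact mul_mem ⟨b, rfl⟩ (P.b.nm _ (P.l.com ha).symm _)

theorem sig {q : Tp} (e : b = q * (s' q)⁻¹) (n : b ≠ 1) : Ty G f :=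
  P.a.mk' (t := κ b * z) (isConj_iff.2 ⟨κ q, e ▸ P.symm.cq q⟩)
    (fun c => n (P.b.inj ((mul_eq_right.1 c).trans (map_one κ).symm))) (by simpa using l.mul P.a.Lz)
end Pr

theorem Ty.cls (h : Ty G s) : ∃ m ∈ R8, IsConj s (W [m]) ∧ Ty G (W [m]) := by
  obtain ⟨z, t, ι, κ, s', P⟩ := h
  obtain ⟨m, a, b⟩ := P.cls
  obtain ⟨ι', P'⟩ := P.conj b
  exact ⟨m, a, b, _, _, _, _, _, P'⟩

theorem Ty.two (h : Ty G s) : ∃ (z t : G) (ι κ : Tp →* G), ∃ m ∈ R8, Pr z t ι κ s (W [m]) := by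
  obtain ⟨z, t, ι, κ, s', P⟩ := h
  obtain ⟨m, a, b⟩ := P.symm.cls
  obtain ⟨κ', P'⟩ := P.symm.conj b
  exact ⟨_, _, _, _, m, a, P'.symm⟩
end CfH6.Co
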