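import Cfsg.Agent.OD.Pre
import Cfsg.Agent.H6.CoJ
/-! Commuting conjugates of a weakly closed involution: the intersection and the first type. -/
set_option autoImplicit false
set_option maxRecDepth 100000
set_option linter.all false
open CfL MulAction Subgroup CfH9 CfH4
namespace CfH6.Co

def ix (x : ℕ) : ℕ := if x = 11 then 0 else x - 18
noncomputable def LA (x : ℕ) : List Tp := ([[3, 9, 32, 64, 128, 256], [2, 8, 32, 128, 256], [2, 8, 96, 128, 256],
  [2, 32, 64, 128, 256], [2, 128, 256, 96, 56], [2, 8, 32, 128], [2, 8, 32, 256], [2, 8, 32]].getD (ix x) []).map mkT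
noncomputable def LQ (x : ℕ) : List Tp := ([[4, 16, 20], [4, 16, 20, 68, 80, 84], [4, 16, 20, 36, 48, 52], [8, 16], [8, 16],
  [4, 16, 20, 64, 68, 80, 84, 256, 260, 272, 276, 320, 324, 336, 340],
  [4, 16, 20, 64, 68, 80, 84, 128, 132, 144, 148, 192, 196, 208, 212],
  [0, 4, 16, 20, 128, 132, 144, 148, 256, 260, 272, 276, 384, 388, 400, 404]].getD (ix x) []).map mkT
def LO (x : ℕ) : List ℕ := [[], [26, 27], [], [], [], [28, 29, 30], [31, 32, 33]].getD (ix x) []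
def LF (x : ℕ) : List (ℕ × ℕ) := [[(80, 4), (4, 2)], [(272, 8), (132, 4), (64, 2)], [(48, 8), (16, 8), (6, 2)],
  [(24, 4), (266, 8), (4, 2)], [(72, 12), (10, 8), (4, 2)]].getD (ix x) []
def LG (x : ℕ) : List (List ℕ) := [[[2, 8], [0], [3, 8], [1, 5], [4], [5], [6], [7]], [[3], [1, 6], [4], [2, 7], [5], [0], [6], [7]],
  [[3], [3, 0], [4], [1], [1, 2], [1, 2, 5], [6], [7]], [[3], [0], [1, 3, 7], [1, 2, 3, 7], [4], [5], [6], [7]],
  [[3], [0], [1, 3], [2, 7, 6], [1, 3, 6, 2], [1, 2, 3], [4], [5]]].getD (ix x) []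

abbrev bad (x : ℕ) (w : Tp) : Prop := w = Zp ∨ w ≠ 1 ∧ ∃ q ∈ LQ x, w = q * (iv [x] q)⁻¹

theorem kI : ∀ x ∈ R8, (∀ a ∈ LA x, iv [x] a = a) ∧ (∀ c ∈ LO x, eqE [c, c, c] [] = true ∧ eqE [x, c] [c, x] = true) ∧
    TE.cnt (fun u => iv [x] u = u) = (if x = 11 then 128 else if x < 23 then 64 else if x < 25 then 32 else 16) ∧
    ∀ i, iv [x] i = i → (i = 1 ∨ x = 11 ∧ i.1 ∈ [3, 9, 10]) ∨ (∃ a ∈ LA x, a * i ≠ i * a) ∨ i * i = Zp ∨ bad x i ∨
      ∃ c ∈ LO x, bad x (i * iv [c] i) := by decide +kernel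

theorem cardF {x : ℕ} (hx : x ∈ R8) :
    Nat.card (Fs (W [x])) = if x = 11 then 128 else if x < 23 then 64 else if x < 25 then 32 else 16 := by
  rw [← (kI x hx).2.2.1, ← TE.cnt_eq, ← Nat.card_coe_set_eq]
  exact Nat.card_congr (Equiv.subtypeEquivRight fun u => by rw [Set.mem_setOf_eq, ← Wa]; rfl)

theorem LAf {x : ℕ} (hx : x ∈ R8) : ∀ a ∈ LA x, W [x] a = a := fun a ha => (Wa _ a).trans ((kI x hx).1 a ha)

abbrev pat (bs : List Tp) (y u : Tp) : Prop := u * u = y * y ∧ ∀ b ∈ bs, (u * b = b * u ↔ y * b = b * y)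

theorem pat_of {bs : List Tp} {φ : S} (h : φ ∈ fixL S bs) (y : Tp) : pat bs y (φ y) :=
  ⟨by rcases esT.sq_eq y with e | e <;> simp [← map_mul, e, aut_Z cZp], fun b hb => by
    rw [← φ.injective.eq_iff (a := y * b), map_mul, map_mul, show φ b = b from h b hb]⟩

noncomputable def fixOk (ws : List (List ℕ)) : List (ℕ × ℕ) → List Tp → Bool :=
  List.rec (fun bs => all1 (fun k => Nat.beq (evw (bs.getD · Zp) (ws.getD k []) : Tp).1 (gn k).1) 8)
    fun s _ ih bs => Nat.ble (TE.cnt (pat bs (mkT s.1))) s.2 && ih (mkT s.1 :: bs)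

theorem fix_le (ws : List (List ℕ)) (l : List (ℕ × ℕ)) : ∀ bs, fixOk ws l bs = true →
    Nat.card (fixL S bs) ≤ (l.map Prod.snd).prod := by
  induction l with
  | nil =>
    intro bs h
    have h : all1 (fun k => Nat.beq (evw (bs.getD · Zp) (ws.getD k []) : Tp).1 (gn k).1) 8 = true := h
    refine (card_le_of_le (K := ⊥) fun φ hφ => ext8 fun k hk => ?_).trans (by simp)
    rw [← show _ = gn k from Subtype.ext (Nat.eq_of_beq_eq_true ((all1_iff _ _).1 h k hk))]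
    refine (map_evw φ.toMonoidHom _ _).trans (congrArg (evw · _) (funext fun i => ?_))
    rcases lt_or_ge i bs.length with c | c
    · rw [List.getD_eq_getElem _ _ c]; exact hφ _ (List.getElem_mem c)
    · rw [List.getD_eq_default _ _ c]; exact aut_Z cZp φ
  | cons s l ih =>
    intro bs h
    have h : (Nat.ble (TE.cnt (pat bs (mkT s.1))) s.2 && fixOk ws l (mkT s.1 :: bs)) = true := h
    rw [Bool.and_eq_true] at h
    exact card_step (mkT s.1) (fun φ hφ => pat_of hφ _) ((TE.cnt_eq _).le.trans (Nat.le_of_ble_eq_true h.1))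
      ((card_le_of_le fun φ hφ => by exact List.forall_mem_cons.2 ⟨hφ.2, hφ.1⟩).trans (ih _ h.2))

theorem kF : ∀ x ∈ [11, 19, 20, 21, 22], fixOk (LG x) (LF x) (LA x) = true ∧
    ((LF x).map Prod.snd).prod ≤ if x = 11 then 8 else 192 := by decide +kernel

variable {G : Type*} [Group G] [Finite G] {z t : G} {ι κ : Tp →* G} {s s' : S} {x : ℕ}

theorem Pr.I0 (hx : x ∈ R8) (P : Pr z t ι κ (W [x]) s') {i : Tp} (hi : ι i ∈ κ.range) :
    i = 1 ∨ x = 11 ∧ i.1 ∈ [3, 9, 10] := by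
  have nb : ∀ w, ι w ∈ κ.range → ¬ bad x w := fun w hw c => c.elim (fun e => P.IZ (e ▸ hw)) fun ⟨n, q, _, e⟩ =>
    n (P.Iw hw (isConj_iff.2 ⟨ι q, by rw [e, ← Wa, P.cq]⟩))
  obtain ⟨-, k2, -, k3⟩ := kI x hx
  rcases k3 i (Wa _ i ▸ P.Ifix hi) with a | ⟨a, h1, h2⟩ | a | a | ⟨c, h1, h2⟩
  · exact a
  · have := mul_mem (P.In (L.inn a) (P.l.com (LAf hx a h1)).symm hi) (inv_mem hi)
    rw [← map_inv, ← map_mul, MulAut.conj_apply, esT.anti h2, ← mul_assoc, mul_inv_cancel_right, mul_inv_cancel_right] at this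
    exact absurd this P.IZ
  · exact absurd (by rw [← a, map_mul]; exact mul_mem hi hi) P.IZ
  · exact absurd a (nb i hi)
  · obtain ⟨h, a, b⟩ := P.odd (WS [c]) ((W_cons _ _).symm.trans ((of_eqE (k2 c h1).2).trans (W_cons _ _)))
      (by rw [← W_cons, ← W_cons, of_eqE (k2 c h1).1, W_nil])
    exact absurd h2 (nb _ (by rw [map_mul, ← Wa]; exact mul_mem hi (P.In a b hi)))

theorem Pr.F0 (P : Pr z t ι κ s s') {b i : Tp} {f : S} (l : L ι (κ b) f) (hi : ι i ∈ κ.range) : f i = i := by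
  obtain ⟨u, e⟩ := hi
  refine P.a.fix l ((esT.comm b u).elim (fun c => by rw [← e, ← map_mul, c, map_mul]) fun c => absurd ⟨f i * i⁻¹, ?_⟩ P.nt)
  rw [map_mul, map_inv, ← l, ← e, ← map_mul, c, map_mul, map_mul, P.b.z0]; group

noncomputable def ii (d : ℕ) : Tp := mkT ([0, 3, 9, 10].getD d 0)
noncomputable def aa (k : ℕ) : Tp := mkT (2 ^ (k + 5))
noncomputable def dec (n k : ℕ) : Tp := ii (n / 2 ^ (2 * k) % 2 ^ 2) * aa k
noncomputable def gen (n i : ℕ) : Tp := [Zp, ii 1, ii 2, dec n 0, dec n 1, dec n 2, dec n 3].getD i 1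
noncomputable def tb (j n : ℕ) : ℕ := Nat.shiftRight (tbs.getD j 0) (8 * n) % 2 ^ 8
def cl (j : ℕ) : ℕ := [0, 2, 3, 18].getD j 0
def UW (j k : ℕ) : List ℕ := ([[[3], [4], [5], [6]], [[3], [4, 6], [3, 5], [6]], [[3], [4, 5], [5], [3, 6]],
  [[4], [3], [6], [5]]].getD j []).getD k []
noncomputable def run : List ℕ → ℕ → ℕ :=
  List.rec (fun n => n) fun j _ ih n => frc (if j < 4 then tb (j % 4) n else n ^^^ tb (j % 4) n) ih
def spanL : List ℕ → List ℕ := List.rec [0] fun x _ ih => ih ++ ih.map (x ^^^ ·)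
def enc (g : ℕ → Tp) : ℕ := (([0, 1, 2, 3].map fun k => ((g k).1 / 2 % 2 + 2 * ((g k).1 / 8 % 2)) * 4 ^ k)).sum

theorem kWA : ∀ j < 4, eqE [11, cl j] [cl j, 11] = true ∧ (∀ k < 4, iv [cl j] (evw (gen 0) (UW j k)) = aa k) ∧
    ∀ n < 256, ∀ k < 4, iv [cl j] (evw (gen n) (UW j k)) = dec (tb j n) k := by decide +kernel

theorem kWB : (∀ n < 256, n = 0 ∨ ∃ p ∈ [[], [3], [0, 3], [1, 3], [2, 3], [0, 1, 3], [0, 2, 3], [1, 2, 3]],
    run (p ++ [4, 5, 6]) n = 4) ∧ (∀ m < 256, enc (dec m) = m ∧ m ∈ spanL ([[], [3], [3, 0], [3, 1], [3, 2], [3, 0, 1], [3, 0, 2],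
      [3, 0, 3]].map (run · 4))) ∧ (∀ d < 4, ∀ e < 4, ii e * ii d = ii (d ^^^ e)) ∧
    (∀ i : Tp, i = 1 ∨ i.1 ∈ [3, 9, 10] → ∃ d < 4, i = ii d) ∧ (∀ k < 4, dec 0 k = aa k ∧ iv [11] (aa k) = aa k) ∧
    (∀ a ∈ LA 11, a = ii 1 ∨ a = ii 2 ∨ ∃ k < 4, a = aa k) ∧ ii 0 = 1 ∧
    ∀ i : Tp, i.1 ∈ [3, 9, 10] → (∃ q ∈ LQ 11, i = Zp * (q * (iv [11] q)⁻¹)) ∧ ∀ d ∈ [1, 2],
      i = ii d ∨ iv [0] i = ii d ∨ iv [18] i = ii d ∨ iv [18] (iv [0] i) = ii d := by decide +kernel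

theorem no11 : ¬ Ty G (W [11]) := fun h => by
  obtain ⟨z, t, ι, κ, m, hm, P⟩ := h.two
  obtain ⟨β, bi, bl⟩ := P.exβ
  obtain ⟨b1, b2, b3, b4, b5, b6, b7, b8⟩ := kWB
  have h11 : 11 ∈ R8 := by decide
  have cB := cardF hm
  have small : ¬ ∀ b, β b ∈ fixL S (LA 11) := fun c => by
    have := (Nat.card_le_card_of_injective (β.codRestrict _ c) fun a b e => bi (congrArg Subtype.val e)).trans
      ((fix_le _ _ _ (kF 11 (by decide)).1).trans (kF 11 (by decide)).2)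
    rw [cB, if_pos rfl] at this
    split_ifs at this <;> omega
  by_cases c : ∀ i, ι i ∈ κ.range → i = 1
  · exact small fun b a ha => mul_inv_eq_one.1 (c _ (P.F1 (bl b) (LAf h11 a ha)))
  simp only [not_forall] at c
  obtain ⟨i, hi, i1⟩ := c
  obtain ⟨⟨q, -, e⟩, c2⟩ := b8 i ((P.I0 h11 hi).resolve_left i1).2
  have tz : ∀ j < 4, ∃ h, L ι h (W [cl j]) ∧ h * t = t * h := fun j hj => by
    obtain ⟨h, a, b | b⟩ := P.lc (WS [cl j]) ((W_cons _ _).symm.trans ((of_eqE (kWA j hj).1).trans (W_cons _ _)))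
    · exact ⟨h, a, mul_inv_eq_iff_eq_mul.1 b⟩
    refine absurd (P.Iw hi (isConj_iff.2 ⟨ι q * h, ?_⟩)) i1
    rw [e, map_mul, P.a.z0, mul_assoc z, ← Wa, ← P.cq, ← mul_assoc z, ← mul_assoc z, ← P.a.zc, mul_assoc _ z, ← b]; group
  have hI : ∀ d < 4, ι (ii d) ∈ κ.range := by
    obtain ⟨h0, a0, c0⟩ := tz 0 (by decide)
    obtain ⟨h3, a3, c3⟩ := tz 3 (by decide)
    have : ∀ d ∈ [1, 2], ι (ii d) ∈ κ.range := fun d hd => by
      rcases c2 d hd with e | e | e | e <;> rw [← e] <;> (try simp only [← Wa])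
      exacts [hi, P.In a0 c0 hi, P.In a3 c3 hi, P.In a3 c3 (P.In a0 c0 hi)]
    intro d hd
    interval_cases d
    · rw [b7, map_one]; exact one_mem _
    · exact this 1 (by decide)
    · exact this 2 (by decide)
    · rw [← show _ = ii 3 from b3 1 (by decide) 2 (by decide), map_mul]
      exact mul_mem (this 2 (by decide)) (this 1 (by decide))
  let R : ℕ → Prop := fun n => n < 2 ^ 8 ∧ ∃ b, ∀ k < 4, β b (aa k) = dec n k
  have r1 : ∀ n m, R n → R m → R (n ^^^ m) := fun n m ⟨a1, b, a2⟩ ⟨a3, b', a4⟩ => ⟨Nat.xor_lt_two_pow a1 a3, b * b', fun k hk => by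
    have o : ∀ n, n % 2 ^ 2 < 4 := fun n => Nat.mod_lt _ (by decide)
    rw [map_mul, MulAut.mul_apply, a4 k hk, dec, map_mul, a2 k hk, P.F0 (bl b) (hI _ (o _)), dec, dec, ← mul_assoc,
      b3 _ (o _) _ (o _), Nat.xor_div_two_pow, Nat.xor_mod_two_pow]⟩
  have r2 : ∀ j < 4, ∀ n, R n → R (tb j n) := fun j hj n ⟨a1, b, a2⟩ => ⟨Nat.mod_lt _ (by decide), by
    obtain ⟨h, l, c⟩ := tz j hj
    obtain ⟨u, e⟩ := P.b.nm h c b
    have l2 := (l.mul (bl b)).mul l.inv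
    rw [← e] at l2
    let b' : Fs (W [m]) := ⟨u, P.b.fix P.l' (P.a.cz l2).symm⟩
    refine ⟨b', fun k hk => ?_⟩
    rw [P.a.eqS (bl b') l2, ← (kWA j hj).2.2 n a1 k hk, ← (kWA j hj).2.1 k hk, ← Wa, ← Wa, MulAut.mul_apply,
      MulAut.inv_apply_self, MulAut.mul_apply]
    refine congrArg _ ((map_evw (β b).toMonoidHom _ _).trans (congrArg (evw · _) (funext fun i => ?_)))
    have g : ∀ k < 4, β b (dec 0 k) = dec n k := fun k hk => (b5 k hk).1 ▸ a2 k hk
    rcases i with _ | _ | _ | _ | _ | _ | _ | i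
    exacts [aut_Z cZp _, P.F0 (bl b) (hI 1 (by decide)), P.F0 (bl b) (hI 2 (by decide)), g 0 (by decide), g 1 (by decide),
      g 2 (by decide), g 3 (by decide), map_one _]⟩
  have r3 : ∀ p n, R n → R (run p n) := fun p => by
    induction p with
    | nil => exact fun _ h => h
    | cons j p ih =>
      intro n h
      have := r2 (j % 4) (Nat.mod_lt _ (by decide)) n h
      change R (frc _ (run p))
      rw [frc_eq]
      refine ih _ ?_
      split_ifs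
      exacts [this, r1 _ _ h this]
  have r4 : ∀ l : List ℕ, (∀ x ∈ l, R x) → ∀ m ∈ spanL l, R m := fun l => by
    induction l with
    | nil => exact fun _ => List.forall_mem_singleton.2 ⟨by decide, 1, fun k hk => by rw [map_one, (b5 k hk).1]; rfl⟩
    | cons x l ih =>
      intro h
      have := ih fun y hy => h y (List.mem_cons_of_mem _ hy)
      exact forall_app this (List.forall_mem_map.2 fun y hy => r1 _ _ (h x List.mem_cons_self) (this y hy))
  simp only [not_forall] at small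
  obtain ⟨b, hb⟩ := small
  have d : ∀ k, ∃ d, k < 4 → d < 4 ∧ β b (aa k) = ii d * aa k := fun k => by
    by_cases hk : k < 4
    · obtain ⟨d, d1, d2⟩ := b4 _ ((P.I0 h11 (P.F1 (bl b) ((Wa _ _).trans (b5 k hk).2))).imp id And.right)
      exact ⟨d, fun _ => ⟨d1, mul_inv_eq_iff_eq_mul.1 d2⟩⟩
    · exact ⟨0, fun c => absurd c hk⟩
  choose d hd using d
  have d0 := (hd 0 (by decide)).1; have d1 := (hd 1 (by decide)).1; have d2 := (hd 2 (by decide)).1
  have d3 := (hd 3 (by decide)).1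
  have r5 : ∀ k < 4, β b (aa k) = dec (d 0 + 4 * d 1 + 16 * d 2 + 64 * d 3) k := fun k hk => by
    rw [(hd k hk).2, dec]
    interval_cases k <;> congr 2 <;> omega
  rcases b1 (d 0 + 4 * d 1 + 16 * d 2 + 64 * d 3) (by omega) with e | ⟨p, -, e⟩
  · refine hb fun a ha => ?_
    rcases b6 a ha with rfl | rfl | ⟨k, hk, rfl⟩
    exacts [P.F0 (bl b) (hI 1 (by decide)), P.F0 (bl b) (hI 2 (by decide)), (r5 k hk).trans (by rw [e, (b5 k hk).1])]
  have r6 : R 4 := e ▸ r3 _ _ ⟨by omega, b, r5⟩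
  have : ∀ m : Fin 256, ∃ b, enc (fun k => β b (aa k)) = m := fun m => by
    obtain ⟨-, b, hb⟩ := r4 _ (List.forall_mem_map.2 fun p _ => r3 p 4 r6) m (b2 m m.2).2
    refine ⟨b, Eq.trans ?_ (b2 m m.2).1⟩
    simp only [enc, List.map, hb 0 (by decide), hb 1 (by decide), hb 2 (by decide), hb 3 (by decide)]
  choose g hg using this
  have := Nat.card_le_card_of_injective g fun a b e => Fin.ext (by rw [← hg, e, hg])
  rw [cB, Nat.card_fin] at this
  split_ifs at this <;> omega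
end CfH6.Co
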