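import Cfsg.Agent.OD.Pre
import Cfsg.Agent.H6.CoK
import Cfsg.Agent.H4.ZStar
/-! The involution is not weakly closed in the extraspecial group. -/
set_option autoImplicit false
set_option maxRecDepth 100000
set_option linter.all false
open CfL MulAction Subgroup CfH9 CfH4
namespace CfH6.Co

abbrev cc (f : Tp → Tp) (u : Tp) : Prop := f u = u ∨ f u = u * Zp
abbrev Ab (f : Tp → Tp) : Prop := ∀ u, cc f u → ∀ v, cc f v → u * v = v * u
abbrev T4 (f : Tp → Tp) : Prop := (∀ u, (∀ a, f a = a → u * a = a * u) → f (u⁻¹ * f u) = u⁻¹ * f u) ∧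
  ∀ u, cc f u → u * u = 1 → f u = u

theorem inv3 {f r : S} (h : IsConj f r) : Nat.card (Fs f) = Nat.card (Fs r) ∧ (Ab r → Ab f) ∧ (T4 r → T4 f) := by
  obtain ⟨c, rfl⟩ := isConj_iff.1 h
  have e : ∀ u, (c * f * c⁻¹) (c u) = c (f u) := fun u => by simp
  have k : ∀ u, cc f u → cc (c * f * c⁻¹ : S) (c u) := fun u a => a.imp (fun a => by rw [e, a]) fun a => by
    rw [e, a, map_mul, aut_Z cZp]
  refine ⟨Nat.card_congr (c.toEquiv.subtypeEquiv fun u => ?_), fun a u hu v hv => c.injective (by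
    rw [map_mul, map_mul, a _ (k u hu) _ (k v hv)]), fun a => ⟨fun u hu => c.injective ?_, fun u hu h2 => c.injective (by
      rw [← e, a.2 _ (k u hu) (by rw [← map_mul, h2, map_one])])⟩⟩
  · change f u = u ↔ (c * f * c⁻¹) (c u) = c u
    rw [e, c.injective.eq_iff]
  · rw [← e, map_mul c, map_inv, ← e]
    refine a.1 _ fun b hb => ?_
    obtain ⟨b, rfl⟩ := c.surjective b
    rw [← map_mul, ← map_mul, hu b (c.injective ((e b).symm.trans hb))]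

theorem Wf (w : List ℕ) : ⇑(W w) = iv w := funext (Wa w)
noncomputable def y1 (x : ℕ) : Tp := mkT ((LF x).headD (0, 0)).1
abbrev sg (m : ℕ) (b : Tp) : Prop := iv [m] b = b ∧ b ≠ 1 ∧ ∃ q ∈ LQ m, b = q * (iv [m] q)⁻¹

theorem kWT : (∀ x ∈ [19, 20, 21, 22], TE.cnt (fun u => ∀ a ∈ LA x, a * u = u * a) = 16 ∧ TE.cnt (pat (LA x) (y1 x)) < 16 ∧
    iv [x] (y1 x) ≠ y1 x) ∧ (∀ b, iv [25] b = b → b ≠ 1 → sg 25 b) ∧ (∀ x ∈ [23, 24, 25], Ab (iv [x])) ∧ T4 (iv [25]) ∧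
    (∀ x ∈ [23, 24], TE.cnt (pat (LA x) (gn 1)) ≤ 16 ∧ pat (LA x) (gn 1) (gn 1 * Zp) ∧ ∃ a ∈ LA x, gn 1 * a ≠ a * gn 1) ∧
    TE.cnt (fun u => iv [25] ((gn 6)⁻¹ * u) = (gn 6)⁻¹ * u) ≤ 16 ∧ (∀ a, iv [25] a = a → gn 6 * a = a * gn 6) ∧
    iv [25] (gn 6) ≠ gn 6 ∧ gn 6 * gn 6 = 1 := by decide +kernel

theorem inj16 {B : Type*} [Group B] [Finite B] (β : B →* S) {A : Set Tp} {y : Tp} (h : ∀ b, β b y ∈ A)
    (hc : A.ncard < Nat.card B) : ∃ b ≠ 1, β b y = y := by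
  by_contra! c
  refine hc.not_ge ((Nat.card_le_card_of_injective (fun b => (⟨_, h b⟩ : A)) fun a b e => ?_).trans (Nat.card_coe_set_eq A).le)
  by_contra n
  refine c (b⁻¹ * a) (fun e => n (inv_mul_eq_one.1 e).symm) ?_
  rw [map_mul, MulAut.mul_apply, show β a y = β b y from congrArg Subtype.val e, map_inv, MulAut.inv_apply_self]

theorem injZ {B : Type*} [Group B] [Finite B] (β : B →* S) {A : Set Tp} {y : Tp} (h : ∀ b, β b y ∈ A) (hz : y * Zp ∈ A)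
    (hc : A.ncard ≤ Nat.card B) : ∃ b ≠ 1, cc (β b) y := by
  by_cases c : ∃ b, β b y = y * Zp
  · obtain ⟨b, e⟩ := c
    exact ⟨b, fun a => esT.ne (by simpa [a] using e), Or.inr e⟩
  · obtain ⟨b, a, e⟩ := inj16 β (A := A \ {y * Zp}) (fun b => ⟨h b, fun e => c ⟨b, e⟩⟩)
      ((Set.ncard_diff_singleton_lt_of_mem hz).trans_le hc)
    exact ⟨b, a, Or.inl e⟩

variable {G : Type*} [Group G] [Finite G] {z t : G} {ι κ : Tp →* G} {s s' : S} {x m : ℕ}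

theorem Pr.fA (hx : x ∈ R8) (P : Pr z t ι κ (W [x]) s') {b : Tp} {f : S} (l : L ι (κ b) f) {a : Tp} (ha : W [x] a = a) :
    f a = a := mul_inv_eq_one.1 ((P.I0 hx (P.F1 l ha)).resolve_right fun c => no11 ⟨_, _, _, _, _, c.1 ▸ P⟩)

theorem Pr.sg (P : Pr z t ι κ s (W [m])) {b : Tp} {f : S} (l : L ι (κ b) f) (h : sg m b) : Ty G f :=
  let ⟨_, n, q, _, e⟩ := h
  P.sig l (by rw [Wa]; exact e) n

theorem Pr.s25 (P : Pr z t ι κ s (W [25])) {b : Fs (W [25])} {f : S} (l : L ι (κ b) f) (h : b ≠ 1) : Ty G f :=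
  P.sg l (kWT.2.1 b ((Wa _ _).symm.trans b.2) fun e => h (Subtype.ext e))

theorem noX (hx : x ∈ [19, 20, 21, 22]) : ¬ Ty G (W [x]) := fun h => by
  obtain ⟨z, t, ι, κ, m, hm, P⟩ := h.two
  obtain ⟨β, bi, bl⟩ := P.exβ
  obtain ⟨h8, h5, h6⟩ : x ∈ R8 ∧ x ∈ [11, 19, 20, 21, 22] ∧ x ≠ 11 ∧ x < 23 :=
    (show ∀ x ∈ [19, 20, 21, 22], x ∈ R8 ∧ x ∈ [11, 19, 20, 21, 22] ∧ x ≠ 11 ∧ x < 23 by decide) x hx
  have f1 : ∀ b, β b ∈ fixL S (LA x) := fun b a ha => P.fA h8 (bl b) (LAf h8 a ha)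
  obtain ⟨k1, k2, k3⟩ := kWT.1 x hx
  let C := centralizer {a | a ∈ LA x}
  let θ := MulAut.conj.comp C.subtype
  have c1 := rng_ge θ (a := ⟨Zp, fun a _ => (Zc a).symm⟩) fun k hk => (cj_one hk).imp Subtype.ext Subtype.ext
  rw [show Nat.card C = 16 from (Nat.card_coe_set_eq _).trans ((TE.cnt_eq fun u => ∀ a ∈ LA x, a * u = u * a).trans k1)] at c1
  have l1 : θ.range ≤ fixL S (LA x) := by
    rintro _ ⟨u, rfl⟩ a ha
    exact mul_inv_eq_iff_eq_mul.2 (u.2 a ha).symm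
  have c2 := card_mul_relIndex (inf_le_right : θ.range ⊓ β.range ≤ _)
  rw [inf_relIndex_right, show θ.range ⊓ β.range = ⊥ from eq_bot_iff.2 (by
    rintro _ ⟨⟨u, e⟩, b, rfl⟩
    obtain ⟨v, e'⟩ := P.a.nin (u := u) (e ▸ bl b)
    rcases P.I0 h8 ⟨b, e'.symm⟩ with a | a
    · rw [show b = 1 from Subtype.ext (P.b.inj (by rw [← e', a, map_one]; exact (map_one κ).symm)), map_one]; exact one_mem _
    · exact absurd a.1 h6.1), card_bot, one_mul, ← Nat.card_congr (MonoidHom.ofInjective bi).toEquiv, cardF hm] at c2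
  have c3 := card_mul_relIndex l1
  have c4 := relIndex_le_of_le_right (H := θ.range) (show β.range ≤ fixL S (LA x) by rintro _ ⟨b, rfl⟩; exact f1 b)
    index_ne_zero_of_finite
  have c5 := (fix_le _ _ _ (kF x h5).1).trans (kF x h5).2
  rw [if_neg h6.1] at c5
  obtain rfl : m = 25 := by
    have : θ.range.relIndex β.range ≤ 24 := by nlinarith
    exact (show ∀ m ∈ R8, (if m = 11 then 128 else if m < 23 then 64 else if m < 25 then 32 else 16) ≤ 24 → m = 25 by decide)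
      m hm (c2 ▸ this)
  obtain ⟨b, b1, b2⟩ := inj16 β (fun b => pat_of (f1 b) (y1 x)) (by rw [cardF hm]; exact (TE.cnt_eq _).trans_lt k2)
  obtain ⟨n, n1, n2, n3⟩ := (P.s25 (bl b) b1).cls
  have : Fs (W [x]) = Fs (β b) := eq_of_le_of_card_ge (fun _ => P.fA h8 (bl b)) (by
    rw [(inv3 n2).1, cardF n1, cardF h8, if_neg fun e => no11 (e ▸ n3), if_neg h6.1, if_pos h6.2]
    split_ifs <;> omega)
  exact k3 ((Wa _ _).symm.trans (this.ge b2))

theorem Ty.cl3 (h : Ty G s) : ∃ m ∈ [23, 24, 25], IsConj s (W [m]) ∧ Ty G (W [m]) := by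
  obtain ⟨m, a, b, c⟩ := h.cls
  refine ⟨m, ((show ∀ m ∈ R8, m = 11 ∨ m ∈ [19, 20, 21, 22] ∨ m ∈ [23, 24, 25] by decide) m a).elim
    (fun e => (no11 (e ▸ c)).elim) fun e => e.resolve_left fun e => noX e c, b, c⟩

theorem Ty.ab (h : Ty G s) : Ab s :=
  let ⟨m, a, b, _⟩ := h.cl3
  (inv3 b).2.1 (Wf _ ▸ kWT.2.2.1 m a)

noncomputable def bit (a b : Tp) : ZMod 2 := if a * b = b * a then 0 else 1
theorem bit_comm (a b : Tp) : bit a b = bit b a := by simp only [bit, eq_comm]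
theorem bit0 {a b : Tp} : bit a b = 0 ↔ a * b = b * a := by unfold bit; split_ifs <;> simp [*]
theorem bit_mul (a b c : Tp) : bit a (b * c) = bit a b + bit a c := by
  have := esT.csgn_mul_right a b c
  unfold csgn at this; unfold bit
  split_ifs at this ⊢ <;> first | rfl | omega
theorem bit_map (f : S) (a b : Tp) : bit (f a) (f b) = bit a b := by simp only [bit, ← map_mul, f.injective.eq_iff]

noncomputable def yy (x : ℕ) (k : Fin 4) : Tp := mkT ([4, 16, 64, if x = 23 then 256 else 128].getD k 0)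
def pf (M : Fin 4 → Fin 4 → ZMod 2) : ZMod 2 := M 0 1 * M 2 3 + M 0 2 * M 1 3 + M 0 3 * M 1 2
def SL : List (List (Fin 4)) := ([0, 1, 2, 3] : List (Fin 4)).sublists.tail

theorem pf1 (M : Fin 4 → Fin 4 → ZMod 2) (h1 : ∀ k l, M k l = M l k) (h2 : ∀ k, M k k = 0)
    (h3 : ∀ l ∈ SL, ¬ ∀ k, (l.map (M k)).sum = 0) : pf M = 1 := by
  have : ∀ a b c d e f : ZMod 2, (∀ l ∈ SL, ¬ ∀ k, (l.map (![![0, a, b, c], ![a, 0, d, e], ![b, d, 0, f], ![c, e, f, 0]] k)).sum = 0) →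
    a * f + b * e + c * d = 1 := by decide +kernel
  refine this _ _ _ _ _ _ ?_
  rw [show ![![0, M 0 1, M 0 2, M 0 3], ![M 0 1, 0, M 1 2, M 1 3], ![M 0 2, M 1 2, 0, M 2 3], ![M 0 3, M 1 3, M 2 3, 0]] = M from ?_]
  · exact h3
  ext k l
  fin_cases k <;> fin_cases l <;> first | rfl | exact (h2 _).symm | exact h1 _ _

abbrev T7 (m : ℕ) (u v w : Tp) : Prop :=
  sg m u ∧ sg m v ∧ sg m w ∧ sg m (u * v) ∧ sg m (u * w) ∧ sg m (v * w * Zp) ∧ sg m (u * (v * w * Zp))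

set_option synthInstance.maxSize 2000 in
set_option synthInstance.maxHeartbeats 200000 in
theorem kP : ∀ x ∈ [23, 24], (∀ η, (∀ a ∈ LA x, a * η = η * a) → iv [x] η = η ∧
    (∀ k, yy x k * η * (yy x k * η) = 1 → yy x k * η = η * yy x k) ∧ ((∀ k, yy x k * η = η * yy x k) → η = 1 ∨ η = Zp) ∧
      ∀ η', (∀ a ∈ LA x, a * η' = η' * a) → η * η' = η' * η) ∧ (∀ k, yy x k * yy x k = 1 ∧ ∀ l, yy x k * yy x l = yy x l * yy x k) ∧
    (∀ l ∈ SL, (∀ k, yy x k * (l.map (yy x)).prod = (l.map (yy x)).prod * yy x k) ∧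
      ∃ a ∈ LA x, (l.map (yy x)).prod * a ≠ a * (l.map (yy x)).prod) ∧
    T7 x (mkT 2) (mkT (if x = 23 then 128 else 256)) (mkT 32) ∧ T7 x (mkT 32) (mkT 2) (mkT 8) ∧
    T7 x (mkT 2 * mkT 32) (mkT 2) (mkT (if x = 23 then 136 else 264)) := by decide +kernel

theorem noP (hx : x ∈ [23, 24]) (hm : m ∈ [23, 24]) (P : Pr z t ι κ (W [x]) (W [m])) : False := by
  obtain ⟨β, bi, bl⟩ := P.exβ
  have h8 : x ∈ R8 := (show ∀ x ∈ [23, 24], x ∈ R8 by decide) x hx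
  obtain ⟨k1, k2, k3, -⟩ := kP x hx
  have e0 : ∀ (f : S) u, f u = u * (u⁻¹ * f u) := fun f u => by group
  have e1 : ∀ b u, ∀ a ∈ LA x, a * (u⁻¹ * β b u) = u⁻¹ * β b u * a := fun b u a ha => bit0.1 (by
    have := bit_map (β b) a u
    rw [P.fA h8 (bl b) (LAf h8 a ha), e0 (β b) u, bit_mul] at this
    exact add_eq_left.1 this)
  have e2 : ∀ b k l, bit (yy x k) (β b (yy x l)) = bit (yy x k) ((yy x l)⁻¹ * β b (yy x l)) := fun b k l => by
    rw [e0 (β b), bit_mul, bit0.2 ((k2 k).2 l), zero_add, ← e0]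
  classical
  let μ : Tp → Fin 4 → Fin 4 → ZMod 2 := fun b k l => if h : W [m] b = b then bit (yy x k) (β ⟨b, h⟩ (yy x l)) else 0
  have m1 : ∀ a b, iv [m] a = a → iv [m] b = b → μ (a * b) = μ a + μ b := fun a b ha hb => by
    rw [← Wa] at ha hb
    ext k l
    simp only [μ, Pi.add_apply, dif_pos ha, dif_pos hb, dif_pos (show W [m] (a * b) = a * b by rw [map_mul, ha, hb])]
    refine (congrArg (fun f : S => bit _ (f _)) (β.map_mul ⟨a, ha⟩ ⟨b, hb⟩)).trans ?_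
    rw [e2 ⟨b, hb⟩, ← bit_mul, ← P.fA h8 (bl ⟨a, ha⟩) ((Wa _ _).trans (k1 _ (e1 ⟨b, hb⟩ _)).1), ← map_mul (β ⟨a, ha⟩), ← e0]
    rfl
  have m2 : ∀ b, sg m b → pf (μ b) = 1 := fun b hb => by
    have h := (Wa _ _).trans hb.1
    have ab := (P.sg (bl ⟨b, h⟩) hb).ab
    simp only [μ, dif_pos h]
    generalize (⟨b, h⟩ : Fs (W [m])) = b at ab ⊢
    refine pf1 _ (fun k l => ?_) (fun k => ?_) fun l hl c => ?_
    · have := bit_map (β b) (yy x k) (yy x l)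
      have n := (k1 _ (e1 b (yy x l))).2.2.2 _ (e1 b (yy x k))
      rw [e0 _ (yy x k), e0 _ (yy x l)] at this
      rw [e2, e2]
      generalize (yy x k)⁻¹ * β b (yy x k) = u, (yy x l)⁻¹ * β b (yy x l) = v at n this ⊢
      rw [bit_mul, bit_comm _ (yy x l), bit_comm _ v, bit_mul, bit_mul, bit0.2 ((k2 l).2 k), bit0.2 n, bit0.2 ((k2 k).2 l),
        zero_add, add_zero, bit_comm v] at this
      exact (CharTwo.add_eq_zero.1 this).symm
    · rw [e2]; exact bit0.2 ((k1 _ (e1 b _)).2.1 k (by rw [← e0, ← map_mul, (k2 k).1, map_one]))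
    · obtain ⟨c1, a, c2, c3⟩ := k3 l hl
      refine c3 (ab _ (((k1 _ (e1 b _)).2.2.1 fun k => bit0.1 ?_).imp (fun e => (inv_mul_eq_one.1 e).symm)
        inv_mul_eq_iff_eq_mul.1) a (Or.inl (P.fA h8 (bl b) (LAf h8 a c2))))
      have : ∀ l : List (Fin 4), bit (yy x k) (β b (l.map (yy x)).prod) = (l.map fun j => bit (yy x k) (β b (yy x j))).sum := fun l => by
        induction l with
        | nil => exact bit0.2 (by simp)
        | cons j l ih => rw [List.map_cons, List.prod_cons, map_mul, bit_mul, ih]; rfl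
      have := (this l).trans (c k)
      rwa [e0 (β b), bit_mul, bit0.2 (c1 k), zero_add] at this
  have z0 : iv [m] Zp = Zp := (Wa _ _).symm.trans (aut_Z cZp _)
  have m3 : ∀ u v w, T7 m u v w → pf (μ u + μ Zp) - pf (μ u) - pf (μ Zp) = 1 := fun u v w ⟨a1, a2, a3, a4, a5, a6, a7⟩ => by
    have vw : iv [m] (v * w) = v * w := by rw [← Wa, map_mul, Wa, Wa, a2.1, a3.1]
    have h1 := m2 _ a1; have h2 := m2 _ a2; have h3 := m2 _ a3; have h4 := m2 _ a4; have h5 := m2 _ a5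
    have h6 := m2 _ a6; have h7 := m2 _ a7
    rw [m1 _ _ a1.1 a6.1] at h7
    rw [m1 _ _ vw z0, m1 _ _ a2.1 a3.1] at h6 h7
    rw [m1 _ _ a1.1 a2.1] at h4
    rw [m1 _ _ a1.1 a3.1] at h5
    simp only [pf, Pi.add_apply] at *
    linear_combination h7 - h6 - h1 - (h4 - h1 - h2) - (h5 - h1 - h3)
  obtain ⟨-, -, -, t1, t2, t3⟩ := kP m hm
  have h1 := m3 _ _ _ t1; have h2 := m3 _ _ _ t2; have h3 := m3 _ _ _ t3
  rw [m1 _ _ t1.1.1 t2.1.1] at h3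
  simp only [pf, Pi.add_apply] at h1 h2 h3
  exact zero_ne_one (α := ZMod 2) (by linear_combination h1 + h2 - h3)

theorem noA (hx : x ∈ [23, 24]) : ¬ Ty G (W [x]) := fun h => by
  obtain ⟨z, t, ι, κ, s', P⟩ := h
  obtain ⟨m, hm, c, -⟩ := Ty.cl3 ⟨_, _, _, _, _, P.symm⟩
  obtain ⟨κ, P⟩ := P.symm.conj c
  have P := P.symm
  refine ((show ∀ m ∈ [23, 24, 25], m ∈ [23, 24] ∨ m = 25 by decide) m hm).elim (fun a => noP hx a P) ?_
  rintro rfl
  obtain ⟨β, bi, bl⟩ := P.exβ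
  have h8 : x ∈ R8 := (show ∀ x ∈ [23, 24], x ∈ R8 by decide) x hx
  obtain ⟨k1, k2, a, k3, k4⟩ := kWT.2.2.2.2.1 x hx
  obtain ⟨b, b1, b2⟩ := injZ β (fun b => pat_of (bs := LA x) (fun a ha => P.fA h8 (bl b) (LAf h8 a ha)) (gn 1)) k2
    (by rw [cardF (by decide)]; exact (TE.cnt_eq _).trans_le k1)
  exact k4 ((P.s25 (bl b) b1).ab _ b2 a (Or.inl (P.fA h8 (bl b) (LAf h8 a k3))))

theorem noTy : ¬ Ty G s := fun h => by
  have c : ∀ s, Ty G s → IsConj s (W [25]) := fun s h => by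
    obtain ⟨m, hm, c, d⟩ := h.cl3
    rwa [((show ∀ m ∈ [23, 24, 25], m ∈ [23, 24] ∨ m = 25 by decide) m hm).resolve_left fun a => noA a d] at c
  obtain ⟨z, t, ι, κ, s', P⟩ := h
  obtain ⟨ι, P⟩ := P.conj (c _ ⟨_, _, _, _, _, P⟩)
  obtain ⟨κ, P⟩ := P.symm.conj (c _ ⟨_, _, _, _, _, P.symm⟩)
  have P := P.symm
  obtain ⟨β, bi, bl⟩ := P.exβ
  obtain ⟨-, -, -, k0, -, k1, k2, k3, k4⟩ := kWT
  have h8 : 25 ∈ R8 := by decide
  have a : ∀ b ≠ 1, Fs (W [25]) = Fs (β b) ∧ T4 (β b) := fun b hb =>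
    have := inv3 (c _ (P.s25 (bl b) hb))
    ⟨eq_of_le_of_card_ge (fun _ => P.fA h8 (bl b)) this.1.le, this.2.2 (Wf _ ▸ k0)⟩
  obtain ⟨b, b1, b2⟩ := injZ β (A := {u | iv [25] ((gn 6)⁻¹ * u) = (gn 6)⁻¹ * u}) (y := gn 6) (fun b => by
    rw [Set.mem_setOf_eq, ← Wa]
    by_cases e : b = 1
    · simp [e]
    · exact (a b e).1.ge ((a b e).2.1 _ fun u hu => k2 u ((Wa _ _).symm.trans ((a b e).1.ge hu))))
    (by simp [← Wa, aut_Z cZp]) (by rw [cardF h8]; exact (TE.cnt_eq _).trans_le k1)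
  exact k3 ((Wa _ _).symm.trans ((a b b1).1.ge ((a b b1).2.2 _ b2 k4)))

theorem S1.st (h : S1 z ι) (hO : Cfsg.oddCore G = ⊥) (hZ : center G = ⊥) : St z ι := by
  refine ⟨h.inj, h.z0, h.nm, h.ct, h.card, ?_⟩
  by_contra! c
  have w : Wk z ι := ⟨h, fun u hu => by_contra fun e => c u e hu⟩
  refine h.z1 (hZ.le (mem_center_iff.2 fun g => mul_inv_eq_iff_eq_mul.1 (mul_inv_eq_one.1 (hO.le
    (zstar G z (orderOf_eq_prime ((pow_two z).trans h.z2) h.z1) (fun g hg => ?_) g)))))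
  by_contra n
  obtain ⟨s, -, l⟩ := h.lift.2.2 _ hg.symm.eq
  exact noTy (w.mk' (isConj_iff.2 ⟨g, rfl⟩) n l)
end CfH6.Co
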