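import Cfsg.Agent.OD.Pre
import Cfsg.Agent.H2.Orders
import Cfsg.Agent.H2.Orth3
/-! The order of `Ω₈⁺(2)`. -/
set_option autoImplicit false
set_option maxRecDepth 100000
set_option linter.all false
open Subgroup
namespace CfH6.Co

abbrev I8 := Fin 4 ⊕ Fin 4
abbrev Q8 : (I8 → ZMod 2) → ZMod 2 := Cfsg.quadFormPlus 4 (ZMod 2)

def Nx (S : Finset I8) (i : I8) (u : I8 → ZMod 2) : Prop :=
  (¬ ∀ i ∉ S, u i = 0) ∧ Q8 u = Q8 (Pi.single i 1) ∧ ∀ j ∈ S, u j.swap = (Pi.single i 1 : I8 → ZMod 2) j.swap

instance (S : Finset I8) (i : I8) : DecidablePred (Nx S i) := fun _ => by unfold Nx; infer_instance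

theorem card_O : Nat.card (Cfsg.isometryGroup (ZMod 2) Q8) = 348364800 := by
  have h := CfH2.qwf_of_nondeg (CfH2.nondeg_qPlus (F := ZMod 2) 4)
  let X : Finset I8 → Submodule (ZMod 2) (I8 → ZMod 2) := fun S => .pi {i | i ∉ S} fun _ => ⊥
  have hX : ∀ S x, x ∈ X S ↔ ∀ i ∉ S, x i = 0 := fun S x => Iff.rfl
  have key : ∀ (S : Finset I8) i, i ∉ S → ∀ c, (Finset.univ.filter (Nx S i)).card = c →
      Nat.card (CfH2.Orth (CfH2.qPlus 4 (ZMod 2)) ⊓ CfH2.fixS (X S) : Subgroup _) =
      c * Nat.card (CfH2.Orth (CfH2.qPlus 4 (ZMod 2)) ⊓ CfH2.fixS (X (insert i S)) : Subgroup _) := by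
    intro S i hi c hc
    rw [h.card_fix_step (X := X S) (u := Pi.single i 1) fun h => by simpa using h i hi]
    congr 1
    · rw [← hc, ← Set.ncard_coe_finset]
      congr 1
      ext u
      simp only [Set.mem_ofPred_eq, Finset.coe_filter, Finset.mem_univ, true_and, hX, Nx,
        QuadraticMap.polarBilin_apply_apply, CfH2.qPlus_apply, CfH2.polar_qPlus]
      refine and_congr_right fun _ => and_congr_right fun _ => ⟨fun a j hj => ?_, fun a x hx => ?_⟩
      · have := a (Pi.single j 1) fun k hk => Pi.single_eq_of_ne (fun e : k = j => hk (e ▸ hj)) _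
        generalize (Pi.single i 1 : I8 → ZMod 2) = v at this ⊢
        rcases j with j | j <;> simpa [Pi.single_apply] using this
      · refine Finset.sum_congr rfl fun k _ => ?_
        congr 1
        · by_cases e : Sum.inl k ∈ S
          · exact congrArg _ (a _ e)
          · rw [hx _ e, zero_mul, zero_mul]
        · by_cases e : Sum.inr k ∈ S
          · exact congrArg _ (a _ e)
          · rw [hx _ e, zero_mul, zero_mul]
    · have : X S ⊔ (ZMod 2 ∙ Pi.single i 1) = X (insert i S) := by
        refine le_antisymm (sup_le (fun x hx j hj => hx j fun h => hj (Finset.mem_insert_of_mem h))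
          ((Submodule.span_singleton_le_iff_mem _ _).2 fun j hj => ?_)) fun x hx => ?_
        · exact Pi.single_eq_of_ne (fun h => hj (by rw [h]; exact Finset.mem_insert_self _ _)) _
        · rw [← sub_add_cancel x (x i • Pi.single i 1)]
          refine Submodule.add_mem_sup ((hX _ _).2 fun j hj => ?_)
            (Submodule.smul_mem _ _ (Submodule.mem_span_singleton_self _))
          by_cases hij : j = i
          · simp [hij]
          · simp [hij, (hX _ _).1 hx j (by simp [hij, hj])]
      rw [this]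
  have h0 : X ∅ = ⊥ := eq_bot_iff.2 fun x hx => funext fun i => hx i (by simp)
  have htop : ∀ S, (∀ i, i ∈ S) → X S = ⊤ := fun S h => eq_top_iff.2 fun x _ i hi => absurd (h i) hi
  have h1 := key ∅ (.inl 0) (by decide) 135 (by decide +kernel)
  rw [h0, key _ (.inr 0) (by decide) 64 (by decide +kernel), key _ (.inl 1) (by decide) 35 (by decide +kernel),
    key _ (.inr 1) (by decide) 16 (by decide +kernel), key _ (.inl 2) (by decide) 9 (by decide +kernel),
    key _ (.inr 2) (by decide) 4 (by decide +kernel), key _ (.inl 3) (by decide) 2 (by decide +kernel),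
    key _ (.inr 3) (by decide) 1 (by decide +kernel), CfH2.fixS_bot, inf_top_eq, htop _ (by decide), CfH2.fixS_top,
    inf_bot_eq, card_bot, ← (CfH2.rep_O _).card_eq, CfH2.coe_qPlus] at h1
  exact h1

theorem cardΩ : Nat.card (Cfsg.Omega (ZMod 2) Q8) = 174182400 := by
  have h2 := (CfH2.rep_O (CfH2.qPlus 4 (ZMod 2))).index_commutator_even (CfH2.qwf_of_nondeg (CfH2.nondeg_qPlus 4))
    CharTwo.two_eq_zero (by simp) (Or.inr (by simp))
  rw [CfH2.coe_qPlus] at h2
  have h3 := (Cfsg.Omega (ZMod 2) Q8).card_mul_index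
  rw [card_O, show (Cfsg.Omega (ZMod 2) Q8).index = 2 from h2] at h3
  omega
end CfH6.Co
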