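import Cfsg.Agent.OD.Pre
import Cfsg.Agent.H6.CoM
import Cfsg.Agent.H6.CoE
import Cfsg.Agent.H6.SoB
/-! Generators of the first Conway group around an involution centraliser. -/
set_option autoImplicit false
set_option maxRecDepth 100000
set_option Elab.async false
set_option linter.all false
open CfL MulAction Subgroup CfH9 Cfsg Cfsg.Spor CfH4.Gol
namespace CfH6.Co
open Lee

noncomputable def chkD (ds : List (ℕ × List ℕ)) : List ℕ → Bool :=
  List.rec (fun _ => true) (fun d _ ih B => d.2.all B.contains && allLt 87 d.2 &&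
    chkM PM.mm PM.one ms d.2 (lget ms 0 d.1) && ih (d.1 :: B)) ds

theorem hm : ∀ a < 87, PM.okb (lget ms 0 a) = true := lget_all (by decide +kernel)

theorem slp (K : Submonoid (Matrix GolayPt GolayPt (ZMod 17))) (ds : List (ℕ × List ℕ)) :
    ∀ B, (∀ x ∈ B, sem (lget ms 0 x) ∈ K) → chkD ds B = true → ∀ x ∈ ds.map Prod.fst, sem (lget ms 0 x) ∈ K := by
  induction ds with
  | nil => exact fun _ _ _ => forall_nil
  | cons d ds ih =>
    intro B hB h
    have h : (d.2.all B.contains && allLt 87 d.2 && chkM PM.mm PM.one ms d.2 (lget ms 0 d.1) &&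
      chkD ds (d.1 :: B)) = true := h
    simp only [Bool.and_eq_true] at h
    have k : sem (lget ms 0 d.1) ∈ K := by
      rw [← D.chk hm (allLt_sound h.1.1.2) h.1.2]
      exact K.list_prod_mem (List.forall_mem_map.2 fun x hx => hB x
        (List.contains_iff_mem.1 (List.all_eq_true.1 h.1.1.1 x hx)))
    exact forall_cons k (ih _ (forall_cons k hB) h.2)

theorem kA : chkD dA (List.range 9) = true := by decide +kernel
theorem kB : chkD dB [9, 10, 11, 12, 13, 14, 15, 16, 17] = true := by decide +kernel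
theorem ms9 : ∀ x < 9, lget ms 0 x = lget msCo1 0 x := by decide +kernel

theorem hs (x : ℕ) (hx : x < 35) : ∃ g, Φ g = sem (lget ms 0 x) := by
  have k : ∀ x ∈ List.range 9, sem (lget ms 0 x) ∈ MonoidHom.mrange Φ := fun x hx => by
    obtain ⟨g, -, e⟩ := isoCo1'.choose_spec x (List.mem_range.1 hx)
    exact ⟨g, by rw [ms9 x (List.mem_range.1 hx), e]⟩
  rcases (by decide : ∀ x < 35, x ∈ List.range 9 ∨ x ∈ dA.map Prod.fst) x hx with h | h
  · exact k x h
  · exact slp _ dA _ k kA x h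

noncomputable def e0 : ℕ → Co0 := liftS Φ sem ms
noncomputable def e1 (x : ℕ) : Co1 := QuotientGroup.mk' (center Co0) (e0 x)

theorem rel1 (rels : List (List ℕ)) (h : (rels.all fun w => allLt 35 w && Nat.beq (force (CfH6.mW PM.mm ms w PM.one) fun r =>
    cond ([PM.one, mn1].any fun Y => Nat.beq r (Nat.succ Y)) 0 1) 0) = true := by decide +kernel) :
    ∀ r ∈ rels, evw e1 r = 1 :=
  D.proj (fun a ha => hm a (by omega)) hs _ _ (forall_cons (fun g h => Φ_inj (h.trans (D.sem1.trans Φ.map_one.symm)) ▸ one_mem _)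
    (forall_cons (fun g h => Φ_inj (h.trans neg_mat.symm) ▸ neg_center) forall_nil)) rels h

theorem rel2 (σ rels : List (List ℕ)) (h : ∀ r ∈ rels.map (subst σ), evw e1 r = 1) : ∀ r ∈ rels, evw (byW e1 σ) r = 1 :=
  fun r hr => evw_subst e1 σ r ▸ h _ (List.mem_map_of_mem hr)

theorem exχ : ∃ χ : SoB.G →* Co1, Function.Surjective χ ∧ χ (SoB.el 0) = e1 9 := by
  obtain ⟨χ, h⟩ := SoB.hhom (byW e1 [[9], [10], [11], [12], [13], [14], [15], [16], [17]])
    (inv_of_rels (rel2 _ _ (rel1 _))) (rel2 _ _ (rel1 _))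
  refine ⟨χ, MonoidHom.range_eq_top.1 (eq_top_iff.2 ?_), (h 0 (by decide)).trans (mul_one _)⟩
  obtain ⟨φ, hφ⟩ := isoCo1'
  rw [← map_top_of_surjective φ.toMonoidHom φ.surjective, ← C1B.htop, map_le_iff_le_comap]
  refine gensub_le fun x hx => ?_
  obtain ⟨g, e, e'⟩ := hφ x hx
  obtain ⟨g', h1, h2⟩ := slp ((χ.range.comap (QuotientGroup.mk' (center Co0))).toSubmonoid.map Φ) dB _ (fun y hy => by
    refine ⟨e0 y, ⟨SoB.el (y - 9), ?_⟩, liftS_spec (hs y (by revert y; decide))⟩
    rw [h _ (by revert y; decide)]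
    simp only [List.mem_cons, List.not_mem_nil, or_false] at hy
    rcases hy with rfl | rfl | rfl | rfl | rfl | rfl | rfl | rfl | rfl <;> exact mul_one _) kB x ((by decide : ∀ x < 9, x ∈ dB.map Prod.fst) x hx)
  rw [ms9 x hx, ← e'] at h2
  have h3 : φ (C1B.el x) ∈ χ.range := by rw [e, ← Φ_inj h2]; exact h1
  exact h3

def σT : List (List ℕ) := [[18], [19], [20], [21], [22], [23], [24], [25], [26]]

theorem cardC (h : e1 9 ≠ 1) : 2 * 44590694400 ≤ Nat.card Cx(e1 9) := by
  have := card_Co1.1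
  obtain ⟨ι, i1, i2⟩ := TE.exists_hom tpg (byW e1 σT) (inv_of_rels (rel2 _ _ (rel1 _))) (rel2 _ _ (rel1 _))
  have z : ι Zp = e1 9 := by
    have a := rel1 [[18, 9], [9, 9]]
    simp only [List.forall_mem_cons, evw_cons, evw_nil, mul_one] at a
    rw [i2 0 Zp (by decide) (by decide +kernel)]
    exact (mul_one _).trans (mul_right_cancel (a.1.trans a.2.1.symm))
  have inj := inj_es hZp ι (z ▸ h)
  let H : Subgroup Co1 := ⟨⟨⟨{g | ∃ s, L ι g s}, fun ⟨_, a⟩ ⟨_, b⟩ => ⟨_, a.mul b⟩⟩, _, L.one⟩, fun ⟨_, a⟩ => ⟨_, a.inv⟩⟩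
  obtain ⟨θ, e⟩ := exists_theta inj H fun k ⟨s, a⟩ t => ⟨_, (a t).symm⟩
  have k : ∀ x < 8, L ι (e1 (27 + x))⁻¹ (eS x)⁻¹ := fun x hx t => by
    refine TE.top_of (((MulAut.conj (e1 (27 + x))⁻¹).toMonoidHom.comp ι).eqLocus (ι.comp (eS x)⁻¹.toMonoidHom))
      (fun y hy a ha => ?_) t
    have r := rel1 ((List.range 8).flatMap fun x => wpow [27 + x] 3 :: (List.range 9).flatMap fun y => [[18 + y, 18 + y],
      [27 + x] ++ subst σT (tp.wl (sS.R x (tp.R y 0))) ++ [27 + x, 27 + x, 18 + y]])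
    have m := fun w hw => r w (List.mem_flatMap.2 ⟨x, List.mem_range.2 hx, hw⟩)
    have m1 := m _ List.mem_cons_self
    have m2 := fun w hw => m w (List.mem_cons_of_mem _ (List.mem_flatMap.2 ⟨y, List.mem_range.2 hy, hw⟩))
    have m3 := m2 _ List.mem_cons_self
    have m4 := m2 _ (List.mem_cons_of_mem _ List.mem_cons_self)
    rw [ha, ← (exA x).choose_spec (by omega) a, evw_append, evw_append, evw_subst, ← i1] at m4
    have m5 : ι a = e1 (18 + y) := by
      rw [i2 y a hy ha]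
      change y < 9 at hy
      interval_cases y <;> exact mul_one _
    simp only [evw_wpow, evw_cons, evw_nil, mul_one, pow_succ, pow_zero, one_mul] at m1 m3 m4
    change (e1 (27 + x))⁻¹ * ι a * (e1 (27 + x))⁻¹⁻¹ = ι ((eS x)⁻¹ a)
    rw [← mul_assoc (e1 _), eq_inv_of_mul_eq_one_left m1, eq_inv_of_mul_eq_one_left m3, ← mul_assoc,
      mul_inv_eq_one] at m4
    rw [m5, ← m4, show (exA x).choose = eS x from rfl]
    generalize ι ((eS x)⁻¹ a) = b
    group
  have l : S0 ≤ θ.range := S0_le fun x hx => ⟨⟨_, _, (k x hx).inv⟩, MulEquiv.ext fun t => inj (by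
    rw [e]; simpa using (k x hx).inv t)⟩
  have c := rng_le θ (a := ⟨ι Zp, _, L.inn Zp⟩) (MulEquiv.ext fun t => inj (by
    rw [e]; simp only [← map_mul, ← map_inv, Zc]; simp)) fun a => h (z.symm.trans (congrArg Subtype.val a))
  refine le_trans (Nat.mul_le_mul_left 2 (S0_ge.trans (card_le_of_le l))) (c.trans (card_le_of_le ?_))
  rintro g ⟨s, a⟩
  exact mem_Cx.2 (z ▸ a.com (aut_Z cZp s))

theorem a_eps : ∀ j, (e0 9).1 (e8 j) = if j ∈ (oct.map pt).toFinset then -e8 j else e8 j := fun j => by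
  have : ∀ j i, A (lget ms 0 9) i j = if j ∈ (oct.map pt).toFinset then -v8 j i else v8 j i := by decide +kernel
  refine Subtype.ext (funext fun i => ?_)
  rw [col_eq (g := e0 9) (liftS_spec (hs 9 (by decide))), this]
  split_ifs <;> rfl
end CfH6.Co
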