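import Cfsg.Agent.OD.Pre
import Cfsg.Agent.H6.CoL
import Cfsg.Agent.H6.CoO
import Cfsg.Agent.H7.Cores2
/-! From the 2-constrained hypothesis to the model. -/
set_option autoImplicit false
set_option maxRecDepth 100000
set_option linter.all false
open CfL MulAction Subgroup CfH9 CfH4 CfH2 QuadraticMap
namespace CfH6.Co

theorem oddO {Γ : Type*} [Group Γ] [Finite Γ] {ρ : Γ →* ((I8 → ZMod 2) ≃ₗ[ZMod 2] (I8 → ZMod 2))}
    (hρ : Rep ρ (Orth (qPlus 4 (ZMod 2)))) (M : Subgroup Γ) [hM : M.Normal] (ho : (Nat.card M).Coprime 2) : M = ⊥ := by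
  have h := qwf_of_nondeg (nondeg_qPlus (F := ZMod 2) 4)
  have qa : ∀ a, qPlus 4 (ZMod 2) a = Q8 a := qPlus_apply 4
  have k1 : ∀ a : I8 → ZMod 2, Q8 a = 1 → ∃ i, ∑ j, (a (.inl j) * (Pi.single i 1 : I8 → ZMod 2) (.inr j) +
    a (.inr j) * (Pi.single i 1 : I8 → ZMod 2) (.inl j)) = 1 ∧ a ≠ 0 := by decide +kernel
  have inj : ∀ a b, Q8 a = 1 → Q8 b = 1 → hρ.rG a = hρ.rG b → a = b := fun a b ha hb e => by
    obtain ⟨i, e1, e2⟩ := k1 a ha
    have := congrArg (ρ · (Pi.single i 1)) e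
    simp only [hρ.map_rG, rf_apply, qa, ha, hb, inv_one, one_mul, sub_right_inj] at this
    rw [polar_qPlus, e1, one_smul] at this
    rcases (show ∀ c : ZMod 2, c = 0 ∨ c = 1 by decide) (polar (qPlus 4 (ZMod 2)) b (Pi.single i 1)) with c | c <;>
      simp_all
  have r0 : ∀ a b, hρ.rG a * hρ.rG b ∈ M → polar (qPlus 4 (ZMod 2)) a b = 0 → hρ.rG a = hρ.rG b := fun a b hm e => by
    have c : hρ.rG a * hρ.rG b = hρ.rG b * hρ.rG a := hρ.inj (by simp only [map_mul, hρ.map_rG, rf_comm e])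
    rw [← hρ.rG_inv b, ← mul_eq_one_iff_eq_inv, ← orderOf_eq_one_iff]
    refine Nat.eq_one_of_dvd_coprimes ho (orderOf_dvd_natCard M hm) (orderOf_dvd_of_pow_eq_one ?_)
    rw [(show Commute _ _ from c).mul_pow, pow_two, pow_two, hρ.rG_mul_self, hρ.rG_mul_self, one_mul]
  let v0 : I8 → ZMod 2 := fun i => if i = .inl 0 ∨ i = .inr 0 then 1 else 0
  let P : (I8 → ZMod 2) → (I8 → ZMod 2) → ZMod 2 := fun u v => ∑ i, (u (.inl i) * v (.inr i) + u (.inr i) * v (.inl i))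
  have k2 : ∀ w, Q8 w = 1 → P v0 w = 0 ∨ ∃ a, (Q8 a = 1 ∧ P a v0 = 0 ∧ P a w = 1 ∧ Q8 (w - a) = 1) ∧
      ∃ b, (Q8 b = 1 ∧ P b v0 = 0 ∧ P b w = 1 ∧ Q8 (w - b) = 1) ∧ P (w - a) (w - b) = 0 ∧ w - a ≠ w - b := by decide +kernel
  have r1 : ∀ w, Q8 w = 1 → hρ.rG v0 * hρ.rG w ∈ M → hρ.rG v0 = hρ.rG w := fun w hw hm => by
    have c : ∀ a, Q8 a = 1 ∧ P a v0 = 0 ∧ P a w = 1 ∧ Q8 (w - a) = 1 → hρ.rG v0 * hρ.rG (w - a) ∈ M := fun a ha => by
      have := hM.conj_mem _ hm (hρ.rG a)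
      rwa [← conj_mul, hρ.rG_conj, hρ.rG_conj, hρ.map_rG, rf_of_polar ((polar_qPlus _ _ _).trans ha.2.1), rf_apply, qa,
        ha.1, (polar_qPlus _ _ _).trans ha.2.2.1, inv_one, one_mul, one_smul] at this
    rcases k2 w hw with e | ⟨a, a1, b, b1, e, n⟩
    · exact r0 _ _ hm ((polar_qPlus _ _ _).trans e)
    · refine absurd (inj _ _ a1.2.2.2 b1.2.2.2 (r0 _ _ ?_ ((polar_qPlus _ _ _).trans e))) n
      simpa [hρ.rG_inv, mul_assoc, ← mul_assoc (hρ.rG v0), hρ.rG_mul_self] using mul_mem (inv_mem (c a a1)) (c b b1)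
  refine eq_bot_iff.2 fun n hn => hρ.inj (LinearEquiv.ext fun x => ?_)
  have f : ∀ v, Q8 v = 1 → ρ n v = v := fun v hv => by
    have q : ∀ g v, Q8 v = 1 → Q8 (ρ g v) = 1 := fun g v hv => by rw [← hv, ← qa, ← qa, Q_orth (hρ.mem g)]
    obtain ⟨g, e⟩ := isConj_iff.1 (hρ.isConj_rG h (v := v) (w := v0) (by rw [qa, hv]; decide)
      (by rw [qa]; decide +kernel) ⟨_, by rw [qa, qa, hv, one_mul]; exact (show Q8 v0 = 1 * 1 by decide +kernel)⟩)
    have := r1 _ (q g _ (q n v hv)) (by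
      rw [← e, ← hρ.rG_conj g, conj_mul, ← hρ.rG_conj n]
      refine hM.conj_mem _ ?_ g
      simpa [hρ.rG_inv, mul_assoc] using mul_mem (hM.conj_mem _ hn (hρ.rG v)) (inv_mem hn))
    rw [← e, ← hρ.rG_conj g, mul_left_inj, mul_right_inj] at this
    exact (inj _ _ hv (q n v hv) this).symm
  obtain ⟨a, a1, b, b1, rfl⟩ : ∃ a, Q8 a = 1 ∧ ∃ b, (Q8 b = 1 ∨ b = 0) ∧ x = a + b :=
    (show ∀ x : I8 → ZMod 2, ∃ a, Q8 a = 1 ∧ (Q8 (x - a) = 1 ∨ x - a = 0) by decide +kernel) x |>.imp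
      fun a ha => ⟨ha.1, _, ha.2, by abel⟩
  rcases b1 with b1 | rfl <;> simp [f, *]

theorem oddΩ : Cfsg.pPrimeCore 2 (Cfsg.Omega (ZMod 2) Q8) = ⊥ := by
  have := oddO (rep_O (qPlus 4 (ZMod 2))) ((Cfsg.pPrimeCore 2 (Cfsg.Omega (ZMod 2) (qPlus 4 (ZMod 2)))).map (Subgroup.subtype _))
    (by rw [card_map_of_injective (subtype_injective _)]; exact CfH7.coprime_card_pPrimeCore _ _)
  rw [map_eq_bot_iff_of_injective _ (subtype_injective _), coe_qPlus] at this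
  exact this

theorem cent_le {C : Type*} [Group C] [Finite C] (hc : Cfsg.IsPConstrained 2 C)
    (e : C ⧸ Cfsg.pCore 2 C ≃* Cfsg.Omega (ZMod 2) Q8) (g : C) (hg : ∀ q : Cfsg.pCore 2 C, g * q = q * g) :
    g ∈ Cfsg.pCore 2 C := by
  have h1 : Cfsg.pPrimeCore 2 C = ⊥ := by
    have := CfH7.map_pPrimeCore_le (p := 2) (f := e.toMonoidHom.comp (QuotientGroup.mk' _))
      (e.surjective.comp (QuotientGroup.mk'_surjective _))
    rw [oddΩ, le_bot_iff, Subgroup.map_eq_bot_iff, ← MonoidHom.comap_ker, (MonoidHom.ker_eq_bot_iff _).2 e.injective,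
      MonoidHom.comap_bot, QuotientGroup.ker_mk'] at this
    exact CfH7.disjoint_pCore_pPrimeCore.symm.eq_bot_of_le this
  have h2 : Cfsg.pPrimePCore 2 C = Cfsg.pCore 2 C := CfH7.comap_mk_pCore (h1 ▸ IsPGroup.of_bot)
  exact h2.le (hc default fun a ha => (hg ⟨a, h2.le (map_subtype_le _ ha)⟩).symm)

theorem exS1 {G : Type*} [Group G] [Finite G] (z : G) (hz : orderOf z = 2) (Q : Subgroup Cx(z)) [Q.Normal]
    (hF : ∀ g : Cx(z), (∀ q : Q, g * q = q * g) → g ∈ Q) (hQ : Cfsg.IsExtraspecial 2 Q) (hc : Nat.card Q = 2 ^ 9)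
    (hq : Nat.card (Cx(z) ⧸ Q) = 174182400) : ∃ ι, S1 z ι := by
  obtain ⟨z0, h0⟩ := exists_es2 hQ
  have cz : ∀ g : Cx(z), (∀ q : Q, g * q = q * g) → g = 1 ∨ g = z0 := fun g hg =>
    (h0.center ⟨g, hF g hg⟩ fun y => Subtype.ext (hg y)).imp (congrArg Subtype.val) (congrArg Subtype.val)
  have z1 : z ≠ 1 := fun e => by rw [e, orderOf_one] at hz; omega
  have e0 : z = z0 := congrArg Subtype.val ((cz ⟨z, mem_Cx.2 rfl⟩ fun q => Subtype.ext (mem_Cx.1 q.1.2).symm).resolve_left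
    fun e => z1 (congrArg Subtype.val e))
  have hH : Nat.card Cx(z) = 2 * 44590694400 := by rw [card_eq_card_quotient_mul_card_subgroup Q, hq, hc]; rfl
  rcases es512 h0 hc with ⟨ι, i1, i2⟩ | ⟨ι, i1, i2⟩
  · have rg : ((Cx(z)).subtype.comp (Q.subtype.comp ι)).range = Q.map (Cx(z)).subtype := by
      rw [MonoidHom.range_comp, MonoidHom.range_comp, MonoidHom.range_eq_top.2 i1.2, ← MonoidHom.range_eq_map, range_subtype]
    have e1 : ((ι Zp : Cx(z)) : G) = z := by rw [i2, ← e0]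
    refine ⟨(Cx(z)).subtype.comp (Q.subtype.comp ι), ⟨(subtype_injective _).comp ((subtype_injective _).comp i1.1), e1, fun g hg t => ?_,
      fun g hg => ?_, hH⟩⟩
    · exact rg.ge ⟨_, ‹Q.Normal›.conj_mem _ (ι t).2 ⟨g, mem_Cx.2 hg⟩, rfl⟩
    · refine (cz ⟨g, mem_Cx.2 ((congrArg (g * ·) e1.symm).trans ((hg Zp).trans (congrArg (· * g) e1)))⟩ fun q => ?_).imp
        (congrArg Subtype.val) fun e => (congrArg Subtype.val e).trans e0.symm
      obtain ⟨t, rfl⟩ := i1.2 q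
      exact Subtype.ext (hg t)
  · exfalso
    obtain ⟨θ, e⟩ := exists_theta (ι := Q.subtype.comp ι) ((subtype_injective _).comp i1.1) ⊤ fun k _ t => by
      obtain ⟨s, hs⟩ := i1.2 ⟨_, ‹Q.Normal›.conj_mem _ (ι t).2 k⟩
      exact ⟨s, congrArg Subtype.val hs⟩
    have c1 := rng_ge θ (a := ⟨z0, trivial⟩) fun k hk => (cz k fun q => by
      obtain ⟨t, rfl⟩ := i1.2 q
      have := e k t
      rw [hk] at this
      exact mul_inv_eq_iff_eq_mul.1 this.symm).imp Subtype.ext Subtype.ext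
    have c2 : Nat.card θ.range ∣ 2 * 44590694400 := by rw [← hH, ← index_ker, ← card_top (G := Cx(z))]; exact index_dvd_card _
    have c3 := θ.range.card_mul_index
    have c4 := autm
    rw [card_top, hH] at c1
    have c5 : θ.range.index < 3 := by
      by_contra c
      have : Nat.card θ.range * 3 ≤ Nat.card θ.range * θ.range.index := Nat.mul_le_mul_left _ (by omega)
      omega
    have := index_ne_zero_of_finite (H := θ.range)
    rcases (Nat.Prime.dvd_mul (by norm_num)).1 (c3 ▸ c4.2) with a | a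
    · exact absurd (a.trans c2) (by decide)
    · exact absurd (Nat.le_of_dvd (by omega) a) (by omega)
end CfH6.Co
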