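import Cfsg.Agent.OD.Pre
import Cfsg.Agent.H6.SoC
import Cfsg.Agent.H6.SoB
import Cfsg.Agent.H6.Big2
/-! Soicher's presentation defines a group of order at most twice the order of `Co1`. -/
set_option autoImplicit false
set_option maxRecDepth 100000
set_option Elab.async false
set_option linter.all false
namespace CfH6.SoG
open CfH6

theorem ex : ∃ ρ : S32B.G →* SoB.G, ∀ x < 8, ρ (S32B.el x) = byW SoB.el SoC.σ x :=
  S32B.hhom _ (byW_inv SoB.el (n := 4) SoB.hinv SoB.hrel (by decide +kernel))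
    (byW_rels SoB.el (n := 4) SoB.hinv SoB.hrel (by decide +kernel))
noncomputable def ρ : S32B.G →* SoB.G := Classical.choose ex
theorem hρ : ∀ x < 8, ρ (S32B.el x) = byW SoB.el SoC.σ x := Classical.choose_spec ex
theorem hg : ∀ w ∈ SoC.gws, evw SoB.el w = 1 := follows_sound (n := 4) SoB.el SoB.hinv SoB.hrel (by decide +kernel)
theorem hw : ∀ w ∈ SoC.bws, evw SoB.el w = 1 := follows_sound (n := 4) SoB.el SoB.hinv SoB.hrel (by decide +kernel)
theorem hH (n : S32B.G) : ρ n ∈ ρ.range := MonoidHom.mem_range.mpr ⟨n, rfl⟩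
noncomputable abbrev C := SoC.C SoB.el ρ hρ ρ.range hH hg (SoC.hbp SoB.el ρ hρ (SoB.hinv 8 (by decide)) hw)
theorem hK : C.K = ⊤ := C.K_top (σ := SoC.σ) (nc := 8) (fun x hx => (congrArg ρ (S32D.cdx x hx)).trans (hρ x hx))
  rfl (SoB.hinv 8 (by decide)) SoB.htop (by decide)
theorem cov : Covers ρ.range ⊤ 3091200 := hK ▸ SoC.covers _ _ _ _ _ _ _
theorem finG : Finite SoB.G ∧ Nat.card SoB.G ≤ 8315553613086720000 :=
  fin_top (fin_cast (cov.card_le (card_range_le _ S32O.finG)) (by decide))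
end CfH6.SoG
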