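import Cfsg.Agent.OD.Pre
import Cfsg.Agent.H6.CoH
import Cfsg.Agent.H6.CoP
import Cfsg.Agent.H6.SoG
/-! An embedding of the first Conway group containing the centraliser of the involution. -/
set_option autoImplicit false
set_option maxRecDepth 100000
set_option linter.all false
open CfL MulAction Subgroup CfH9 Cfsg Cfsg.Spor
namespace CfH6.Co

theorem eq_of_card2 {G : Type*} [Group G] {K : Subgroup G} [Finite K] (h : Nat.card K ≤ 2) {a b : G} (ha : a ∈ K) (hb : b ∈ K)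
    (a1 : a ≠ 1) (b1 : b ≠ 1) : a = b := by
  by_contra e
  have : 2 < (K : Set G).ncard := (Set.two_lt_ncard_iff (Set.toFinite _)).2 ⟨a, b, 1, ha, hb, K.one_mem, e, a1, b1⟩
  exact absurd (this.trans_le ((Nat.card_coe_set_eq _).symm.trans_le h)) (lt_irrefl _)

theorem St.exψ {G : Type*} [Group G] [Finite G] {z : G} {ι : Tp →* G} (h : St z ι) :
    ∃ ψ : Co1 →* G, Function.Injective ψ ∧ ψ (e1 9) = z ∧ Cx(z) ≤ ψ.range := by
  obtain ⟨ev, l, o⟩ := h.exEv
  obtain ⟨ρ, r1, r2⟩ := Mo.exρ ⟨h, l, o⟩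
  obtain ⟨χ, c1, c2⟩ := exχ
  have := SoG.finG.1
  have k : Nat.card χ.ker ≤ 2 := by
    have a := χ.ker.card_mul_index
    rw [index_ker, MonoidHom.range_eq_top.2 c1, card_top, Lee.cardCo1] at a
    have := SoG.finG.2
    omega
  have k2 : χ.ker ≤ ρ.ker := fun ζ hζ => by
    by_cases e : ζ = 1
    · rw [e]; exact one_mem _
    refine r2 ζ (fun g => mul_inv_eq_iff_eq_mul.1 (eq_of_card2 k (χ.normal_ker.conj_mem _ hζ g) hζ (by simpa using e) e)) ?_
    by_contra a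
    exact e (mul_eq_left.1 (eq_of_card2 k (mul_mem hζ hζ) hζ a e))
  have := Lee.simpleCo1
  have := Lee.card_Co1.1
  let ψ := χ.liftOfSurjective c1 ⟨ρ, k2⟩
  have e : ψ (e1 9) = z := by rw [← c2, ← r1]; exact χ.liftOfRightInverse_comp_apply _ _ _ _
  have i := inj_of_simple ψ (e ▸ h.z1)
  refine ⟨ψ, i, e, le_trans (eq_of_le_of_card_ge (H := Cx(e1 9).map ψ) ?_ ?_).ge (map_le_range _ _)⟩
  · rintro _ ⟨g, hg, rfl⟩
    rw [mem_Cx, ← e, ← map_mul, ← map_mul, mem_Cx.1 hg]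
  · rw [h.card, card_map_of_injective i]
    exact cardC fun a => h.z1 (by rw [← e, a, map_one])
end CfH6.Co
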