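import Cfsg.Agent.OD.Pre
import Cfsg.Agent.H6.CoZ
import Cfsg.Agent.H6.CoO
import Cfsg.Agent.H9.CoFin4
/-! Recognition of the first Conway group. -/
set_option autoImplicit false
set_option maxRecDepth 100000
open Cfsg.Spor
namespace CfH6.Co

theorem St.iso {G : Type*} [Group G] [Finite G] {z : G} {ι : Tp →* G} (h : St z ι) : IsoCo1 G := by
  obtain ⟨ψ, i, e, c⟩ := h.exψ
  subst e
  exact ⟨(MulEquiv.ofBijective ψ ⟨i, CfH9.CoFin.surj ψ i (e0 9) _ (by decide) a_eps c h.card⟩).symm⟩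
end CfH6.Co
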