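import Cfsg.Agent.OD.Pre
import Cfsg.Agent.H6.F22B
import Cfsg.Agent.H6.F22T7
set_option autoImplicit false
set_option maxRecDepth 100000
set_option linter.all false
namespace CfH6.F22O2
open CfH6
def s0 : List (List ℕ) := [[0], [1], [2], [3], [4], [5], [6], [7], [8]]
def t0 : List (List ℕ) := [[0], [2], [3], [4], [5], [6], [7], [8], [0, 1, 2, 3, 4, 7, 0, 1, 2, 3, 4, 7, 0, 1, 2, 3, 4, 7, 0, 1, 2, 3, 4, 7, 0, 1, 2, 3, 4, 7]]
theorem cov0 : Covers (gensub (byW F22B.el t0) 9) (gensub (byW F22B.el s0) 9) 3510 :=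
  cov_step F22B.el F22B.hinv F22B.hrel s0 t0 9 4 (fun ev H => F22T7.covers ev H) (by decide +kernel)
theorem top0 : gensub (byW F22B.el s0) 9 = ⊤ := (gensub_id F22B.el (by decide)).trans F22B.htop
theorem covT0 : Covers (gensub (byW F22B.el t0) 9) ⊤ 3510 := cov0.top top0
end CfH6.F22O2
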