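import Cfsg.Agent.OD.Pre
import Cfsg.Agent.H6.F22A
import Cfsg.Agent.H6.F22K
import Cfsg.Agent.H6.F22O
import Cfsg.Agent.H6.F22O2
/-! The presented group Fi22: order, simplicity, primitive action. -/
set_option autoImplicit false
set_option maxRecDepth 100000
namespace CfH6.F22G
open CfH6 MulAction Cfsg.Spor
attribute [local instance] F22A.act

theorem stab : F22A.H = stabilizer F22B.G 0 ∧ F22A.H.index = 3510 := F22A.stab F22O2.covT0

theorem card : Nat.card F22B.G = 64561751654400 := (F22A.top F22O.finG).1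

theorem base : ∀ g : F22B.G, (∀ b ∈ F22A.bs, g • b = b) → g = 1 := (F22A.top F22O.finG).2

theorem simple : IsSimpleGroup F22B.G := by
  have := F22O.finG.1
  refine simple_of stab.1 (by rw [stab.2]; decide) (F22A.hmax stab.1 stab.2) base F22A.hbs fun M hM h => ?_
  exact top_of_index (eq_top_of_collapse F22B.el (n := 4) F22B.hinv F22B.hrel F22B.htop M
    (pow_words F22B.el h (by norm_num) (not_dvd_card card stab.2 (by decide)) 1 F22A.ex (F22A.hex base))
    (by decide +kernel) 1 fun ev' h1 h2 => F22K.covers ev' ⊥ h1 h2 forall_nil)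

theorem sub_eq : (Subgroup.closure ({Fi22.a, Fi22.c, Fi22.d, Fi22.e, Fi22.f, Fi22.g, Fi22.h, Fi22.i, (Fi22.a * Fi22.b * Fi22.c * Fi22.d * Fi22.e * Fi22.h) ^ 5} : Set (FreeGroup Fi22.Gen))).map
    (PresentedGroup.mk (coxRelators Fi22.edges ∪ {r | r ∈ Fi22.extra})) = F22A.H :=
  map_closure_eq _ F22B.el F22B.hinv F22B.tr F22B.hmk _ [Fi22.a, Fi22.c, Fi22.d, Fi22.e, Fi22.f, Fi22.g, Fi22.h, Fi22.i, (Fi22.a * Fi22.b * Fi22.c * Fi22.d * Fi22.e * Fi22.h) ^ 5]
    (by intro r; simp) (by decide) (by decide +kernel)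

end CfH6.F22G
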