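import Cfsg.Agent.OD.Pre
import Cfsg.Agent.H6.F23A
import Cfsg.Agent.H6.F23K
import Cfsg.Agent.H6.F23O
/-! The presented group Fi23: order, simplicity, primitive action. -/
set_option autoImplicit false
set_option maxRecDepth 100000
namespace CfH6.F23G
open CfH6 MulAction Cfsg.Spor
attribute [local instance] F23A.act

theorem stab : F23A.H = stabilizer F23B.G 0 ∧ F23A.H.index = 31671 := F23A.stab F23O.covT0

theorem card : Nat.card F23B.G = 4089470473293004800 := (F23A.top F23O.finG).1

theorem base : ∀ g : F23B.G, (∀ b ∈ F23A.bs, g • b = b) → g = 1 := (F23A.top F23O.finG).2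

theorem simple : IsSimpleGroup F23B.G := by
  have := F23O.finG.1
  refine simple_of stab.1 (by rw [stab.2]; decide) (F23A.hmax stab.1 stab.2) base F23A.hbs fun M hM h => ?_
  exact top_of_index (eq_top_of_collapse F23B.el (n := 4) F23B.hinv F23B.hrel F23B.htop M
    (pow_words F23B.el h (by norm_num) (not_dvd_card card stab.2 (by decide)) 1 F23A.ex (F23A.hex base))
    (by decide +kernel) 1 fun ev' h1 h2 => F23K.covers ev' ⊥ h1 h2 forall_nil)

theorem sub_eq : (Subgroup.closure ({Fi23.a, Fi23.b, Fi23.c, Fi23.d, Fi23.e, Fi23.f, Fi23.g, Fi23.h, Fi23.i} : Set (FreeGroup Fi23.Gen))).map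
    (PresentedGroup.mk (coxRelators Fi23.edges ∪ {r | r ∈ Fi23.extra})) = F23A.H :=
  map_closure_eq _ F23B.el F23B.hinv F23B.tr F23B.hmk _ [Fi23.a, Fi23.b, Fi23.c, Fi23.d, Fi23.e, Fi23.f, Fi23.g, Fi23.h, Fi23.i]
    (by intro r; simp) (by decide) (by decide +kernel)

end CfH6.F23G
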