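import Cfsg.Agent.OD.Pre
import Cfsg.Agent.H6.D22O
import Cfsg.Agent.H6.D22K
import Cfsg.Agent.H6.F22G
import Cfsg.Agent.H6.F23G
import Cfsg.Agent.H6.Iso
/-! The double cover of `Fi22` inside `Fi23`. -/
set_option autoImplicit false
set_option maxRecDepth 100000
namespace CfH6.D22G
open CfH6

theorem perfect : commutator D22B.G = ⊤ :=
  top_of_index (eq_top_of_collapse D22B.el (n := 4) D22B.hinv D22B.hrel D22B.htop _
    (comm_words_mem D22B.el D22B.hinv [(0, 1), (1, 2), (2, 3), (3, 4), (3, 7), (4, 5), (5, 6), (7, 8)]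
      (by decide)) (by decide +kernel) 1 fun ev' h1 h2 => D22K.covers ev' ⊥ h1 h2 forall_nil)

theorem cover : Cfsg.IsNonsplitDoubleCover F23A.H F22B.G := by
  have := D22O.finG.1
  have := F22G.simple
  obtain ⟨ρ, hρ⟩ := D22B.hhom (byW F23B.el F23A.ws1)
    (byW_inv F23B.el (n := 4) F23B.hinv F23B.hrel (by decide +kernel))
    (byW_rels F23B.el (n := 4) F23B.hinv F23B.hrel (by decide +kernel))
  obtain ⟨ψ, hψ⟩ := D22B.hhom F22B.el F22B.hinv
    (follows_sound F22B.el (n := 4) F22B.hinv F22B.hrel (by decide +kernel))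
  have hH : Nat.card F23A.H = 129123503308800 := card_of_index F23G.card F23G.stab.2 (by decide)
  have hi := equiv_of_card hρ D22B.htop D22O.finG hH.ge
  have hr : ρ.range = F23A.H := range_hom hρ D22B.htop
  refine double_cover ρ hi hr ψ (surj_of_gens hψ D22B.htop F22B.htop) (center_bot ?_) ?_ perfect
  · rw [F22G.card]; norm_num
  · rw [F22G.card, Nat.card_congr (MonoidHom.ofInjective hi).toEquiv, hr, hH]

end CfH6.D22G
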