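import Cfsg.Agent.OD.Pre
import Cfsg.Agent.H6.TCTop
import Cfsg.Agent.H6.F23T1.C
import Cfsg.Agent.H6.F23T1.P0
/-! coset enumeration certificate; generators a b c d e f g j h i ; index 31671 -/
set_option autoImplicit false
set_option maxRecDepth 100000
set_option Elab.async false
set_option linter.all false
namespace CfH6.F23T1
open CfH6
theorem covers {G : Type*} [Group G] (ev : ℕ → G) (H : Subgroup G)
    (hinv : ∀ x < 10, ev (il.getD x 0) = (ev x)⁻¹) (hr : ∀ r ∈ rels, evw ev r = 1)
    (hs : ∀ s ∈ subs, evw ev s ∈ H) : Covers H (gensub ev 10) 31671 :=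
  C.sound il rels subs 10 31671 valid ((((((((((((((((p0).trans p1).trans p2).trans p3).trans p4).trans p5).trans p6).trans p7).trans p8).trans p9).trans p10).trans p11).trans p12).trans p13).trans p14).trans p15) ((((p16).trans p17).trans p18).trans p19) (by decide) (by decide) ev H hinv hr hs
end CfH6.F23T1
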