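import Cfsg.Agent.OD.Pre
import Cfsg.Agent.H6.F24B
import Cfsg.Agent.H6.F24K2
import Cfsg.Agent.H6.Comm
/-! The commutator subgroup of the presented group `Fi24` has index 2. -/
set_option autoImplicit false
set_option maxRecDepth 100000
namespace CfH6.F24C
open CfH6

theorem index : (commutator F24B.G).index = 2 := by
  obtain ⟨ρ, hρ⟩ := F24B.hhom (fun _ => (-1 : ℤˣ)) (fun _ _ => by decide) (even_rels _ (by decide +kernel))
  refine index_commutator_two ρ (F24B.el 0) (hρ 0 (by decide)) ?_
  exact eq_top_of_collapse F24B.el (n := 4) F24B.hinv F24B.hrel F24B.htop _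
    (comm_words_mem F24B.el F24B.hinv [(0, 1), (1, 2), (2, 3), (3, 4), (4, 5), (5, 6), (5, 10), (6, 7), (7, 8),
      (8, 9), (10, 11)] (by decide)) (by decide +kernel) 2 fun ev' h1 h2 => F24K2.covers ev' ⊥ h1 h2 forall_nil

end CfH6.F24C
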