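import Cfsg.Agent.OD.Pre
import Cfsg.Agent.H6.F24A
import Cfsg.Agent.H6.F24O
import Cfsg.Agent.H6.F24K
import Cfsg.Agent.H6.F24C
/-! The presented group `Fi24`: order, primitive action, simplicity of the commutator subgroup. -/
set_option autoImplicit false
set_option maxRecDepth 100000
namespace CfH6.F24G
open CfH6 MulAction Cfsg.Spor
attribute [local instance] F24A.act

theorem stab : F24A.H = stabilizer F24B.G 0 ∧ F24A.H.index = 306936 := F24A.stab F24O.covT0

theorem card : Nat.card F24B.G = 2510411418381323442585600 := (F24A.top F24O.finG).1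

theorem base : ∀ g : F24B.G, (∀ b ∈ F24A.bs, g • b = b) → g = 1 := (F24A.top F24O.finG).2

theorem card' : Nat.card (commutator F24B.G) = 1255205709190661721292800 := by
  have := (commutator F24B.G).card_mul_index
  rw [F24C.index, card] at this
  omega

theorem normal (K : Subgroup F24B.G) (hK : K.Normal) (hb : K ≠ ⊥) : commutator F24B.G ≤ K := by
  rcases F24A.hmax stab.1 stab.2 (K ⊔ F24A.H) le_sup_right with h | h
  · exact absurd (normal_le_stab base F24A.hbs K (stab.1 ▸ (le_sup_left.trans h.le))) hb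
  · refine commutator_le_of_central h (evw F24B.el [0])
      (comm_of_words F24B.el F24B.hinv F24B.hrel [0] F24A.ws1 11 4 (by decide +kernel)) fun M hM hd => ?_
    exact top_of_index (eq_top_of_collapse F24B.el (n := 4) F24B.hinv F24B.hrel F24B.htop M
      (ex := [[0]]) (forall_cons hd forall_nil) (by decide +kernel) 1
      fun ev' h1 h2 => F24K.covers ev' ⊥ h1 h2 forall_nil)

theorem simple : IsSimpleGroup (commutator F24B.G) := by
  have := F24O.finG.1
  refine simple_of_index_two F24C.index normal ?_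
  rw [card']
  rintro ⟨r, hr⟩
  have h1 : 29 ∣ r := ((by norm_num : Nat.Prime 29).dvd_mul.mp (hr ▸ (by norm_num))).elim id id
  have h2 : 29 * 29 ∣ 1255205709190661721292800 := hr ▸ Nat.mul_dvd_mul h1 h1
  norm_num at h2

theorem sub_eq : (Subgroup.closure ({Fi24.a, Fi24.b, Fi24.c, Fi24.d, Fi24.e, Fi24.f, Fi24.g, Fi24.h, Fi24.i,
    Fi24.j, Fi24.l} : Set (FreeGroup Fi24.Gen))).map
    (PresentedGroup.mk (coxRelators Fi24.edges ∪ {r | r ∈ Fi24.extra})) = F24A.H :=
  map_closure_eq _ F24B.el F24B.hinv F24B.tr F24B.hmk _ [Fi24.a, Fi24.b, Fi24.c, Fi24.d, Fi24.e, Fi24.f, Fi24.g,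
    Fi24.h, Fi24.i, Fi24.j, Fi24.l] (by intro r; simp) (by decide) (by decide +kernel)

end CfH6.F24G
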