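import Cfsg.Agent.OD.Pre
import Cfsg.Agent.H6.TCTop
import Cfsg.Agent.H6.F24T1.C
import Cfsg.Agent.H6.F24T1.P0
import Cfsg.Agent.H6.F24T1.P1
import Cfsg.Agent.H6.F24T1.P2
import Cfsg.Agent.H6.F24T1.P3
import Cfsg.Agent.H6.F24T1.P4
import Cfsg.Agent.H6.F24T1.P5
import Cfsg.Agent.H6.F24T1.P6
import Cfsg.Agent.H6.F24T1.P7
import Cfsg.Agent.H6.F24T1.P8
/-! coset enumeration certificate; generators l k a b c d e f g j h i ; index 306936 -/
set_option autoImplicit false
set_option maxRecDepth 100000
set_option Elab.async false
set_option linter.all false
namespace CfH6.F24T1
open CfH6
theorem covers {G : Type*} [Group G] (ev : ℕ → G) (H : Subgroup G)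
    (hinv : ∀ x < 12, ev (il.getD x 0) = (ev x)⁻¹) (hr : ∀ r ∈ rels, evw ev r = 1)
    (hs : ∀ s ∈ subs, evw ev s ∈ H) : Covers H (gensub ev 12) 306936 :=
  C.sound il rels subs 12 306936 valid ((((((((((((((((((((((((((((((((((((((((((((((((((((((((((((((((((((((((((((((((((((((((((((((((((((((((((((((((((((((((((((((((((((((((((((((((((((((((((((((((((((((((p0).trans p1).trans p2).trans p3).trans p4).trans p5).trans p6).trans p7).trans p8).trans p9).trans p10).trans p11).trans p12).trans p13).trans p14).trans p15).trans p16).trans p17).trans p18).trans p19).trans p20).trans p21).trans p22).trans p23).trans p24).trans p25).trans p26).trans p27).trans p28).trans p29).trans p30).trans p31).trans p32).trans p33).trans p34).trans p35).trans p36).trans p37).trans p38).trans p39).trans p40).trans p41).trans p42).trans p43).trans p44).trans p45).trans p46).trans p47).trans p48).trans p49).trans p50).trans p51).trans p52).trans p53).trans p54).trans p55).trans p56).trans p57).trans p58).trans p59).trans p60).trans p61).trans p62).trans p63).trans p64).trans p65).trans p66).trans p67).trans p68).trans p69).trans p70).trans p71).trans p72).trans p73).trans p74).trans p75).trans p76).trans p77).trans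 p78).trans p79).trans p80).trans p81).trans p82).trans p83).trans p84).trans p85).trans p86).trans p87).trans p88).trans p89).trans p90).trans p91).trans p92).trans p93).trans p94).trans p95).trans p96).trans p97).trans p98).trans p99).trans p100).trans p101).trans p102).trans p103).trans p104).trans p105).trans p106).trans p107).trans p108).trans p109).trans p110).trans p111).trans p112).trans p113).trans p114).trans p115).trans p116).trans p117).trans p118).trans p119).trans p120).trans p121).trans p122).trans p123).trans p124).trans p125).trans p126).trans p127).trans p128).trans p129).trans p130).trans p131).trans p132).trans p133).trans p134).trans p135).trans p136).trans p137).trans p138).trans p139).trans p140).trans p141).trans p142).trans p143).trans p144).trans p145).trans p146).trans p147).trans p148).trans p149).trans p150).trans p151).trans p152).trans p153).trans p154).trans p155).trans p156).trans p157).trans p158).trans p159).trans p160).trans p161).trans p162).trans p163).trans p164).trans p165).trans p166).trans p167) (p168) (by decide) (by decide) ev H hinv hr hs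
end CfH6.F24T1
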