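import Cfsg.Agent.OD.Pre
import Cfsg.Agent.H6.TCTop
import Cfsg.Agent.H6.F24T2.C
import Cfsg.Agent.H6.F24T2.P0
import Cfsg.Agent.H6.F24T2.P1
/-! coset enumeration certificate; generators l a b c d e f g j h i ; index 31671 -/
set_option autoImplicit false
set_option maxRecDepth 100000
set_option Elab.async false
set_option linter.all false
namespace CfH6.F24T2
open CfH6
theorem covers {G : Type*} [Group G] (ev : ℕ → G) (H : Subgroup G)
    (hinv : ∀ x < 11, ev (il.getD x 0) = (ev x)⁻¹) (hr : ∀ r ∈ rels, evw ev r = 1)
    (hs : ∀ s ∈ subs, evw ev s ∈ H) : Covers H (gensub ev 11) 31671 :=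
  C.sound il rels subs 11 31671 valid ((((((((((((((((((p0).trans p1).trans p2).trans p3).trans p4).trans p5).trans p6).trans p7).trans p8).trans p9).trans p10).trans p11).trans p12).trans p13).trans p14).trans p15).trans p16).trans p17) (((((p18).trans p19).trans p20).trans p21).trans p22) (by decide) (by decide) ev H hinv hr hs
end CfH6.F24T2
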