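import Cfsg.Agent.OD.Pre
import Cfsg.Agent.H6.F24B
import Cfsg.Agent.H6.O8A
import Cfsg.Agent.H6.O8O
/-! The spider relation holds in the presented group `Fi24`. -/
set_option autoImplicit false
set_option maxRecDepth 100000
namespace CfH6.F24X
open CfH6

def sg : List (List ℕ) := [[0], [1], [2], [3], [4], [5], [6], [7], [10], [11]]

theorem spider : ∀ w ∈ O8A.rw0.map (subst sg), evw F24B.el w = 1 :=
  transfer_rel F24B.el F24B.hinv F24B.hrel sg 4 (fun ev h1 h2 => O8B.hhom ev h1 h2)
    (O8A.hrw (O8A.top O8O.finG).2) (by decide +kernel)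

abbrev G : Type := F24B.G
abbrev il : List ℕ := F24B.il
noncomputable abbrev el : ℕ → G := F24B.el
def rels : List (List ℕ) := F24B.rels ++ O8A.rw0.map (subst sg)
theorem hinv : ∀ x < 12, el (il.getD x 0) = (el x)⁻¹ := F24B.hinv
theorem hrel : ∀ r ∈ rels, evw el r = 1 := forall_app F24B.hrel spider
theorem htop : gensub el 12 = ⊤ := F24B.htop

end CfH6.F24X
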