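import Cfsg.Agent.OD.Pre
import Cfsg.Agent.H6.TCTop
import Cfsg.Agent.H6.HeT1.C
import Cfsg.Agent.H6.HeT1.P0
/-! coset enumeration certificate; generators a b c d e f g ; index 49980 -/
set_option autoImplicit false
set_option maxRecDepth 100000
set_option Elab.async false
set_option linter.all false
namespace CfH6.HeT1
open CfH6
theorem covers {G : Type*} [Group G] (ev : ℕ → G) (H : Subgroup G)
    (hinv : ∀ x < 7, ev (il.getD x 0) = (ev x)⁻¹) (hr : ∀ r ∈ rels, evw ev r = 1)
    (hs : ∀ s ∈ subs, evw ev s ∈ H) : Covers H (gensub ev 7) 49980 :=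
  C.sound il rels subs 7 49980 valid ((((((((((((((((((p0).trans p1).trans p2).trans p3).trans p4).trans p5).trans p6).trans p7).trans p8).trans p9).trans p10).trans p11).trans p12).trans p13).trans p14).trans p15).trans p16).trans p17) (p18) (by decide) (by decide) ev H hinv hr hs
end CfH6.HeT1
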