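import Cfsg.Agent.OD.Pre
import Cfsg.Agent.H6.HeB
import Cfsg.Agent.H6.HeM
import Cfsg.Agent.H6.HeT1
import Cfsg.Agent.H6.HeT2
import Cfsg.Agent.H6.HeT3
import Cfsg.Agent.H6.HeT4
set_option autoImplicit false
set_option maxRecDepth 100000
set_option linter.all false
namespace CfH6.HeO
open CfH6
def ms0 : List (List ℕ) := [[0], [1], [2], [3], [4]]
def mt0 : List (List ℕ) := [[2], [3]]
theorem mem0 : ∀ w ∈ HeM.ws.map (subst ms0), evw HeB.el w ∈ gensub (byW HeB.el mt0) 2 :=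
  mem_step HeB.el HeB.hinv HeB.hrel ms0 mt0 2 4 (fun ev H => HeM.words ev H) (by decide +kernel)
def s0 : List (List ℕ) := [[0], [1], [2], [3], [4], [5], [6]]
def t0 : List (List ℕ) := [[0], [2], [3], [4], [5], [6]]
theorem cov0 : Covers (gensub (byW HeB.el t0) 6) (gensub (byW HeB.el s0) 7) 49980 :=
  cov_step HeB.el HeB.hinv HeB.hrel s0 t0 6 4 (fun ev H => HeT1.covers ev H) (by decide +kernel)
theorem top0 : gensub (byW HeB.el s0) 7 = ⊤ := (gensub_id HeB.el (by decide)).trans HeB.htop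
theorem covT0 : Covers (gensub (byW HeB.el t0) 6) ⊤ 49980 := cov0.top top0
def s1 : List (List ℕ) := [[0], [2], [3], [4], [5], [6]]
def t1 : List (List ℕ) := [[0], [2], [3], [4]]
theorem cov1 : Covers (gensub (byW HeB.el t1) 4) (gensub (byW HeB.el s1) 6) 672 :=
  cov_step HeB.el HeB.hinv HeB.hrel s1 t1 4 4 (fun ev H => HeT2.covers ev H) (by decide +kernel)
def s2 : List (List ℕ) := [[0], [2], [3], [4]]
def t2 : List (List ℕ) := [[2], [3], [2, 3, 4, 2, 3, 4, 2, 3, 4, 2, 3, 4, 2, 3, 4]]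
theorem cov2 : Covers (gensub (byW HeB.el t2) 3) (gensub (byW HeB.el s2) 4) 6 :=
  cov_step HeB.el HeB.hinv HeB.hrel s2 t2 3 4 (fun ev H => HeT3.covers ev H) (by decide +kernel)
def s3 : List (List ℕ) := [[2], [3]]
def t3 : List (List ℕ) := []
theorem cov3 : Covers (gensub (byW HeB.el t3) 0) (gensub (byW HeB.el s3) 2) 20 :=
  cov_step HeB.el HeB.hinv HeB.hrel s3 t3 0 4 (fun ev H => HeT4.covers ev H) (by decide +kernel)
theorem finT3 : Finite (gensub (byW HeB.el t3) 0) ∧ Nat.card (gensub (byW HeB.el t3) 0) ≤ 1 := (gensub_zero _)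
theorem fin3 : Finite (gensub (byW HeB.el s3) 2) ∧ Nat.card (gensub (byW HeB.el s3) 2) ≤ 20 :=
  fin_cast (cov3.card_le finT3) (by decide)
theorem finT2 : Finite (gensub (byW HeB.el t2) 3) ∧ Nat.card (gensub (byW HeB.el t2) 3) ≤ 20 := (fin_le (gensub_le_of_mem HeB.el (forall_app (words_mem HeB.el s3) fun w hw => gensub_le_of_subsIn HeB.el (by decide) (mem0 w hw)) (by decide +kernel)) fin3)
theorem fin2 : Finite (gensub (byW HeB.el s2) 4) ∧ Nat.card (gensub (byW HeB.el s2) 4) ≤ 120 :=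
  fin_cast (cov2.card_le finT2) (by decide)
theorem finT1 : Finite (gensub (byW HeB.el t1) 4) ∧ Nat.card (gensub (byW HeB.el t1) 4) ≤ 120 := (fin_le (gensub_le_of_subsIn HeB.el (by decide)) fin2)
theorem fin1 : Finite (gensub (byW HeB.el s1) 6) ∧ Nat.card (gensub (byW HeB.el s1) 6) ≤ 80640 :=
  fin_cast (cov1.card_le finT1) (by decide)
theorem finT0 : Finite (gensub (byW HeB.el t0) 6) ∧ Nat.card (gensub (byW HeB.el t0) 6) ≤ 80640 := (fin_le (gensub_le_of_subsIn HeB.el (by decide)) fin1)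
theorem fin0 : Finite (gensub (byW HeB.el s0) 7) ∧ Nat.card (gensub (byW HeB.el s0) 7) ≤ 4030387200 :=
  fin_cast (cov0.card_le finT0) (by decide)
theorem finG : Finite HeB.G ∧ Nat.card HeB.G ≤ 4030387200 := fin_top (top0 ▸ fin0)
end CfH6.HeO
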