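import Cfsg.Agent.OD.Pre
import Cfsg.Agent.H6.HeA
import Cfsg.Agent.H6.HeK
import Cfsg.Agent.H6.HeO
import Cfsg.Agent.H6.HeO2
/-! The presented group He: order, simplicity, primitive action. -/
set_option autoImplicit false
set_option maxRecDepth 100000
namespace CfH6.HeG
open CfH6 MulAction Cfsg.Spor
attribute [local instance] HeA.act

theorem stab : HeA.H = stabilizer HeB.G 0 ∧ HeA.H.index = 2058 := HeA.stab HeO2.covT0

theorem card : Nat.card HeB.G = 4030387200 := (HeA.top HeO.finG).1

theorem base : ∀ g : HeB.G, (∀ b ∈ HeA.bs, g • b = b) → g = 1 := (HeA.top HeO.finG).2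

theorem simple : IsSimpleGroup HeB.G := by
  have := HeO.finG.1
  refine simple_of stab.1 (by rw [stab.2]; decide) (HeA.hmax stab.1 stab.2) base HeA.hbs fun M hM h => ?_
  exact top_of_index (eq_top_of_collapse HeB.el (n := 4) HeB.hinv HeB.hrel HeB.htop M
    (pow_words HeB.el h (by norm_num) (not_dvd_card card stab.2 (by decide)) 1 HeA.ex (HeA.hex base))
    (by decide +kernel) 1 fun ev' h1 h2 => HeK.covers ev' ⊥ h1 h2 forall_nil)

theorem sub_eq : (Subgroup.closure ({He.a, He.c, He.d, He.e, He.f, (He.a * He.b) ^ 2, (He.b * He.c * He.d * He.e) ^ 7} : Set (FreeGroup He.Gen))).map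
    (PresentedGroup.mk (coxRelators He.edges ∪ {r | r ∈ He.extra})) = HeA.H :=
  map_closure_eq _ HeB.el HeB.hinv HeB.tr HeB.hmk _ [He.a, He.c, He.d, He.e, He.f, (He.a * He.b) ^ 2, (He.b * He.c * He.d * He.e) ^ 7]
    (by intro r; simp) (by decide) (by decide +kernel)

end CfH6.HeG
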