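import Cfsg.Agent.OD.Pre
import Cfsg.Agent.H6.J3B
import Cfsg.Agent.H6.J3T1
import Cfsg.Agent.H6.J3T2
set_option autoImplicit false
set_option maxRecDepth 100000
set_option linter.all false
namespace CfH6.J3O
open CfH6
def s0 : List (List ℕ) := [[0], [1], [2], [3], [4], [5], [6], [7], [8], [9], [10], [11], [12]]
def t0 : List (List ℕ) := [[0], [1], [2], [3], [4], [5], [6], [7], [8]]
theorem cov0 : Covers (gensub (byW J3B.el t0) 9) (gensub (byW J3B.el s0) 13) 26163 :=
  cov_step J3B.el J3B.hinv J3B.hrel s0 t0 9 4 (fun ev H => J3T1.covers ev H) (by decide +kernel)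
theorem top0 : gensub (byW J3B.el s0) 13 = ⊤ := (gensub_id J3B.el (by decide)).trans J3B.htop
theorem covT0 : Covers (gensub (byW J3B.el t0) 9) ⊤ 26163 := cov0.top top0
def s1 : List (List ℕ) := [[0], [1], [2], [3], [4], [5], [6], [7], [8], [9]]
def t1 : List (List ℕ) := []
theorem cov1 : Covers (gensub (byW J3B.el t1) 0) (gensub (byW J3B.el s1) 10) 1920 :=
  cov_step J3B.el J3B.hinv J3B.hrel s1 t1 0 4 (fun ev H => J3T2.covers ev H) (by decide +kernel)
theorem finT1 : Finite (gensub (byW J3B.el t1) 0) ∧ Nat.card (gensub (byW J3B.el t1) 0) ≤ 1 := (gensub_zero _)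
theorem fin1 : Finite (gensub (byW J3B.el s1) 10) ∧ Nat.card (gensub (byW J3B.el s1) 10) ≤ 1920 :=
  fin_cast (cov1.card_le finT1) (by decide)
theorem finT0 : Finite (gensub (byW J3B.el t0) 9) ∧ Nat.card (gensub (byW J3B.el t0) 9) ≤ 1920 := (fin_le (gensub_le_of_subsIn J3B.el (by decide)) fin1)
theorem fin0 : Finite (gensub (byW J3B.el s0) 13) ∧ Nat.card (gensub (byW J3B.el s0) 13) ≤ 50232960 :=
  fin_cast (cov0.card_le finT0) (by decide)
theorem finG : Finite J3B.G ∧ Nat.card J3B.G ≤ 50232960 := fin_top (top0 ▸ fin0)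
end CfH6.J3O
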