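import Cfsg.Agent.OD.Pre
import Cfsg.Agent.H6.J3B
import Cfsg.Agent.H6.J3T3
set_option autoImplicit false
set_option maxRecDepth 100000
set_option linter.all false
namespace CfH6.J3O2
open CfH6
def s0 : List (List ℕ) := [[0], [1], [2], [3], [4], [5], [6], [7], [8], [9], [10], [11], [12]]
def t0 : List (List ℕ) := [[0], [5], [6], [4, 6, 4], [12, 7, 12]]
theorem cov0 : Covers (gensub (byW J3B.el t0) 5) (gensub (byW J3B.el s0) 13) 6156 :=
  cov_step J3B.el J3B.hinv J3B.hrel s0 t0 5 4 (fun ev H => J3T3.covers ev H) (by decide +kernel)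
theorem top0 : gensub (byW J3B.el s0) 13 = ⊤ := (gensub_id J3B.el (by decide)).trans J3B.htop
theorem covT0 : Covers (gensub (byW J3B.el t0) 5) ⊤ 6156 := cov0.top top0
end CfH6.J3O2
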