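import Cfsg.Agent.OD.Pre
import Cfsg.Agent.H6.J3A
import Cfsg.Agent.H6.J3K
import Cfsg.Agent.H6.J3O
import Cfsg.Agent.H6.J3O2
/-! An abstract presentation: order and simplicity. -/
set_option autoImplicit false
set_option maxRecDepth 100000
namespace CfH6.J3G
open CfH6 MulAction
attribute [local instance] J3A.act

theorem stab : J3A.H = stabilizer J3B.G 0 ∧ J3A.H.index = 6156 := J3A.stab J3O2.covT0

theorem card : Nat.card J3B.G = 50232960 := (J3A.top J3O.finG).1

theorem base : ∀ g : J3B.G, (∀ b ∈ J3A.bs, g • b = b) → g = 1 := (J3A.top J3O.finG).2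

theorem simple : IsSimpleGroup J3B.G := by
  have := J3O.finG.1
  refine simple_of stab.1 (by rw [stab.2]; decide) (J3A.hmax stab.1 stab.2) base J3A.hbs fun M hM h => ?_
  exact top_of_index (eq_top_of_collapse J3B.el (n := 4) J3B.hinv J3B.hrel J3B.htop M
    (pow_words J3B.el h (by norm_num) (not_dvd_card card stab.2 (by decide)) 1 J3A.ex (J3A.hex base))
    (by decide +kernel) 1 fun ev' h1 h2 => J3K.covers ev' ⊥ h1 h2 forall_nil)

theorem nprime : ¬ (Nat.card J3B.G).Prime := by rw [card]; norm_num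

end CfH6.J3G
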