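import Cfsg.Agent.OD.Pre
import Cfsg.Agent.H6.L7B
import Cfsg.Agent.H6.L7A.P0
set_option autoImplicit false
set_option maxRecDepth 100000
set_option Elab.async false
set_option linter.all false
namespace CfH6.L7A
open CfH6 MulAction
theorem eq0 : ∀ e ∈ eqs0, evw (lp nets0) e.1 = evw (lp nets0) e.2 :=
  EqsOk.sound (e0_0) ok0 (by decide)
theorem eqAll : ∀ e ∈ eqs, evw (lp nets0) e.1 = evw (lp nets0) e.2 := eq0
theorem hsd : (∀ x < 12, lp nets0 (L7B.il.getD x 0) = (lp nets0 x)⁻¹) ∧ ∀ r ∈ eqRels L7B.il sig eqs, evw (lp nets0) r = 1 :=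
  eqRels_sound (lp nets0) (k := 12) (by decide +kernel) eqAll
theorem exRho : ∃ ρ : L7B.G →* Equiv.Perm ℕ, ∀ x < 12, ρ (L7B.el x) = lp nets0 x :=
  L7B.hhom _ hsd.1 (follows_sound (n := 4) _ hsd.1 hsd.2 (by decide +kernel))
noncomputable def rho : L7B.G →* Equiv.Perm ℕ := Classical.choose exRho
@[reducible] noncomputable def act : MulAction L7B.G ℕ := MulAction.compHom ℕ rho
attribute [local instance] act
theorem L0 : Lvl 80 nets0 12 L7B.el := lvl0 rho ok0 (Classical.choose_spec exRho)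
noncomputable abbrev el1 : ℕ → L7B.G := byW L7B.el ws1
theorem L1 : Lvl 80 nets1 5 el1 := L0.next sx1 (x1_0)
noncomputable abbrev el2 : ℕ → L7B.G := byW el1 ws2
theorem L2 : Lvl 64 nets2 3 el2 := L1.next sx2 (x2_0)
noncomputable abbrev el3 : ℕ → L7B.G := byW el2 ws3
theorem L3 : Lvl 16 nets3 2 el3 := L2.next sx3 (x3_0)
noncomputable abbrev H : Subgroup L7B.G := gensub el1 5
theorem fix0 : H ≤ stabilizer L7B.G 0 := L1.fix' 0 (by decide +kernel)
theorem cU : (bitSet U).ncard = 57 := ncard_ivls lU _ (by decide +kernel)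
theorem oi1 : OrbIn (gensub el1 5) 1 80 S1 :=
  (L1.orbStep (OrbIn.one _ (by decide)) 15 S1 oi1_0)
theorem o1 : orbit H 1 = bitSet S1 := L1.orbEq oi1 ci1
theorem c1 : (bitSet S1).ncard = 56 := ncard_ivls l1 _ (by decide +kernel)
theorem hJ : ∀ j ∈ J, orbit H j.2.1 = bitSet j.2.2 := (forall_cons o1 forall_nil)
theorem subU : bitSet U ⊆ orbit (⊤ : Subgroup L7B.G) 0 := L0.sub_top J hJ U (by decide +kernel)
theorem q1 (hH : H = stabilizer L7B.G 0) : (orbit H ((evw L7B.el w1 : L7B.G) : L7B.G ⧸ H)).ncard = 56 :=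
  L0.quot hH w1 o1 c1 (by decide +kernel)
theorem orbTop : OrbGe (⊤ : Subgroup L7B.G) 0 57 := orbGe_of_sub subU cU
theorem stab (hc : Covers H ⊤ 57) : H = stabilizer L7B.G 0 ∧ H.index = 57 := stab_eq hc fix0 orbTop
theorem mx1 (hH : H = stabilizer L7B.G 0) (hN : H.index = 57) : Mx H S1 :=
  L0.mx hH hN w1 o1 J1 (forall_cons o1 forall_nil) lBig cm1
theorem hmax (hH : H = stabilizer L7B.G 0) (hN : H.index = 57) : ∀ L : Subgroup L7B.G, H ≤ L → L = H ∨ L = ⊤ :=
  coatom_of hH (Mx.lorJ J (forall_cons (mx1 hH hN) forall_nil)) (orbit_sub_of_card hH hN (by decide) subU cU) (by decide +kernel)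
theorem low3 : Low (gensub el3 2) [3] 12 :=
  (Low.cons bot_le bot_le (L3.orbGe 3 10 4 12 (by decide) (by decide) og3) (Low.nil ⊥)).cast (by decide)
theorem low2 : Low (gensub el2 3) [2, 3] 588 :=
  (Low.step' L3 (L2.orbGe 2 9 6 49 (by decide) (by decide) og2) (by decide +kernel) low3).cast (by decide)
theorem low1 : Low (gensub el1 5) [1, 2, 3] 32928 :=
  (Low.step' L2 (orbGe_of_eq o1 c1) (by decide +kernel) low2).cast (by decide)
theorem low0 : Low (gensub L7B.el 12) [0, 1, 2, 3] 1876896 :=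
  (Low.step' L1 (L7B.htop ▸ orbTop) (by decide +kernel) low1).cast (by decide)
def bs : List ℕ := [0, 1, 2, 3]
theorem hbs : ∀ b ∈ bs, b ∈ orbit L7B.G 0 := base_mem subU bs (by decide +kernel)
theorem top (hf : Finite L7B.G ∧ Nat.card L7B.G ≤ 1876896) : Nat.card L7B.G = 1876896 ∧ ∀ g : L7B.G, (∀ b ∈ bs, g • b = b) → g = 1 := low0.top hf
theorem hex (hb : ∀ g : L7B.G, (∀ b ∈ bs, g • b = b) → g = 1) : ∀ w ∈ ex, evw L7B.el (wpow w (19 ^ 1)) = 1 := (forall_cons (L0.word_one hb _ pw0) forall_nil)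
end CfH6.L7A
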