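import Cfsg.Agent.OD.Pre
import Cfsg.Agent.H6.L7B
import Cfsg.Agent.H6.L7T1
import Cfsg.Agent.H6.L7T2
import Cfsg.Agent.H6.L7T3
import Cfsg.Agent.H6.L7T4
set_option autoImplicit false
set_option maxRecDepth 100000
set_option linter.all false
namespace CfH6.L7O
open CfH6
def s0 : List (List ℕ) := [[0], [1], [2], [3], [4], [5], [6], [7], [8], [9], [10], [11]]
def t0 : List (List ℕ) := [[0], [2], [4], [6]]
theorem cov0 : Covers (gensub (byW L7B.el t0) 4) (gensub (byW L7B.el s0) 12) 114 :=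
  cov_step L7B.el L7B.hinv L7B.hrel s0 t0 4 4 (fun ev H => L7T1.covers ev H) (by decide +kernel)
theorem top0 : gensub (byW L7B.el s0) 12 = ⊤ := (gensub_id L7B.el (by decide)).trans L7B.htop
theorem covT0 : Covers (gensub (byW L7B.el t0) 4) ⊤ 114 := cov0.top top0
def s1 : List (List ℕ) := [[0], [1], [2], [3], [4], [5], [6], [7]]
def t1 : List (List ℕ) := [[4], [6]]
theorem cov1 : Covers (gensub (byW L7B.el t1) 2) (gensub (byW L7B.el s1) 8) 49 :=
  cov_step L7B.el L7B.hinv L7B.hrel s1 t1 2 4 (fun ev H => L7T2.covers ev H) (by decide +kernel)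
def s2 : List (List ℕ) := [[4], [5], [6], [7]]
def t2 : List (List ℕ) := [[4]]
theorem cov2 : Covers (gensub (byW L7B.el t2) 1) (gensub (byW L7B.el s2) 4) 48 :=
  cov_step L7B.el L7B.hinv L7B.hrel s2 t2 1 4 (fun ev H => L7T3.covers ev H) (by decide +kernel)
def s3 : List (List ℕ) := [[4], [5]]
def t3 : List (List ℕ) := []
theorem cov3 : Covers (gensub (byW L7B.el t3) 0) (gensub (byW L7B.el s3) 2) 7 :=
  cov_step L7B.el L7B.hinv L7B.hrel s3 t3 0 4 (fun ev H => L7T4.covers ev H) (by decide +kernel)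
theorem finT3 : Finite (gensub (byW L7B.el t3) 0) ∧ Nat.card (gensub (byW L7B.el t3) 0) ≤ 1 := (gensub_zero _)
theorem fin3 : Finite (gensub (byW L7B.el s3) 2) ∧ Nat.card (gensub (byW L7B.el s3) 2) ≤ 7 :=
  fin_cast (cov3.card_le finT3) (by decide)
theorem finT2 : Finite (gensub (byW L7B.el t2) 1) ∧ Nat.card (gensub (byW L7B.el t2) 1) ≤ 7 := (fin_le (gensub_le_of_subsIn L7B.el (by decide)) fin3)
theorem fin2 : Finite (gensub (byW L7B.el s2) 4) ∧ Nat.card (gensub (byW L7B.el s2) 4) ≤ 336 :=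
  fin_cast (cov2.card_le finT2) (by decide)
theorem finT1 : Finite (gensub (byW L7B.el t1) 2) ∧ Nat.card (gensub (byW L7B.el t1) 2) ≤ 336 := (fin_le (gensub_le_of_subsIn L7B.el (by decide)) fin2)
theorem fin1 : Finite (gensub (byW L7B.el s1) 8) ∧ Nat.card (gensub (byW L7B.el s1) 8) ≤ 16464 :=
  fin_cast (cov1.card_le finT1) (by decide)
theorem finT0 : Finite (gensub (byW L7B.el t0) 4) ∧ Nat.card (gensub (byW L7B.el t0) 4) ≤ 16464 := (fin_le (gensub_le_of_subsIn L7B.el (by decide)) fin1)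
theorem fin0 : Finite (gensub (byW L7B.el s0) 12) ∧ Nat.card (gensub (byW L7B.el s0) 12) ≤ 1876896 :=
  fin_cast (cov0.card_le finT0) (by decide)
theorem finG : Finite L7B.G ∧ Nat.card L7B.G ≤ 1876896 := fin_top (top0 ▸ fin0)
end CfH6.L7O
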