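import Cfsg.Agent.OD.Pre
import Cfsg.Agent.H6.L7A
import Cfsg.Agent.H6.L7K
import Cfsg.Agent.H6.L7O
import Cfsg.Agent.H6.L7O2
/-! An abstract presentation: order and simplicity. -/
set_option autoImplicit false
set_option maxRecDepth 100000
namespace CfH6.L7G
open CfH6 MulAction
attribute [local instance] L7A.act

theorem stab : L7A.H = stabilizer L7B.G 0 ∧ L7A.H.index = 57 := L7A.stab L7O2.covT0

theorem card : Nat.card L7B.G = 1876896 := (L7A.top L7O.finG).1

theorem base : ∀ g : L7B.G, (∀ b ∈ L7A.bs, g • b = b) → g = 1 := (L7A.top L7O.finG).2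

theorem simple : IsSimpleGroup L7B.G := by
  have := L7O.finG.1
  refine simple_of stab.1 (by rw [stab.2]; decide) (L7A.hmax stab.1 stab.2) base L7A.hbs fun M hM h => ?_
  exact top_of_index (eq_top_of_collapse L7B.el (n := 4) L7B.hinv L7B.hrel L7B.htop M
    (pow_words L7B.el h (by norm_num) (not_dvd_card card stab.2 (by decide)) 1 L7A.ex (L7A.hex base))
    (by decide +kernel) 1 fun ev' h1 h2 => L7K.covers ev' ⊥ h1 h2 forall_nil)

theorem nprime : ¬ (Nat.card L7B.G).Prime := by rw [card]; norm_num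

end CfH6.L7G
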