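import Cfsg.Agent.OD.Pre
import Cfsg.Agent.H6.L8B
import Cfsg.Agent.H6.ONT2
import Cfsg.Agent.H6.ONT3
import Cfsg.Agent.H6.ONT4
set_option autoImplicit false
set_option maxRecDepth 100000
set_option linter.all false
namespace CfH6.L8O
open CfH6
def s0 : List (List ℕ) := [[0], [1], [2], [3], [4], [5]]
def t0 : List (List ℕ) := [[0], [1], [2], [3], [5]]
theorem cov0 : Covers (gensub (byW L8B.el t0) 5) (gensub (byW L8B.el s0) 6) 5586 :=
  cov_step L8B.el L8B.hinv L8B.hrel s0 t0 5 4 (fun ev H => ONT2.covers ev H) (by decide +kernel)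
theorem top0 : gensub (byW L8B.el s0) 6 = ⊤ := (gensub_id L8B.el (by decide)).trans L8B.htop
theorem covT0 : Covers (gensub (byW L8B.el t0) 5) ⊤ 5586 := cov0.top top0
def s1 : List (List ℕ) := [[0], [1], [2], [3], [5]]
def t1 : List (List ℕ) := [[2], [3]]
theorem cov1 : Covers (gensub (byW L8B.el t1) 2) (gensub (byW L8B.el s1) 5) 42 :=
  cov_step L8B.el L8B.hinv L8B.hrel s1 t1 2 4 (fun ev H => ONT3.covers ev H) (by decide +kernel)
def s2 : List (List ℕ) := [[2], [3]]
def t2 : List (List ℕ) := []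
theorem cov2 : Covers (gensub (byW L8B.el t2) 0) (gensub (byW L8B.el s2) 2) 16 :=
  cov_step L8B.el L8B.hinv L8B.hrel s2 t2 0 4 (fun ev H => ONT4.covers ev H) (by decide +kernel)
theorem finT2 : Finite (gensub (byW L8B.el t2) 0) ∧ Nat.card (gensub (byW L8B.el t2) 0) ≤ 1 := (gensub_zero _)
theorem fin2 : Finite (gensub (byW L8B.el s2) 2) ∧ Nat.card (gensub (byW L8B.el s2) 2) ≤ 16 :=
  fin_cast (cov2.card_le finT2) (by decide)
theorem finT1 : Finite (gensub (byW L8B.el t1) 2) ∧ Nat.card (gensub (byW L8B.el t1) 2) ≤ 16 := (fin_le (gensub_le_of_subsIn L8B.el (by decide)) fin2)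
theorem fin1 : Finite (gensub (byW L8B.el s1) 5) ∧ Nat.card (gensub (byW L8B.el s1) 5) ≤ 672 :=
  fin_cast (cov1.card_le finT1) (by decide)
theorem finT0 : Finite (gensub (byW L8B.el t0) 5) ∧ Nat.card (gensub (byW L8B.el t0) 5) ≤ 672 := (fin_le (gensub_le_of_subsIn L8B.el (by decide)) fin1)
theorem fin0 : Finite (gensub (byW L8B.el s0) 6) ∧ Nat.card (gensub (byW L8B.el s0) 6) ≤ 3753792 :=
  fin_cast (cov0.card_le finT0) (by decide)
theorem finG : Finite L8B.G ∧ Nat.card L8B.G ≤ 3753792 := fin_top (top0 ▸ fin0)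
end CfH6.L8O
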