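import Cfsg.Agent.OD.Pre
import Cfsg.Agent.H6.Top2
set_option autoImplicit false
set_option maxRecDepth 100000
set_option Elab.async false
set_option linter.all false
namespace CfH6.ONB
open CfH6 MulAction
def gl : List Cfsg.Spor.ON.Gen := [.g, .a, .b, .c, .d, .e, .f]
def il : List ℕ := [1, 0, 2, 3, 4, 5, 6, 7]
def cs : List (List ℕ) := [[0],
  [1],
  [2],
  [4],
  [6],
  [8],
  [10],
  [12]]
def cf : List (List ℕ) := [[0],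
  [1],
  [2],
  [2],
  [3],
  [3],
  [4],
  [4],
  [5],
  [5],
  [6],
  [6],
  [7],
  [7]]
def rels : List (List ℕ) := [[2, 3, 2, 3, 2, 3],
  [2, 4, 2, 4],
  [2, 5, 2, 5],
  [2, 6, 2, 6],
  [2, 7, 2, 7],
  [3, 4, 3, 4, 3, 4],
  [3, 5, 3, 5],
  [3, 6, 3, 6],
  [3, 7, 3, 7],
  [4, 5, 4, 5, 4, 5, 4, 5, 4, 5, 4, 5, 4, 5, 4, 5],
  [4, 6, 4, 6],
  [4, 7, 4, 7],
  [5, 6, 5, 6, 5, 6],
  [5, 7, 5, 7],
  [6, 7, 6, 7, 6, 7],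
  [2, 7, 1, 1],
  [2, 7, 5, 4, 5, 4, 5, 4, 5, 4],
  [4, 1, 5, 1, 5, 4, 5, 0, 5, 0],
  [5, 1, 4, 1, 4, 5, 4, 0, 4, 0],
  [3, 4, 5, 0, 3, 4, 5, 0, 3, 4, 5, 0, 3, 4, 5, 0, 3, 4, 5, 0],
  [0, 3, 4, 0, 4, 3, 0, 3, 4, 0, 4],
  [0, 6, 5, 0, 5, 6, 0, 6, 5, 0, 5]]
theorem hgl : ∀ a, a ∈ gl := by intro a; cases a <;> decide
theorem hnd : gl.Nodup := by decide
theorem side : sideP Cfsg.Spor.ON.edges Cfsg.Spor.ON.extra gl 8 il cs cf rels 4 = true := by decide +kernel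
abbrev G : Type := Cfsg.Spor.CoxPresented Cfsg.Spor.ON.Gen Cfsg.Spor.ON.edges Cfsg.Spor.ON.extra
noncomputable def el : ℕ → G := colP Cfsg.Spor.ON.edges Cfsg.Spor.ON.extra gl cs
theorem hinv : ∀ x < 8, el (il.getD x 0) = (el x)⁻¹ := (colP_spec Cfsg.Spor.ON.edges Cfsg.Spor.ON.extra gl hgl hnd side).1
theorem hrel : ∀ r ∈ rels, evw el r = 1 := (colP_spec Cfsg.Spor.ON.edges Cfsg.Spor.ON.extra gl hgl hnd side).2.1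
def tr (r : FreeGroup Cfsg.Spor.ON.Gen) : List ℕ := subst cf (rawW gl r)
theorem hmk : ∀ r, PresentedGroup.mk _ r = evw el (tr r) := (colP_spec Cfsg.Spor.ON.edges Cfsg.Spor.ON.extra gl hgl hnd side).2.2.1
theorem htop : gensub el 8 = ⊤ := (colP_spec Cfsg.Spor.ON.edges Cfsg.Spor.ON.extra gl hgl hnd side).2.2.2.1
theorem hhom {Γ : Type} [Group Γ] (ev : ℕ → Γ) (h1 : ∀ x < 8, ev (il.getD x 0) = (ev x)⁻¹) (h2 : ∀ r ∈ rels, evw ev r = 1) :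
    ∃ ρ : G →* Γ, ∀ x < 8, ρ (el x) = ev x := (colP_spec Cfsg.Spor.ON.edges Cfsg.Spor.ON.extra gl hgl hnd side).2.2.2.2 ev h1 h2
end CfH6.ONB
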