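import Cfsg.Agent.OD.Pre
import Cfsg.Agent.H6.TCTop
import Cfsg.Agent.H6.ONT1.C
import Cfsg.Agent.H6.ONT1.P0
import Cfsg.Agent.H6.ONT1.P1
import Cfsg.Agent.H6.ONT1.P2
import Cfsg.Agent.H6.ONT1.P3
import Cfsg.Agent.H6.ONT1.P4
/-! coset enumeration certificate; generators g a b c d e f ; index 122760 -/
set_option autoImplicit false
set_option maxRecDepth 100000
set_option Elab.async false
set_option linter.all false
namespace CfH6.ONT1
open CfH6
theorem covers {G : Type*} [Group G] (ev : ℕ → G) (H : Subgroup G)
    (hinv : ∀ x < 8, ev (il.getD x 0) = (ev x)⁻¹) (hr : ∀ r ∈ rels, evw ev r = 1)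
    (hs : ∀ s ∈ subs, evw ev s ∈ H) : Covers H (gensub ev 8) 122760 :=
  C.sound il rels subs 8 122760 valid (((((((((((((((((((((((((((((((((((((((((((((((((((((((((((((((((((p0).trans p1).trans p2).trans p3).trans p4).trans p5).trans p6).trans p7).trans p8).trans p9).trans p10).trans p11).trans p12).trans p13).trans p14).trans p15).trans p16).trans p17).trans p18).trans p19).trans p20).trans p21).trans p22).trans p23).trans p24).trans p25).trans p26).trans p27).trans p28).trans p29).trans p30).trans p31).trans p32).trans p33).trans p34).trans p35).trans p36).trans p37).trans p38).trans p39).trans p40).trans p41).trans p42).trans p43).trans p44).trans p45).trans p46).trans p47).trans p48).trans p49).trans p50).trans p51).trans p52).trans p53).trans p54).trans p55).trans p56).trans p57).trans p58).trans p59).trans p60).trans p61).trans p62).trans p63).trans p64).trans p65).trans p66) (((((((((((((((((((((((((((((((p67).trans p68).trans p69).trans p70).trans p71).trans p72).trans p73).trans p74).trans p75).trans p76).trans p77).trans p78).trans p79).trans p80).trans p81).trans p82).trans p83).trans p84).trans p85).trans p86).trans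 p87).trans p88).trans p89).trans p90).trans p91).trans p92).trans p93).trans p94).trans p95).trans p96).trans p97) (by decide) (by decide) ev H hinv hr hs
end CfH6.ONT1
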