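import Cfsg.Agent.OD.Pre
import Cfsg.Agent.H6.ONB
import Cfsg.Agent.H6.ONT1
import Cfsg.Agent.H6.ONT2
import Cfsg.Agent.H6.ONT3
import Cfsg.Agent.H6.ONT4
set_option autoImplicit false
set_option maxRecDepth 100000
set_option linter.all false
namespace CfH6.ONO
open CfH6
def s0 : List (List ℕ) := [[0], [1], [2], [3], [4], [5], [6], [7]]
def t0 : List (List ℕ) := [[2], [3], [4], [5], [6], [7]]
theorem cov0 : Covers (gensub (byW ONB.el t0) 6) (gensub (byW ONB.el s0) 8) 122760 :=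
  cov_step ONB.el ONB.hinv ONB.hrel s0 t0 6 4 (fun ev H => ONT1.covers ev H) (by decide +kernel)
theorem top0 : gensub (byW ONB.el s0) 8 = ⊤ := (gensub_id ONB.el (by decide)).trans ONB.htop
theorem covT0 : Covers (gensub (byW ONB.el t0) 6) ⊤ 122760 := cov0.top top0
def s1 : List (List ℕ) := [[2], [3], [4], [5], [6], [7]]
def t1 : List (List ℕ) := [[2], [3], [4], [5], [7]]
theorem cov1 : Covers (gensub (byW ONB.el t1) 5) (gensub (byW ONB.el s1) 6) 5586 :=
  cov_step ONB.el ONB.hinv ONB.hrel s1 t1 5 4 (fun ev H => ONT2.covers ev H) (by decide +kernel)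
def s2 : List (List ℕ) := [[2], [3], [4], [5], [7]]
def t2 : List (List ℕ) := [[4], [5]]
theorem cov2 : Covers (gensub (byW ONB.el t2) 2) (gensub (byW ONB.el s2) 5) 42 :=
  cov_step ONB.el ONB.hinv ONB.hrel s2 t2 2 4 (fun ev H => ONT3.covers ev H) (by decide +kernel)
def s3 : List (List ℕ) := [[4], [5]]
def t3 : List (List ℕ) := []
theorem cov3 : Covers (gensub (byW ONB.el t3) 0) (gensub (byW ONB.el s3) 2) 16 :=
  cov_step ONB.el ONB.hinv ONB.hrel s3 t3 0 4 (fun ev H => ONT4.covers ev H) (by decide +kernel)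
theorem finT3 : Finite (gensub (byW ONB.el t3) 0) ∧ Nat.card (gensub (byW ONB.el t3) 0) ≤ 1 := (gensub_zero _)
theorem fin3 : Finite (gensub (byW ONB.el s3) 2) ∧ Nat.card (gensub (byW ONB.el s3) 2) ≤ 16 :=
  fin_cast (cov3.card_le finT3) (by decide)
theorem finT2 : Finite (gensub (byW ONB.el t2) 2) ∧ Nat.card (gensub (byW ONB.el t2) 2) ≤ 16 := (fin_le (gensub_le_of_subsIn ONB.el (by decide)) fin3)
theorem fin2 : Finite (gensub (byW ONB.el s2) 5) ∧ Nat.card (gensub (byW ONB.el s2) 5) ≤ 672 :=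
  fin_cast (cov2.card_le finT2) (by decide)
theorem finT1 : Finite (gensub (byW ONB.el t1) 5) ∧ Nat.card (gensub (byW ONB.el t1) 5) ≤ 672 := (fin_le (gensub_le_of_subsIn ONB.el (by decide)) fin2)
theorem fin1 : Finite (gensub (byW ONB.el s1) 6) ∧ Nat.card (gensub (byW ONB.el s1) 6) ≤ 3753792 :=
  fin_cast (cov1.card_le finT1) (by decide)
theorem finT0 : Finite (gensub (byW ONB.el t0) 6) ∧ Nat.card (gensub (byW ONB.el t0) 6) ≤ 3753792 := (fin_le (gensub_le_of_subsIn ONB.el (by decide)) fin1)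
theorem fin0 : Finite (gensub (byW ONB.el s0) 8) ∧ Nat.card (gensub (byW ONB.el s0) 8) ≤ 460815505920 :=
  fin_cast (cov0.card_le finT0) (by decide)
theorem finG : Finite ONB.G ∧ Nat.card ONB.G ≤ 460815505920 := fin_top (top0 ▸ fin0)
end CfH6.ONO
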