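import Cfsg.Agent.OD.Pre
import Cfsg.Agent.H6.ONA
import Cfsg.Agent.H6.ONK
import Cfsg.Agent.H6.ONO
/-! The presented group ON: order, simplicity, primitive action. -/
set_option autoImplicit false
set_option maxRecDepth 100000
namespace CfH6.ONG
open CfH6 MulAction Cfsg.Spor
attribute [local instance] ONA.act

theorem stab : ONA.H = stabilizer ONB.G 0 ∧ ONA.H.index = 122760 := ONA.stab ONO.covT0

theorem card : Nat.card ONB.G = 460815505920 := (ONA.top ONO.finG).1

theorem base : ∀ g : ONB.G, (∀ b ∈ ONA.bs, g • b = b) → g = 1 := (ONA.top ONO.finG).2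

theorem simple : IsSimpleGroup ONB.G := by
  have := ONO.finG.1
  refine simple_of stab.1 (by rw [stab.2]; decide) (ONA.hmax stab.1 stab.2) base ONA.hbs fun M hM h => ?_
  exact top_of_index (eq_top_of_collapse ONB.el (n := 4) ONB.hinv ONB.hrel ONB.htop M
    (pow_words ONB.el h (by norm_num) (not_dvd_card card stab.2 (by decide)) 1 ONA.ex (ONA.hex base))
    (by decide +kernel) 1 fun ev' h1 h2 => ONK.covers ev' ⊥ h1 h2 forall_nil)

theorem sub_eq : (Subgroup.closure ({ON.a, ON.b, ON.c, ON.d, ON.e, ON.f} : Set (FreeGroup ON.Gen))).map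
    (PresentedGroup.mk (coxRelators ON.edges ∪ {r | r ∈ ON.extra})) = ONA.H :=
  map_closure_eq _ ONB.el ONB.hinv ONB.tr ONB.hmk _ [ON.a, ON.b, ON.c, ON.d, ON.e, ON.f]
    (by intro r; simp) (by decide) (by decide +kernel)

end CfH6.ONG
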