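import Cfsg.Agent.OD.Pre
import Cfsg.Agent.H6.L7G
import Cfsg.Agent.H6.ONG
import Cfsg.Agent.H6.L8A
import Cfsg.Agent.H6.L8O
import Cfsg.Agent.H6.Iso3
import Cfsg.Agent.H6.Ord
/-! `PSL₃(7)` inside the O'Nan group. -/
set_option autoImplicit false
set_option maxRecDepth 100000
namespace CfH6.L7M
open CfH6 Matrix
attribute [local instance] ONA.act L8A.act

abbrev PM : MP := ⟨3, 14, 7, 3, 4, 147, 10, 0, 0⟩
def ms : List ℕ := [5192296858534827700588090367164417, 5192296858534827700588090367246337, 5192296858534827700588090635583489, 5192296858534827700588091977760769, 5192296858536008292208807778451457, 5192296858541911250312394834968577, 5192613771184884757938464542949377, 5194198334435170044690335421956097, 5192296858534827700592488413659137, 5192296858534827700614478646214657, 5192296877877640814422157162446849, 5192296974591706383592491138940929]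
def sc : List ℕ := [5192296858534827700588090367148033, 10384593717069655401176180734296066, 20769187434139310802352361468592132]
def σ : List (List ℕ) := [[4, 3, 1, 2, 3, 4, 1, 2, 3, 2, 1, 0, 1, 3, 2, 4, 1, 3, 2, 4, 0, 1, 2, 3, 2, 1, 4, 3, 2, 1, 3, 4], [4, 3, 1, 2, 3, 4, 1, 2, 3, 2, 1, 0, 4, 2, 3, 1, 4, 2, 3, 1, 0, 1, 2, 3, 2, 1, 4, 3, 2, 1, 3, 4], [3, 2, 3, 4, 1, 2, 3, 2, 1, 0, 1, 3, 2, 4, 1, 3, 2, 4, 0, 1, 2, 3, 2, 1, 4, 3, 2, 3], [3, 2, 3, 4, 1, 2, 3, 2, 1, 0, 4, 2, 3, 1, 4, 2, 3, 1, 0, 1, 2, 3, 2, 1, 4, 3, 2, 3], [1, 3, 2, 4, 1, 3, 2, 4], [4, 2, 3, 1, 4, 2, 3, 1], [4, 3, 2, 4, 1, 3, 2, 4, 1, 4], [4, 1, 4, 2, 3, 1, 4, 2, 3, 4], [2, 3, 2, 3, 1, 2, 3, 4, 5, 0, 1, 3, 2, 4, 1, 3, 2, 4, 0, 5, 4, 3, 2, 1, 3, 2, 3, 2], [2, 3, 2, 3, 1, 2, 3, 4, 5, 0, 4, 2, 3, 1, 4, 2, 3, 1, 0, 5, 4, 3, 2, 1, 3, 2, 3, 2], [4, 2, 3, 0, 1, 2, 3, 4, 5, 1, 2, 0, 1, 3, 2, 4, 1, 3, 2, 4, 0, 2, 1, 5, 4,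 3, 2, 1, 0, 3, 2, 4], [4, 2, 3, 0, 1, 2, 3, 4, 5, 1, 2, 0, 4, 2, 3, 1, 4, 2, 3, 1, 0, 2, 1, 5, 4, 3, 2, 1, 0, 3, 2, 4]]
noncomputable abbrev sem : ℕ → Matrix (Fin 3) (Fin 3) (ZMod 7) := PM.toM (ZMod 7) (Equiv.refl (Fin 3))
abbrev τ : Matrix.SpecialLinearGroup (Fin 3) (ZMod 7) →* Matrix (Fin 3) (Fin 3) (ZMod 7) :=
  Matrix.SpecialLinearGroup.coeMonoidHom

theorem D : Mdl PM.mm PM.okb PM.one sem :=
  MP.mdl (P := PM) (ZMod 7) (Equiv.refl (Fin 3)) (by decide) (by decide +kernel)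

theorem hm : ∀ a < 12, PM.okb (lget ms 0 a) = true := by decide +kernel

theorem hs : ∀ x < 12, ∃ g, τ g = sem (lget ms 0 x) := by
  have : ∀ x < 12, (sem (lget ms 0 x)).det = 1 := by
    simp only [det_fin_three]
    decide +kernel
  exact fun x hx => ⟨⟨_, this x hx⟩, rfl⟩

theorem hz : ∀ Y ∈ sc, ∀ g, τ g = sem Y → g ∈ Subgroup.center (Matrix.SpecialLinearGroup (Fin 3) (ZMod 7)) := by
  have h1 : ∀ Y ∈ sc, sem Y = sem Y 0 0 • (1 : Matrix (Fin 3) (Fin 3) (ZMod 7)) := by decide +kernel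
  intro Y hY g hg
  have h2 : g.1 = sem Y 0 0 • 1 := hg.trans (h1 Y hY)
  refine Subgroup.mem_center_iff.mpr fun x => Subtype.ext ?_
  change x.1 * g.1 = g.1 * x.1
  rw [h2]
  simp

theorem iso : ∃ φ : L7B.G →* Matrix.ProjectiveSpecialLinearGroup (Fin 3) (ZMod 7), Function.Bijective φ := by
  have := L7G.simple
  obtain ⟨φ, hφ⟩ := L7B.hhom _ (inv_of_rels (D.proj hm hs _ sc hz _ (by decide +kernel)))
    (D.proj hm hs _ sc hz _ (by decide +kernel))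
  refine ⟨φ, bij_of_inj φ (inj_of_simple φ (g := L7B.el 0) ?_) ?_⟩
  · rw [hφ 0 (by decide)]
    exact D.not_center hm hs 0 4 5192296858536008292208808046903297 5192296858536008292208807778467841 (by decide +kernel) (by decide +kernel)
  · rw [L7G.card]
    exact ⟨card_PSL37.1, card_PSL37.2.le⟩

theorem hinv6 : ∀ x < 6, ONA.el1 ([0, 1, 2, 3, 4, 5].getD x 0) = (ONA.el1 x)⁻¹ :=
  byW_inv ONB.el (n := 4) ONB.hinv ONB.hrel (by decide +kernel)

theorem rels : ∀ r ∈ L7B.rels, evw (byW ONA.el1 σ) r = 1 := by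
  obtain ⟨ρ, hρ⟩ := L8B.hhom ONA.el1 hinv6 (byW_rels ONB.el (n := 4) ONB.hinv ONB.hrel (by decide +kernel))
  have h1 : (L7B.rels.all fun r => allLt 6 (subst σ r)) = true := by decide +kernel
  intro r hr
  rw [← evw_subst, ← hom_evw hρ _ (allLt_sound (List.all_eq_true.mp h1 r hr)), evw_subst,
    L8A.L0.rels_one (L8A.top L8O.finG).2 σ L7B.rels (by decide +kernel) r hr, map_one]

theorem main : ∃ N : Subgroup ONA.H, N.Normal ∧ N.index = 2 ∧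
    Nonempty (N ≃* Matrix.ProjectiveSpecialLinearGroup (Fin 3) (ZMod 7)) := by
  have := L7G.simple
  obtain ⟨φ, hφ⟩ := iso
  obtain ⟨ρ, hρ⟩ := L7B.hhom (byW ONA.el1 σ) (byW_inv ONA.el1 (n := 4) (rels := []) hinv6 forall_nil (by decide +kernel))
    rels
  refine iso_index_two ρ (inj_of_simple ρ (g := L7B.el 0) fun hc => ?_)
    ((range_hom hρ L7B.htop).le.trans (gensub_byW_le (by decide +kernel))) L7G.card
    (card_of_index ONG.card ONG.stab.2 (by decide)) (by decide) φ hφ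
  rw [hρ 0 (by decide)] at hc
  exact ONA.L1.ne_one (σ.getD 0 []) 1 (by decide +kernel) hc

end CfH6.L7M
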