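import Cfsg.Agent.OD.Pre
import Cfsg.Agent.H6.TCTop
import Cfsg.Agent.H6.LT12.C
import Cfsg.Agent.H6.LT12.P0
import Cfsg.Agent.H6.LT12.P1
import Cfsg.Agent.H6.LT12.P2
/-! coset enumeration certificate; generators a b c d e f t r k ; index 98280 -/
set_option autoImplicit false
set_option maxRecDepth 100000
set_option Elab.async false
set_option linter.all false
namespace CfH6.LT12
open CfH6
theorem covers {G : Type*} [Group G] (ev : ℕ → G) (H : Subgroup G)
    (hinv : ∀ x < 9, ev (il.getD x 0) = (ev x)⁻¹) (hr : ∀ r ∈ rels, evw ev r = 1)
    (hs : ∀ s ∈ subs, evw ev s ∈ H) : Covers H (gensub ev 9) 98280 :=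
  C.sound il rels subs 9 98280 valid (((((((((((((((((((((((((((((((((((((((((((((((p0).trans p1).trans p2).trans p3).trans p4).trans p5).trans p6).trans p7).trans p8).trans p9).trans p10).trans p11).trans p12).trans p13).trans p14).trans p15).trans p16).trans p17).trans p18).trans p19).trans p20).trans p21).trans p22).trans p23).trans p24).trans p25).trans p26).trans p27).trans p28).trans p29).trans p30).trans p31).trans p32).trans p33).trans p34).trans p35).trans p36).trans p37).trans p38).trans p39).trans p40).trans p41).trans p42).trans p43).trans p44).trans p45).trans p46) (((p47).trans p48).trans p49) (by decide) (by decide) ev H hinv hr hs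
end CfH6.LT12
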