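import Cfsg.Agent.OD.Pre
import Cfsg.Agent.H6.LeH
import Cfsg.Agent.H6.C2G
/-! The presented group is the stabiliser `Co2`. -/
set_option autoImplicit false
set_option maxRecDepth 100000
set_option Elab.async false
set_option linter.all false
namespace CfH6.Lee
open CfH6
open Cfsg Cfsg.Spor CfH4.Gol MulAction

def msCo2 : List ℕ := [ma, mb, mc, md, me, mf, mt, mr]

theorem homCo2 : ∃ ρ : C2B.G →* Co0, ∀ x < 8, Φ (ρ (C2B.el x)) = sem (lget msCo2 0 x) :=
  lift_hom C2B.hhom msCo2 (by simp only [msCo2, List.forall_mem_cons, xa, xb, xc, xd, xe, xf, xt, xr, true_and]; exact forall_nil)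
    (by decide +kernel)

theorem isoCo2' : ∃ φ : C2B.G ≃* Co2, ∀ x < 8, ∃ g : Co0, g.1 = (φ (C2B.el x)).1 ∧ Φ g = sem (lget msCo2 0 x) := by
  have := C2G.simple
  have := C2O.finG.1
  obtain ⟨ρ, hρ⟩ := homCo2
  obtain ⟨φ, hφ⟩ := range_eq C2B.htop hρ Co2 [leechU] (fun g hg h => ⟨hg, h _ (by simp)⟩) ⟨card_Co2.1, C2G.card ▸ card_Co2.2⟩
    (by decide +kernel)
  exact ⟨φ, fun x hx => ⟨_, (hφ _).symm, hρ x hx⟩⟩

theorem isoCo2 : IsoCo2 C2B.G := ⟨isoCo2'.choose⟩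

theorem cardCo2 : Nat.card Co2 = 42305421312000 := (Nat.card_congr isoCo2'.choose.toEquiv).symm.trans C2G.card

theorem simpleCo2 : IsSimpleGroup Co2 := have := C2G.simple; isoCo2'.choose.symm.isSimpleGroup
end CfH6.Lee
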