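import Cfsg.Agent.OD.Pre
import Cfsg.Agent.H6.LeH
import Cfsg.Agent.H6.C3G
/-! The presented group is the stabiliser `Co3`. -/
set_option autoImplicit false
set_option maxRecDepth 100000
set_option Elab.async false
set_option linter.all false
namespace CfH6.Lee
open CfH6
open Cfsg Cfsg.Spor CfH4.Gol MulAction

def msCo3 : List ℕ := [ma, mb, mc, md, me, mf, ms, mh]

theorem homCo3 : ∃ ρ : C3B.G →* Co0, ∀ x < 8, Φ (ρ (C3B.el x)) = sem (lget msCo3 0 x) :=
  lift_hom C3B.hhom msCo3 (by simp only [msCo3, List.forall_mem_cons, xa, xb, xc, xd, xe, xf, xs, xh, true_and]; exact forall_nil)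
    (by decide +kernel)

theorem isoCo3' : ∃ φ : C3B.G ≃* Co3, ∀ x < 8, ∃ g : Co0, g.1 = (φ (C3B.el x)).1 ∧ Φ g = sem (lget msCo3 0 x) := by
  have := C3G.simple
  have := C3O.finG.1
  obtain ⟨ρ, hρ⟩ := homCo3
  obtain ⟨φ, hφ⟩ := range_eq C3B.htop hρ Co3 [leechV] (fun g hg h => ⟨hg, h _ (by simp)⟩) ⟨card_Co3.1, C3G.card ▸ card_Co3.2⟩
    (by decide +kernel)
  exact ⟨φ, fun x hx => ⟨_, (hφ _).symm, hρ x hx⟩⟩

theorem isoCo3 : IsoCo3 C3B.G := ⟨isoCo3'.choose⟩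

theorem cardCo3 : Nat.card Co3 = 495766656000 := (Nat.card_congr isoCo3'.choose.toEquiv).symm.trans C3G.card

theorem simpleCo3 : IsSimpleGroup Co3 := have := C3G.simple; isoCo3'.choose.symm.isSimpleGroup
end CfH6.Lee
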