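import Cfsg.Agent.OD.Pre
import Cfsg.Agent.H6.McB
import Cfsg.Agent.H6.TCPart
import Cfsg.Agent.H6.LT6
import Cfsg.Agent.H6.LT5
import Cfsg.Agent.H6.LT2
import Cfsg.Agent.H6.LT1
set_option autoImplicit false
set_option maxRecDepth 100000
set_option linter.all false
namespace CfH6.McO
open CfH6
def s0 : List (List ℕ) := [[0], [1], [2], [3], [4], [5]]
def t0 : List (List ℕ) := [[0], [1], [2], [3], [5]]
theorem cov0 : Covers (gensub (byW McB.el t0) 5) (gensub (byW McB.el s0) 6) 275 :=
  cov_step McB.el McB.hinv McB.hrel s0 t0 5 4 (fun ev H => LT6.covers ev H) (by decide +kernel)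
theorem top0 : gensub (byW McB.el s0) 6 = ⊤ := (gensub_id McB.el (by decide)).trans McB.htop
theorem covT0 : Covers (gensub (byW McB.el t0) 5) ⊤ 275 := cov0.top top0
def s1 : List (List ℕ) := [[0], [1], [2], [3], [5]]
def t1 : List (List ℕ) := [[0], [1], [2], [3]]
theorem cov1 : Covers (gensub (byW McB.el t1) 4) (gensub (byW McB.el s1) 5) 162 :=
  cov_step McB.el McB.hinv McB.hrel s1 t1 4 4 (fun ev H => LT5.covers ev H) (by decide +kernel)
def s2 : List (List ℕ) := [[0], [1], [2], [3]]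
def t2 : List (List ℕ) := [[1], [2], [3]]
theorem cov2 : Covers (gensub (byW McB.el t2) 3) (gensub (byW McB.el s2) 4) 56 :=
  cov_step McB.el McB.hinv McB.hrel s2 t2 3 4 (fun ev H => LT2.covers ev H) (by decide +kernel)
def s3 : List (List ℕ) := [[1], [2], [3]]
def t3 : List (List ℕ) := []
theorem cov3 : Covers (gensub (byW McB.el t3) 0) (gensub (byW McB.el s3) 3) 360 :=
  cov_step McB.el McB.hinv McB.hrel s3 t3 0 4 (fun ev H => LT1.covers ev H) (by decide +kernel)
theorem finT3 : Finite (gensub (byW McB.el t3) 0) ∧ Nat.card (gensub (byW McB.el t3) 0) ≤ 1 := (gensub_zero _)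
theorem fin3 : Finite (gensub (byW McB.el s3) 3) ∧ Nat.card (gensub (byW McB.el s3) 3) ≤ 360 :=
  fin_cast (cov3.card_le finT3) (by decide)
theorem finT2 : Finite (gensub (byW McB.el t2) 3) ∧ Nat.card (gensub (byW McB.el t2) 3) ≤ 360 := (fin_le (gensub_le_of_subsIn McB.el (by decide)) fin3)
theorem fin2 : Finite (gensub (byW McB.el s2) 4) ∧ Nat.card (gensub (byW McB.el s2) 4) ≤ 20160 :=
  fin_cast (cov2.card_le finT2) (by decide)
theorem finT1 : Finite (gensub (byW McB.el t1) 4) ∧ Nat.card (gensub (byW McB.el t1) 4) ≤ 20160 := (fin_le (gensub_le_of_subsIn McB.el (by decide)) fin2)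
theorem fin1 : Finite (gensub (byW McB.el s1) 5) ∧ Nat.card (gensub (byW McB.el s1) 5) ≤ 3265920 :=
  fin_cast (cov1.card_le finT1) (by decide)
theorem finT0 : Finite (gensub (byW McB.el t0) 5) ∧ Nat.card (gensub (byW McB.el t0) 5) ≤ 3265920 := (fin_le (gensub_le_of_subsIn McB.el (by decide)) fin1)
theorem fin0 : Finite (gensub (byW McB.el s0) 6) ∧ Nat.card (gensub (byW McB.el s0) 6) ≤ 898128000 :=
  fin_cast (cov0.card_le finT0) (by decide)
theorem finG : Finite McB.G ∧ Nat.card McB.G ≤ 898128000 := fin_top (top0 ▸ fin0)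
end CfH6.McO
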