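import Cfsg.Agent.OD.Pre
import Cfsg.Agent.H6.McA
import Cfsg.Agent.H6.McK
import Cfsg.Agent.H6.McO
import Cfsg.Agent.H6.McO
/-! An abstract presentation: order and simplicity. -/
set_option autoImplicit false
set_option maxRecDepth 100000
namespace CfH6.McG
open CfH6 MulAction
attribute [local instance] McA.act

theorem stab : McA.H = stabilizer McB.G 0 ∧ McA.H.index = 275 := McA.stab McO.covT0

theorem card : Nat.card McB.G = 898128000 := (McA.top McO.finG).1

theorem base : ∀ g : McB.G, (∀ b ∈ McA.bs, g • b = b) → g = 1 := (McA.top McO.finG).2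

theorem simple : IsSimpleGroup McB.G := by
  have := McO.finG.1
  refine simple_of stab.1 (by rw [stab.2]; decide) (McA.hmax stab.1 stab.2) base McA.hbs fun M hM h => ?_
  exact top_of_index (eq_top_of_collapse McB.el (n := 4) McB.hinv McB.hrel McB.htop M
    (pow_words McB.el h (by norm_num) (not_dvd_card card stab.2 (by decide)) 1 McA.ex (McA.hex base))
    (by decide +kernel) 1 fun ev' h1 h2 => McK.covers ev' ⊥ h1 h2 forall_nil)

theorem nprime : ¬ (Nat.card McB.G).Prime := by rw [card]; norm_num

end CfH6.McG
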