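import Cfsg.Agent.OD.Pre
import Cfsg.Agent.H6.LeH
import Cfsg.Agent.H6.McG
/-! The presented group is the stabiliser `McL`. -/
set_option autoImplicit false
set_option maxRecDepth 100000
set_option Elab.async false
set_option linter.all false
namespace CfH6.Lee
open CfH6
open Cfsg Cfsg.Spor CfH4.Gol MulAction

def msMcL : List ℕ := [ma, mb, mc, md, me, mf]

theorem homMcL : ∃ ρ : McB.G →* Co0, ∀ x < 6, Φ (ρ (McB.el x)) = sem (lget msMcL 0 x) :=
  lift_hom McB.hhom msMcL (by simp only [msMcL, List.forall_mem_cons, xa, xb, xc, xd, xe, xf, true_and]; exact forall_nil)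
    (by decide +kernel)

theorem isoMcL' : ∃ φ : McB.G ≃* McL, ∀ x < 6, ∃ g : Co0, g.1 = (φ (McB.el x)).1 ∧ Φ g = sem (lget msMcL 0 x) := by
  have := McG.simple
  have := McO.finG.1
  obtain ⟨ρ, hρ⟩ := homMcL
  obtain ⟨φ, hφ⟩ := range_eq McB.htop hρ McL [leechV, leechU] (fun g hg h => ⟨⟨hg, h _ (by simp)⟩, h _ (by simp)⟩) ⟨card_McL.1, McG.card ▸ card_McL.2⟩
    (by decide +kernel)
  exact ⟨φ, fun x hx => ⟨_, (hφ _).symm, hρ x hx⟩⟩

theorem isoMcL : IsoMcL McB.G := ⟨isoMcL'.choose⟩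

theorem cardMcL : Nat.card McL = 898128000 := (Nat.card_congr isoMcL'.choose.toEquiv).symm.trans McG.card

theorem simpleMcL : IsSimpleGroup McL := have := McG.simple; isoMcL'.choose.symm.isSimpleGroup
end CfH6.Lee
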