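import Cfsg.Agent.OD.Pre
import Cfsg.Agent.H6.Lec
/-! A count of minimal vectors. -/
set_option autoImplicit false
set_option maxRecDepth 100000
set_option Elab.async false
set_option linter.all false
namespace CfH6.Lee
open CfH6
def Pc0 (S a b : ℕ) : Bool := true
theorem nc00 : part Pc0 0 = 23888 := by decide +kernel
theorem nc01 : part Pc0 7221256 = 16384 := by decide +kernel
theorem nc02 : part Pc0 13938692 = 16384 := by decide +kernel
theorem nc03 : part Pc0 12222476 = 11264 := by decide +kernel
theorem nc04 : part Pc0 4845570 = 16384 := by decide +kernel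
theorem nc05 : part Pc0 2605066 = 11264 := by decide +kernel
theorem nc06 : part Pc0 10305542 = 11264 := by decide +kernel
theorem nc07 : part Pc0 15953934 = 8192 := by decide +kernel
theorem nc08 : part Pc0 13062145 = 16384 := by decide +kernel
theorem nc09 : part Pc0 11100169 = 11264 := by decide +kernel
theorem nc010 : part Pc0 1302533 = 11264 := by decide +kernel
theorem nc011 : part Pc0 8245261 = 8192 := by decide +kernel
theorem nc012 : part Pc0 9347075 = 11264 := by decide +kernel
theorem nc013 : part Pc0 14716939 = 8192 := by decide +kernel
theorem nc014 : part Pc0 5902343 = 8192 := by decide +kernel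
theorem nc015 : part Pc0 3416079 = 6784 := by decide +kernel
theorem nc0 : total Pc0 = 196560 := by
  simp only [total_eq, List.map_cons, List.map_nil, nc00, nc01, nc02, nc03, nc04, nc05, nc06, nc07, nc08, nc09, nc010, nc011, nc012, nc013, nc014, nc015]
  rfl
end CfH6.Lee
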