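import Cfsg.Agent.OD.Pre
import Cfsg.Agent.H6.M24DA
import Cfsg.Agent.H6.M24O2
set_option autoImplicit false
set_option maxRecDepth 100000
set_option Elab.async false
set_option linter.all false
namespace CfH6.M24D
open CfH6 CfH6.D MulAction
attribute [local instance] actD
theorem fin : Finite M24B.G := M24O2.finG.1
theorem card : Nat.card M24B.G = 244823040 := (low.top M24O2.finG).1
theorem base : ∀ g : M24B.G, (∀ b ∈ [31, 0, 44, 1], g • b = b) → g = 1 := (low.top M24O2.finG).2
theorem heq : ∀ a b, eq a b = 0 → evw cd a = evw cd b := fun a b h => tbD.eqc 7 (by decide) base a b h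
end CfH6.M24D
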