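import Cfsg.Agent.OD.Pre
import Cfsg.Agent.H6.N23A
import Cfsg.Agent.H6.N23K
import Cfsg.Agent.H6.N23O
import Cfsg.Agent.H6.N23O
/-! An abstract presentation: order and simplicity. -/
set_option autoImplicit false
set_option maxRecDepth 100000
namespace CfH6.N23G
open CfH6 MulAction
attribute [local instance] N23A.act

theorem stab : N23A.H = stabilizer N23B.G 0 ∧ N23A.H.index = 253 := N23A.stab N23O.covT0

theorem card : Nat.card N23B.G = 10200960 := (N23A.top N23O.finG).1

theorem base : ∀ g : N23B.G, (∀ b ∈ N23A.bs, g • b = b) → g = 1 := (N23A.top N23O.finG).2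

theorem simple : IsSimpleGroup N23B.G := by
  have := N23O.finG.1
  refine simple_of stab.1 (by rw [stab.2]; decide) (N23A.hmax stab.1 stab.2) base N23A.hbs fun M hM h => ?_
  exact top_of_index (eq_top_of_collapse N23B.el (n := 4) N23B.hinv N23B.hrel N23B.htop M
    (pow_words N23B.el h (by norm_num) (not_dvd_card card stab.2 (by decide)) 1 N23A.ex (N23A.hex base))
    (by decide +kernel) 1 fun ev' h1 h2 => N23K.covers ev' ⊥ h1 h2 forall_nil)

theorem nprime : ¬ (Nat.card N23B.G).Prime := by rw [card]; norm_num

end CfH6.N23G
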