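import Cfsg.Agent.OD.Pre
import Cfsg.Agent.H6.Led
import Cfsg.Agent.H6.N23G
import Cfsg.Agent.H6.N23T6
import Cfsg.Agent.H6.N23a
/-! The presented group is the Mathieu group `M₂₃`. -/
set_option autoImplicit false
set_option maxRecDepth 100000
set_option Elab.async false
set_option linter.all false
namespace CfH6.M23
open CfH6
open Cfsg Cfsg.Spor CfH4.Gol MulAction
universe u

def pS : Equiv.Perm GolayPt := perm [0, 12, 11, 3, 16, 9, 19, 13, 8, 5, 17, 2, 1, 7, 14, 15, 4, 10, 18, 6, 20, 22, 21, 23] (by decide +kernel)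
def px : Equiv.Perm GolayPt := perm [6, 2, 1, 22, 4, 12, 0, 7, 8, 11, 17, 9, 5, 15, 14, 13, 18, 10, 16, 19, 20, 21, 3, 23] (by decide +kernel)
def py : Equiv.Perm GolayPt := perm [6, 11, 22, 9, 18, 5, 0, 13, 8, 3, 20, 1, 21, 7, 14, 15, 16, 17, 4, 19, 10, 12, 2, 23] (by decide +kernel)
def pa : Equiv.Perm GolayPt := perm [8, 5, 10, 20, 4, 1, 19, 7, 0, 12, 2, 17, 9, 13, 14, 15, 16, 11, 18, 6, 3, 22, 21, 23] (by decide +kernel)
def pb : Equiv.Perm GolayPt := perm [0, 7, 21, 15, 16, 9, 6, 1, 18, 5, 10, 22, 13, 12, 14, 3, 4, 17, 8, 19, 20, 2, 11, 23] (by decide +kernel)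
def pp : Equiv.Perm GolayPt := perm [0, 2, 1, 15, 4, 9, 6, 21, 8, 5, 17, 12, 11, 22, 20, 3, 16, 10, 18, 19, 14, 7, 13, 23] (by decide +kernel)
def pq : Equiv.Perm GolayPt := perm [0, 7, 21, 9, 4, 15, 6, 1, 8, 3, 20, 13, 22, 11, 17, 5, 16, 14, 18, 19, 10, 2, 12, 23] (by decide +kernel)
def pr : Equiv.Perm GolayPt := perm [0, 11, 12, 20, 4, 17, 6, 13, 8, 10, 9, 1, 2, 7, 15, 14, 16, 5, 18, 19, 3, 22, 21, 23] (by decide +kernel)
def ps : Equiv.Perm GolayPt := perm [0, 17, 10, 22, 4, 11, 6, 14, 8, 12, 2, 5, 9, 15, 7, 13, 16, 1, 18, 19, 21, 20, 3, 23] (by decide +kernel)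
def pT : Equiv.Perm GolayPt := perm [0, 22, 11, 3, 10, 5, 6, 13, 14, 9, 4, 2, 21, 7, 8, 15, 17, 16, 20, 19, 18, 12, 1, 23] (by decide +kernel)
def pev (i : ℕ) : Equiv.Perm GolayPt := [pS * px, px * pS, pS * py, py * pS, pa, pb, pp, pq, pr, ps, pT].getD i 1

theorem card_M23 : Finite Cfsg.Spor.M23 ∧ Nat.card Cfsg.Spor.M23 ≤ 23 * 443520 := by
  refine Lee.fin_orbit (b := (some 0 : GolayPt)) le_rfl Lee.card_M22 ⟨Set.toFinite _, ?_⟩
  refine (Set.ncard_le_ncard (t := ((Finset.univ.erase none : Finset GolayPt) : Set GolayPt)) ?_ (Set.toFinite _)).trans ?_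
  · rintro _ ⟨g, rfl⟩
    simp only [Finset.coe_erase, Finset.coe_univ, Set.mem_diff, Set.mem_univ, Set.mem_singleton_iff, true_and]
    intro h
    have h2 : g.1 none = none := g.2.2
    exact absurd (g.1.injective (h.trans h2.symm)) (by simp)
  · rw [Set.ncard_coe_finset]; decide +kernel

theorem iso : IsoM23 N23B.G := by
  have := N23G.simple
  have := N23O.finG.1
  obtain ⟨φ, hφ⟩ := N23B.hhom pev (by decide +kernel) (by decide +kernel)
  have h1 : ∀ g, φ g ∈ Cfsg.Spor.M23 := mem_of_gens N23B.htop φ Cfsg.Spor.M23.toSubmonoid fun x hx => by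
    rw [hφ x hx]
    have k : ∀ {g : Equiv.Perm GolayPt}, g ∈ M24 → g none = none → g ∈ Cfsg.Spor.M23 := fun a b => ⟨a, b⟩
    interval_cases x
    iterate 4 exact Cfsg.Spor.M23.mul_mem (k (mem_M24 rfl (by decide +kernel)) rfl) (k (mem_M24 rfl (by decide +kernel)) rfl)
    all_goals exact k (mem_M24 rfl (by decide +kernel)) rfl
  have h2 : Function.Injective φ := inj_of_simple φ (g := N23B.el 0) (by rw [hφ 0 (by decide)]; decide +kernel)
  exact ⟨MulEquiv.ofBijective (φ.codRestrict _ h1) (bij_of_inj _ (fun a b h => h2 (congrArg Subtype.val h))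
    ⟨inferInstance, N23G.card ▸ card_M23.2⟩)⟩

theorem q5 : Q5.{u} := fun {G} _ _ hc ev hi hr h0 => by
  have := N23G.simple
  have := N23O.finG.1
  obtain ⟨ρ, hρ⟩ := N23B.hhom ev hi fun w hw => hr w ((by decide : ∀ w ∈ N23B.rels, w ∈ rN ++ rT false) w hw)
  obtain ⟨e⟩ := iso
  exact ⟨(MulEquiv.ofBijective ρ (bij_of_inj ρ (inj_of_simple ρ (g := N23B.el 6) (by rwa [hρ 6 (by decide)]))
    ⟨inferInstance, by rw [hc, N23G.card]⟩)).symm.trans e⟩

section
variable {G : Type*} [Group G] {ev : ℕ → G}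
theorem subs_in {k : ℕ} {subs : List (List ℕ)} (h : ∀ s ∈ subs, ∀ x ∈ s, x < k) :
    ∀ s ∈ subs, evw ev s ∈ gensub ev k := fun s hs => evw_mem (fun _ hx => mem_gensub hx) (h s hs)

/-- the complement has order at most 2520 -/
theorem finA (hi : ∀ x < 6, ev (il.getD x 0) = (ev x)⁻¹) (hr : ∀ w ∈ rA, evw ev w = 1) :
    Finite (gensub ev 6) ∧ Nat.card (gensub ev 6) ≤ 70 * (4 * (9 * 1)) := by
  refine (N23T3.covers ev (gensub ev 5) (fun x hx => ?_) (fun w h => hr w ?_) (subs_in (by decide))).card_le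
    ((N23T4.covers ev (gensub ev 4) (fun x hx => ?_) (fun w h => hr w ?_) (subs_in (by decide))).card_le
      ((N23T5.covers ev ⊥ (fun x hx => ?_) (fun w h => hr w ?_) forall_nil).card_le bot_fin))
  · rw [← hi x hx]; interval_cases x <;> rfl
  · revert w; decide
  · rw [← hi x (by omega)]; interval_cases x <;> rfl
  · revert w; decide
  · rw [← hi x (by omega)]; interval_cases x <;> rfl
  · revert w; decide

/-- the variant `k = true` collapses -/
theorem badK (hi : ∀ x < 11, ev (il.getD x 0) = (ev x)⁻¹) (hr : ∀ w ∈ rN ++ rT true, evw ev w = 1) :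
    Finite (gensub ev 11) ∧ Nat.card (gensub ev 11) ≤ 1 * (70 * (4 * (9 * 1))) :=
  (N23T6.covers ev (gensub ev 6) hi (fun w h => hr w (by revert w; decide)) (subs_in (by decide))).card_le
    (finA (fun x hx => hi x (by omega)) fun w h => hr w (by revert w; decide))
end
end CfH6.M23
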