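import Cfsg.Agent.H6.N23Q0
/-! A staged search over multisets of integer vectors with prescribed inner products. -/
set_option autoImplicit false
set_option linter.all false
namespace CfH6.QC

abbrev Rc := List ℤ
abbrev Cd := Rc × ℕ × ℕ
abbrev Sg := ℕ × List (ℕ × ℤ)

noncomputable def nth {α : Type} (d : α) (l : List α) : ℕ → α :=
  List.rec (fun _ => d) (fun a _ ih i => Nat.rec a (fun j _ => ih j) i) l
theorem nth_eq {α : Type} (d : α) (l : List α) (i : ℕ) : nth d l i = l.getD i d := by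
  induction l generalizing i with
  | nil => rfl
  | cons a l ih => cases i; rfl; exact ih _

noncomputable def fN (n : ℕ) (k : ℕ → Bool) : Bool := Nat.rec (k 0) (fun m _ => k (Nat.succ m)) n
theorem fN_eq (n : ℕ) (k : ℕ → Bool) : fN n k = k n := by cases n <;> rfl
noncomputable def fZ (z : ℤ) (k : ℤ → Bool) : Bool :=
  Int.rec (fun n => fN n fun m => k (Int.ofNat m)) (fun n => fN n fun m => k (Int.negSucc m)) z
theorem fZ_eq (z : ℤ) (k : ℤ → Bool) : fZ z k = k z := by
  cases z
  exacts [fN_eq _ fun m => k (Int.ofNat m), fN_eq _ fun m => k (Int.negSucc m)]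
noncomputable def fL {α : Type} (f : α → (α → Bool) → Bool) (l : List α) : (List α → Bool) → Bool :=
  List.rec (fun k => k []) (fun a _ ih k => f a fun a' => ih fun l' => k (a' :: l')) l
theorem fL_eq {α : Type} {f : α → (α → Bool) → Bool} (h : ∀ a k, f a k = k a) (l : List α) (k : List α → Bool) :
    fL f l k = k l := by
  induction l generalizing k with
  | nil => rfl
  | cons a l ih => exact (h _ _).trans (ih _)
noncomputable def fP {α β : Type} (f : α → (α → Bool) → Bool) (g : β → (β → Bool) → Bool) (x : α × β)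
    (k : α × β → Bool) : Bool := f x.1 fun a => g x.2 fun b => k (a, b)
theorem fP_eq {α β : Type} {f : α → (α → Bool) → Bool} {g : β → (β → Bool) → Bool} (h : ∀ a k, f a k = k a)
    (h' : ∀ a k, g a k = k a) (x : α × β) (k : α × β → Bool) : fP f g x k = k x := (h _ _).trans (h' _ _)

/-- the primes attached to the coordinates `1, 2, …` -/
def PR : List ℕ := [1, 2, 3, 5, 7, 11, 13, 17, 19, 23, 29, 31, 37, 41, 43]
def sqa (x : Rc) (j : ℕ) : ℕ := (x.getD j 0).natAbs * (x.getD j 0).natAbs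
def pw (f : ℕ → ℕ) : ℕ := ((List.range 15).map fun j => PR.getD j 1 ^ (if j = 0 then 0 else f j)).prod
def cost (x : Rc) : ℕ × ℕ := (pw (sqa x), sqa x 0)

theorem pw_add (f g : ℕ → ℕ) : pw (fun j => f j + g j) = pw f * pw g := by
  rw [pw, pw, pw, ← List.prod_map_mul]
  congr 2
  ext j
  split_ifs <;> simp [pow_add]
theorem pw_pos (f : ℕ → ℕ) : 0 < pw f := List.prod_pos fun a ha => by
  obtain ⟨j, hj, rfl⟩ := List.mem_map.1 ha
  exact Nat.pow_pos ((by decide : ∀ j ∈ List.range 15, 0 < PR.getD j 1) j hj)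
theorem pw_dvd {f : ℕ → ℕ} {k : ℕ} (k0 : k ≠ 0) (hk : k < 15) : PR.getD k 1 ∣ pw f ↔ f k ≠ 0 := by
  refine ⟨fun h e => ?_, fun h => (dvd_pow_self _ (by rwa [if_neg k0])).trans (List.dvd_prod (List.mem_map.2
    ⟨k, List.mem_range.2 hk, rfl⟩))⟩
  have hp : (PR.getD k 1).Prime := by interval_cases k <;> simp [PR] at k0 ⊢ <;> norm_num
  obtain ⟨_, ha, h⟩ := (Prime.dvd_prod_iff hp.prime).1 h
  obtain ⟨j, hj, rfl⟩ := List.mem_map.1 ha
  by_cases c : j = k
  · subst c; rw [if_neg k0, e, pow_zero] at h; exact hp.not_dvd_one h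
  · exact (by decide : ∀ k < 15, k ≠ 0 → ∀ j ∈ List.range 15, j ≠ k → ¬ PR.getD k 1 ∣ PR.getD j 1) k hk k0 j hj c
      (hp.dvd_of_dvd_pow h)

noncomputable def dot (i j : ℕ) (L : List Rc) : ℤ :=
  List.rec (Int.ofNat 0) (fun x _ r => Int.add (Int.mul (nth (Int.ofNat 0) x i) (nth (Int.ofNat 0) x j)) r) L
theorem dot_eq (i j : ℕ) (L : List Rc) : dot i j L = (L.map fun x => x.getD i 0 * x.getD j 0).sum := by
  induction L with
  | nil => rfl
  | cons a l ih => rw [List.map_cons, List.sum_cons, ← ih, ← nth_eq, ← nth_eq]; rfl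

noncomputable def ieq (a b : ℤ) : Bool :=
  Int.rec (fun m => Int.rec (fun n => Nat.beq m n) (fun _ => false) b)
    (fun m => Int.rec (fun _ => false) (fun n => Nat.beq m n) b) a
theorem ieq_self (a : ℤ) : ieq a a = true := by cases a <;> exact Nat.beq_refl _

noncomputable def tst (k : ℕ) (acc : List Rc) (e : List (ℕ × ℤ)) : Bool :=
  List.rec true (fun a _ r => and (ieq (dot k a.1 acc) a.2) r) e
theorem tst_ok {k : ℕ} {acc : List Rc} {e : List (ℕ × ℤ)} (h : ∀ a ∈ e, dot k a.1 acc = a.2) : tst k acc e = true := by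
  induction e with
  | nil => rfl
  | cons a e ih => exact Bool.and_eq_true_iff.2 ⟨by rw [h a (by simp)]; exact ieq_self _, ih fun b hb => h b (by simp [hb])⟩

noncomputable def lp (f : List Cd → ℕ → ℕ → List Rc → Bool) (s t : ℕ) (acc : List Rc) (cs : List Cd) : Bool :=
  List.rec true (fun c cs' r => and (Nat.rec (Bool.rec true (fN (Nat.div s c.2.1) fun s' => fN (Nat.sub t c.2.2) fun t' =>
    f (c :: cs') s' t' (c.1 :: acc)) (Nat.ble c.2.2 t)) (fun _ _ => true) (Nat.mod s c.2.1)) r) cs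

noncomputable def go (fin : ℕ → ℕ → List Rc → Bool) (p n : ℕ) : List Cd → ℕ → ℕ → List Rc → Bool :=
  Nat.rec (fun _ _ _ _ => false) (fun _ ih cs s t acc =>
    Bool.rec (lp ih s t acc cs) (fin s t acc) (Nat.rec (Nat.beq t 0) (fun _ _ => Nat.ble 1 (Nat.mod s p)) p)) n

def sm (L : List Rc) (j : ℕ) : ℕ := (L.map fun x => sqa x j).sum
def Iv (s t : ℕ) (L : List Rc) : Prop := s = pw (sm L) ∧ t = sm L 0
theorem sm_perm {L L' : List Rc} (p : L.Perm L') : sm L = sm L' := funext fun _ => (p.map _).sum_eq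
theorem Iv.perm {s t : ℕ} {L L' : List Rc} (h : Iv s t L) (p : L.Perm L') : Iv s t L' := by rwa [Iv, ← sm_perm p]
def pk (k : ℕ) : ℕ := if k = 0 then 0 else PR.getD k 1
theorem gd {s t k : ℕ} {L : List Rc} (h : Iv s t L) (hk : k < 15) :
    (Nat.rec (Nat.beq t 0) (fun _ _ => Nat.ble 1 (Nat.mod s (pk k))) (pk k) : Bool) = decide (sm L k = 0) := by
  by_cases k0 : k = 0
  · subst k0
    change Nat.beq t 0 = _
    rw [h.2, Bool.eq_iff_iff, Nat.beq_eq, decide_eq_true_iff]
  · obtain ⟨q, hq⟩ : ∃ q, pk k = q + 1 := Nat.exists_eq_succ_of_ne_zero ((by decide : ∀ k < 15, k ≠ 0 → pk k ≠ 0) k hk k0)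
    conv_lhs => enter [3]; rw [hq]
    change Nat.ble 1 (s % pk k) = _
    rw [Bool.eq_iff_iff, Nat.ble_eq, decide_eq_true_iff, pk, if_neg k0, h.1, ← not_iff_not, ← ne_eq, ← pw_dvd k0 hk,
      Nat.dvd_iff_mod_eq_zero]
    omega

theorem go_ok {fin : ℕ → ℕ → List Rc → Bool} {k : ℕ} (hk : k < 15) {R : List Rc} (hR : ∀ x ∈ R, x.getD k 0 = 0) (n : ℕ) :
    ∀ (cs : List Cd) (s t : ℕ) (acc M : List Rc), go fin (pk k) n cs s t acc = true →
      (∀ x ∈ M, (x, cost x) ∈ cs ∧ x.getD k 0 ≠ 0) → Iv s t (M ++ R) →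
      ∃ s' t' acc', acc'.Perm (M ++ acc) ∧ Iv s' t' R ∧ fin s' t' acc' = true := by
  induction n with
  | zero => intro cs s t acc M h; cases h
  | succ n ih =>
    intro cs s t acc M h hM hI
    change Bool.rec (lp (go fin (pk k) n) s t acc cs) (fin s t acc)
      (Nat.rec (Nat.beq t 0) (fun _ _ => Nat.ble 1 (Nat.mod s (pk k))) (pk k) : Bool) = true at h
    rw [gd hI hk] at h
    cases M with
    | nil =>
      rw [decide_eq_true (show sm ([] ++ R) k = 0 from List.sum_eq_zero (by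
        intro a ha
        obtain ⟨x, hx, rfl⟩ := List.mem_map.1 ha
        rw [sqa, hR x hx]; rfl))] at h
      exact ⟨s, t, acc, .refl _, hI, h⟩
    | cons y M =>
      rw [decide_eq_false (by
        have := Int.natAbs_pos.2 (hM y (by simp)).2
        have := Nat.mul_pos this this
        rw [sm, List.cons_append, List.map_cons, List.sum_cons, sqa]; omega)] at h
      replace h : lp (go fin (pk k) n) s t acc cs = true := h
      have hn : y :: M ≠ [] := by simp
      generalize y :: M = M at *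
      induction cs with
      | nil => obtain ⟨x, hx⟩ := List.exists_mem_of_ne_nil M hn; cases (hM x hx).1
      | cons c cs ihc =>
        obtain ⟨h1, h2⟩ := Bool.and_eq_true_iff.1 h
        by_cases hc : ∃ x ∈ M, (x, cost x) = c
        · obtain ⟨x, hx, rfl⟩ := hc
          obtain ⟨A, B, rfl⟩ := List.append_of_mem hx
          obtain ⟨i1, i2⟩ : Iv s t (x :: (A ++ B ++ R)) := hI.perm (List.perm_middle.append_right R)
          replace i1 : s = pw (sqa x) * pw (sm (A ++ B ++ R)) := i1.trans (pw_add _ _)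
          replace i2 : t = sqa x 0 + sm (A ++ B ++ R) 0 := i2
          have e1 : Nat.mod s (pw (sqa x)) = 0 := i1 ▸ Nat.mul_mod_right _ _
          have e2 : Nat.ble (sqa x 0) t = true := Nat.ble_eq.mpr (i2 ▸ Nat.le_add_right _ _)
          simp only [cost, e1, e2, fN_eq] at h1
          obtain ⟨s', t', acc', p, i, e⟩ := ih _ _ _ _ (A ++ B) h1
            (fun z hz => hM z (by rcases List.mem_append.1 hz with h | h <;> simp [h]))
            ⟨i1 ▸ Nat.mul_div_cancel_left _ (pw_pos _), i2 ▸ Nat.add_sub_cancel_left _ _⟩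
          exact ⟨s', t', acc', p.trans (List.perm_middle.trans (List.perm_middle.append_right acc).symm), i, e⟩
        · exact ihc h2 fun x hx => ⟨(List.mem_cons.1 (hM x hx).1).resolve_left fun e => hc ⟨x, hx, e⟩, (hM x hx).2⟩

noncomputable def run (fin : List Rc → Bool) (S : List ((ℕ × Sg) × List Cd)) : ℕ → ℕ → List Rc → Bool :=
  List.rec (fun _ _ acc => fin acc) (fun st _ ih s t acc =>
    go (fun s t acc => Bool.rec true (ih s t acc) (tst st.1.2.1 acc st.1.2.2)) st.1.1 30 st.2 s t acc) S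

def mk : List Sg → List Rc → List ((ℕ × Sg) × List Cd)
  | [], _ => []
  | st :: r, P => ((pk st.1, st), (P.filter fun x => x.getD st.1 0 ≠ 0).map fun x => (x, cost x)) ::
      mk r (P.filter fun x => x.getD st.1 0 = 0)

theorem run_ok {fin : List Rc → Bool} (S : List Sg) : ∀ (P L acc : List Rc) (s t : ℕ), (∀ x ∈ L, x ∈ P) → Iv s t L →
    (∀ st ∈ S, st.1 < 15 ∧ ∀ e ∈ st.2, dot st.1 e.1 (L ++ acc) = e.2) → run fin (mk S P) s t acc = true →
    ∃ acc' L', (L' ++ acc').Perm (L ++ acc) ∧ (∀ x ∈ L', x ∈ L ∧ ∀ st ∈ S, x.getD st.1 0 = 0) ∧ fin acc' = true := by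
  induction S with
  | nil => exact fun P L acc s t _ _ _ h => ⟨acc, L, .refl _, by simp, h⟩
  | cons st S ih =>
    intro P L acc s t hP hI hd h
    have p : (L.filter (fun x => x.getD st.1 0 ≠ 0) ++ L.filter fun x => x.getD st.1 0 = 0).Perm L := by
      simpa using List.filter_append_perm (fun x : Rc => x.getD st.1 0 ≠ 0) L
    have hR : ∀ x ∈ L.filter fun x => x.getD st.1 0 = 0, x.getD st.1 0 = 0 := fun x hx => by simpa using (List.mem_filter.1 hx).2
    change go (fun s t acc => Bool.rec true (run fin (mk S (P.filter fun x => x.getD st.1 0 = 0)) s t acc) (tst st.1 acc st.2))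
      (pk st.1) 30 ((P.filter fun x => x.getD st.1 0 ≠ 0).map fun x => (x, cost x)) s t acc = true at h
    obtain ⟨s', t', a', p', i, e⟩ := go_ok (hd st (by simp)).1 hR 30 _ s t acc (L.filter fun x => x.getD st.1 0 ≠ 0) h (fun x hx => ⟨List.mem_map.2
      ⟨x, List.mem_filter.2 ⟨hP x (List.mem_filter.1 hx).1, (List.mem_filter.1 hx).2⟩, rfl⟩,
        by simpa using (List.mem_filter.1 hx).2⟩) (hI.perm p.symm)
    have q : ((L.filter fun x => x.getD st.1 0 = 0) ++ a').Perm (L ++ acc) :=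
      (p'.append_left _).trans (by rw [← List.append_assoc]; exact (List.perm_append_comm.trans p).append_right _)
    rw [tst_ok (k := st.1) (acc := a') fun a ha => by
      rw [← (hd st (by simp)).2 a ha, dot_eq, dot_eq, ← (q.map _).sum_eq, List.map_append, List.sum_append,
        List.sum_eq_zero (l := List.map _ (List.filter _ _)) (by
          intro b hb
          obtain ⟨x, hx, rfl⟩ := List.mem_map.1 hb
          rw [hR x hx, zero_mul]), zero_add]] at e
    obtain ⟨a, L', r1, r2, r3⟩ := ih _ _ a' s' t' (fun x hx => List.mem_filter.2 ⟨hP x (List.mem_filter.1 hx).1,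
      (List.mem_filter.1 hx).2⟩) i (fun t ht => ⟨(hd t (by simp [ht])).1, fun b hb => by
        rw [← (hd t (by simp [ht])).2 b hb, dot_eq, dot_eq, (q.map _).sum_eq]⟩) e
    refine ⟨a, L', r1.trans q, fun x hx => ⟨(List.mem_filter.1 (r2 x hx).1).1, fun t ht => ?_⟩, r3⟩
    rcases List.mem_cons.1 ht with rfl | ht
    exacts [hR x (r2 x hx).1, (r2 x hx).2 t ht]

noncomputable def top (fin : List Rc → Bool) (S : List Sg) (P : List Rc) (s : List ℕ) : Bool :=
  fL (fL fZ) P fun P => fL (fP (fP fN (fP fN (fL (fP fN fZ)))) (fL (fP (fL fZ) (fP fN fN)))) (mk S P) fun T =>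
    fN (pw fun j => s.getD j 0) fun a => run fin T a (s.getD 0 0) []

theorem top_ok {fin : List Rc → Bool} {S : List Sg} {P L : List Rc} {s : List ℕ} (h : top fin S P s = true)
    (h1 : ∀ x ∈ L, x ∈ P) (h2 : ∀ j < 15, dot j j L = s.getD j 0) (h3 : ∀ st ∈ S, st.1 < 15 ∧ ∀ e ∈ st.2, dot st.1 e.1 L = e.2) :
    ∃ acc' L', (L' ++ acc').Perm L ∧ (∀ x ∈ L', x ∈ L ∧ ∀ st ∈ S, x.getD st.1 0 = 0) ∧ fin acc' = true := by
  rw [top, fL_eq (fL_eq fZ_eq), fL_eq (fP_eq (fP_eq fN_eq (fP_eq fN_eq (fL_eq (fP_eq fN_eq fZ_eq))))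
    (fL_eq (fP_eq (fL_eq fZ_eq) (fP_eq fN_eq fN_eq)))), fN_eq] at h
  have e : ∀ j < 15, s.getD j 0 = sm L j := fun j hj => by
    have := h2 j hj
    rw [dot_eq] at this
    zify
    rw [← this, sm, Nat.cast_list_sum, List.map_map]
    congr 2
    ext x
    simp [sqa]
  simpa using run_ok S P L [] _ _ h1 ⟨by
    rw [pw, pw]
    exact congrArg _ (List.map_congr_left fun j hj => by rw [e j (List.mem_range.1 hj)]), e 0 (by norm_num)⟩
    (by simpa using h3) h

end CfH6.QC
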