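import Cfsg.Agent.H6.N23Q2
/-! The searches for the prime `7`. -/
namespace CfH6.QC
theorem n1 : cN 3 2 = true := by decide +kernel
theorem n2 : cN 6 1 = true := by decide +kernel
theorem n3' : cN 3 16 = true := by decide +kernel
theorem n4 : cN 6 8 = true := by decide +kernel
theorem n5 : cN 3 128 = true := by decide +kernel
theorem n6 : cN 6 64 = true := by decide +kernel
end CfH6.QC
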