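import Cfsg.Agent.H6.N23Q2
/-! Searches for the prime `5`. -/
namespace CfH6.QC
theorem a4_8 : cA 4 8 = true := by decide +kernel
end CfH6.QC
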