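import Cfsg.Agent.H6.N23Q2
/-! Searches for the prime `5`. -/
namespace CfH6.QC
theorem a2_1 : cA 2 1 = true := by decide +kernel
theorem a2_6 : cA 2 6 = true := by decide +kernel
theorem a2_16 : cA 2 16 = true := by decide +kernel
theorem a2_21 : cA 2 21 = true := by decide +kernel
theorem a2_36 : cA 2 36 = true := by decide +kernel
theorem a4_18 : cA 4 18 = true := by decide +kernel
theorem a2_56 : cA 2 56 = true := by decide +kernel
theorem a2_96 : cA 2 96 = true := by decide +kernel
theorem a4_48 : cA 4 48 = true := by decide +kernel
theorem a2_126 : cA 2 126 = true := by decide +kernel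
theorem a4_63 : cA 4 63 = true := by decide +kernel
theorem a2_336 : cA 2 336 = true := by decide +kernel
theorem a4_168 : cA 4 168 = true := by decide +kernel
theorem a2_576 : cA 2 576 = true := by decide +kernel
theorem a4_288 : cA 4 288 = true := by decide +kernel
theorem a2_2016 : cA 2 2016 = true := by decide +kernel
theorem a4_1008 : cA 4 1008 = true := by decide +kernel
end CfH6.QC
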