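import Cfsg.Agent.H6.N23Q3
import Cfsg.Agent.H6.N23Q4
import Cfsg.Agent.H6.N23Q5
import Cfsg.Agent.H6.N23Q6
import Cfsg.Agent.OD.Helper6x5032eb9d8f
import Cfsg.Agent.OD.Helper6x6f41ba6820
/-! The numerical steps. -/
set_option autoImplicit false
set_option linter.all false
open CfH4.PA Finset
namespace CfH6.QC
universe u
variable {ι : Type u} [Fintype ι] {d : ι → ℕ} {a b u w h k : ι → ℤ × ℤ} {ma mb m : ι → ℤ} {p e K : ℕ}

theorem mem_RR {r : ℕ} {x : ℤ} (h : x ^ 2 < (r + 1) ^ 2) : x ∈ RR r := by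
  have := abs_lt_of_sq_lt_sq' h (by positivity)
  exact List.mem_map.2 ⟨(x + r).toNat, List.mem_range.2 (by omega), by omega⟩

theorem mem_prs {r : ℕ} {p n T d : ℤ} {z fl : Bool} {f : ι → ℤ × ℤ} {N : ℤ} (h1 : ∑ i, (f i).1 ^ 2 = N)
    (h2 : ∑ i, (f i).2 ^ 2 = N) (hr : N < (r + 1) ^ 2) (i : ι) (h : okp p n T d z fl (f i)) : f i ∈ prs r p n T d z fl :=
  List.mem_filter.2 ⟨List.mem_flatMap.2 ⟨_, mem_RR ((h1 ▸ single_le_sum (f := fun i => (f i).1 ^ 2)
    (fun _ _ => sq_nonneg _) (mem_univ i)).trans_lt hr), List.mem_map.2 ⟨_, mem_RR ((h2 ▸ single_le_sum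
      (f := fun i => (f i).2 ^ 2) (fun _ _ => sq_nonneg _) (mem_univ i)).trans_lt hr), rfl⟩⟩, decide_eq_true h⟩

theorem blk_mem (B : Blk p e K d u m) (hp : 0 < p) {r : ℕ} (hr : (e : ℤ) < (r + 1) ^ 2) {T : ℤ} {z : Bool} (i : ι)
    (dv : (d i : ℤ) ∣ (u i).1 * T ∧ (d i : ℤ) ∣ (u i).2 * T) (hz : u i = 0 → K ≠ 1 → z = true) :
    u i ∈ prs r p (n3 p e) T (d i) z false := by
  refine mem_prs B.n1 B.n2 hr i ⟨(single_le_sum (f := fun i => ((u i).1 - (u i).2) ^ 2) (fun _ _ => sq_nonneg _)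
    (mem_univ i)).trans (by rw [B.n3, n3]; split_ifs <;> rfl), ?_⟩
  split_ifs with c
  · by_cases k : K = 1
    · exact .inr (Int.emod_eq_zero_of_dvd (Int.natCast_dvd_natCast.2 (B.z i c k)))
    · exact .inl (hz c k)
  · obtain ⟨e1, e2, e3, e4⟩ := B.dm i c
    have : (d i : ℤ) - p / 2 * ((u i).1 + (u i).2) = p * m i := by rw [e1]; push_cast; ring
    rw [this, ← mul_add, ← mul_add]
    exact ⟨by simp, Int.emod_eq_zero_of_dvd dv.1, Int.emod_eq_zero_of_dvd dv.2,
      .inr ⟨by positivity, by positivity, by positivity⟩⟩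

theorem cp_mem (C : Cp p e K d a b u w) {r : ℕ} (hr : ((K : ℤ) - 1) * (e + 1) < (r + 1) ^ 2) {n : ℤ}
    (hn : (if e + 1 = p then 0 else 2 * (K - 1 : ℤ)) = n) (i : ι) (c : u i = 0) :
    w i ∈ prs r p n (10200960 / K : ℕ) (d i) false true := by
  refine mem_prs C.n1 C.n2 hr i ⟨(single_le_sum (f := fun i => ((w i).1 - (w i).2) ^ 2) (fun _ _ => sq_nonneg _)
    (mem_univ i)).trans (C.n3.trans hn).le, ?_⟩
  have := C.cg i c
  split_ifs with c'
  · exact .inr (Int.emod_eq_zero_of_dvd (by simpa [c'] using this))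
  · exact ⟨Int.emod_eq_zero_of_dvd (by exact_mod_cast this), Int.emod_eq_zero_of_dvd (C.dv i).1,
      Int.emod_eq_zero_of_dvd (C.dv i).2, .inl rfl⟩

theorem tl_mem (B : Base d a b ma mb) (i : ι) : (d i, a i, b i) ∈ TL := by
  have dv : ∀ x : ℤ, (d i : ℤ) ∣ x * 10200960 := fun x => Dvd.dvd.mul_left (by exact_mod_cast (B.dv i).1) _
  have := single_le_sum (f := fun i => d i * d i) (fun _ _ => Nat.zero_le _) (mem_univ i)
  have := B.sq
  rw [← ty_eq]
  exact List.mem_flatMap.2 ⟨d i, List.mem_filter.2 ⟨List.mem_range.2 (by nlinarith),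
    decide_eq_true ⟨(B.dv i).2, Nat.mod_eq_zero_of_dvd (B.dv i).1⟩⟩, List.mem_flatMap.2
      ⟨a i, blk_mem B.A (by norm_num) (by norm_num) i ⟨dv _, dv _⟩ (by simp), List.mem_map.2
        ⟨b i, blk_mem B.B (by norm_num) (by norm_num) i ⟨dv _, dv _⟩ (by simp), rfl⟩⟩⟩

theorem dot_univ (r : ι → Rc) (i j : ℕ) : dot i j (univ.toList.map r) = ∑ x, (r x).getD i 0 * (r x).getD j 0 := by
  rw [dot_eq, List.map_map, Finset.sum_map_toList]; rfl

theorem na' (B : Base d a b ma mb) (P : PB 5 e K d a b u m) (he : e ≤ 4) (h : cA e K = true) :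
    K = 3 ∧ ∀ i, (u i).1 ≠ 0 → d i ∈ D5 := by
  have sq : ∑ i, (d i : ℤ) * d i = 10200959 := by have := B.sq; zify at this; omega
  obtain ⟨⟨a1, a2, a3, a4, a5, -, -⟩, ⟨b1, b2, b3, b4, b5, -, -⟩, c1, c2, c3, c4⟩ := And.intro B.A (And.intro B.B B.bt)
  obtain ⟨⟨h1, h2, h3, h4, h5, -, -⟩, ⟨d1, d2, d3, d4⟩, e1, e2, e3, e4⟩ := And.intro P.blk (And.intro P.ba P.bb)
  obtain ⟨acc, L, r1, r2, r3⟩ := top_ok (L := univ.toList.map fun i => rc (d i, a i, b i) 0 (u i) 0 0) h (by
      intro x hx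
      obtain ⟨i, -, rfl⟩ := List.mem_map.1 hx
      exact List.mem_flatMap.2 ⟨_, tl_mem B i, List.mem_map.2 ⟨u i, blk_mem P.blk (by norm_num) (by norm_num; omega) i
        (P.dv i) (by simp), rfl⟩⟩) (by
      intro j hj
      rw [dot_univ]
      interval_cases j <;> simp [rc, ← pow_two, n3, *]
      simpa [pow_two] using sq) (by
      simp only [mul_comm (Prod.fst (a _)), mul_comm (Prod.snd (a _))] at c1 c2 c3 c4 d1 d2 d3 d4
      simp only [mul_comm (Prod.fst (b _)) (Prod.fst (u _)), mul_comm (Prod.snd (b _)) (Prod.fst (u _))] at e1 e3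
      simp only [SA, H1, List.forall_mem_cons, dot_univ]
      simp [rc, sub_mul, *])
  simp only [Bool.and_eq_true, beq_iff_eq, List.all_eq_true, decide_eq_true_eq] at r3
  refine ⟨r3.1, fun i hi => ?_⟩
  rcases List.mem_append.1 (r1.mem_iff.2 (List.mem_map.2 ⟨i, by simp, rfl⟩)) with c | c
  · exact (hi ((r2 _ c).2 (1, H1) (by simp [SA]))).elim
  · exact (r3.2 _ c).resolve_left hi

theorem na : NA.{u} := fun d a b u ma mb m e K B P h => by
  simp only [O5, List.mem_cons, Prod.mk.injEq, List.not_mem_nil, or_false] at h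
  rcases h with h | h | h | h | h | h | h | h | h | h | h | h | h | h | h | h | h | h | h | h <;> obtain ⟨rfl, rfl⟩ := h
  · cases (na' B P (by norm_num) a2_1).1
  · cases (na' B P (by norm_num) a2_6).1
  · refine .inr ⟨rfl, fun i hi => (na' B P (by norm_num) a4_3).2 i fun c => hi ?_⟩
    have := (sum_eq_zero_iff_of_nonneg fun _ _ => sq_nonneg _).1 P.blk.n3 i (mem_univ i)
    rw [c] at this
    exact Prod.ext c (by simpa using this)
  · cases (na' B P (by norm_num) a2_16).1
  · cases (na' B P (by norm_num) a4_8).1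
  · cases (na' B P (by norm_num) a2_21).1
  · cases (na' B P (by norm_num) a2_36).1
  · cases (na' B P (by norm_num) a4_18).1
  · cases (na' B P (by norm_num) a2_56).1
  · exact .inl rfl
  · cases (na' B P (by norm_num) a2_96).1
  · cases (na' B P (by norm_num) a4_48).1
  · cases (na' B P (by norm_num) a2_126).1
  · cases (na' B P (by norm_num) a4_63).1
  · cases (na' B P (by norm_num) a2_336).1
  · cases (na' B P (by norm_num) a4_168).1
  · cases (na' B P (by norm_num) a2_576).1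
  · cases (na' B P (by norm_num) a4_288).1
  · cases (na' B P (by norm_num) a2_2016).1
  · cases (na' B P (by norm_num) a4_1008).1

theorem nb' {m' : ι → ℤ} (B : Base d a b ma mb) (P : PB 5 4 3 d a b u m) (C : Cp 5 4 3 d a b u w) (Q : PB 7 e K d a b h m')
    (D : Cp 7 e K d a b h k) (T : BT u h) (he : e ≤ 6) (hK : K = 2 → e = 3) (hc : cN e K = true) :
    K = 2 ∧ Fintype.card ι = 16 ∨ K = 16 ∧ Fintype.card ι ≤ 18 := by
  have sq : ∑ i, (d i : ℤ) * d i = 10200959 := by have := B.sq; zify at this; omega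
  have d5 := ((na d a b u ma mb m 4 3 B P (by decide)).resolve_left (by decide)).2
  obtain ⟨⟨a1, a2, a3, a4, a5, -, -⟩, ⟨b1, b2, b3, b4, b5, -, -⟩, c1, c2, c3, c4⟩ := And.intro B.A (And.intro B.B B.bt)
  obtain ⟨⟨h1, h2, h3, h4, h5, -, -⟩, ⟨d1, d2, d3, d4⟩, e1, e2, e3, e4⟩ := And.intro Q.blk (And.intro Q.ba Q.bb)
  obtain ⟨⟨u1, -, -, u4, -, -, -⟩, ⟨f1, -, f3, -⟩, g1, -, g3, -⟩ := And.intro P.blk (And.intro P.ba P.bb)
  obtain ⟨t1, t2, -, -⟩ := T
  have w1 := C.n1
  have w2 := C.l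
  have w3 := C.la
  have w4 := C.lb
  obtain ⟨acc, L, r1, r2, r3⟩ := top_ok
    (L := univ.toList.map fun i => rc (d i, a i, b i) (u i).1 (h i) (w i).1 (if K = 2 then k i else 0)) hc (by
      intro x hx
      obtain ⟨i, -, rfl⟩ := List.mem_map.1 hx
      refine List.mem_flatMap.2 ⟨_, tl_mem B i, List.mem_flatMap.2 ⟨h i, blk_mem Q.blk (by norm_num) (by norm_num; omega) i
        (Q.dv i) (by simp), List.mem_flatMap.2 ⟨if K = 2 then k i else 0, ?_, List.mem_append.2 ?_⟩⟩⟩
      · by_cases c : K = 2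
        · obtain rfl := hK c
          subst c
          by_cases c' : h i = 0
          · rw [if_pos ⟨rfl, c'⟩]; exact cp_mem D (by norm_num) (by norm_num) i c'
          · simp [c', D.z i c']
        · simp [c]
      · by_cases c : u i = 0
        · exact .inr (List.mem_map.2 ⟨w i, cp_mem C (by norm_num) (by norm_num) i c, by rw [c]; rfl⟩)
        · rw [if_pos (d5 i c)]
          exact .inl (List.mem_map.2 ⟨u i, blk_mem P.blk (by norm_num) (by norm_num) i (P.dv i) fun c' => (c c').elim,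
            by rw [C.z i c]; rfl⟩)) (by
      intro j hj
      rw [dot_univ]
      by_cases c : K = 2
      · obtain rfl := hK c
        subst c
        have k1 := D.n1
        have k2 := D.n2
        have k3 := D.n3
        interval_cases j <;> simp [rc, ← pow_two, n3, *]
        simpa [pow_two] using sq
      · interval_cases j <;> simp [rc, ← pow_two, n3, *]
        simpa [pow_two] using sq) (by
      simp only [mul_comm (Prod.fst (a _)), mul_comm (Prod.snd (a _))] at c1 c2 c3 c4 d1 d3 f1 f3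
      simp only [mul_comm (Prod.fst (b _)), mul_comm (Prod.snd (b _))] at e1 e3 g1 g3
      simp only [SN, H1, List.cons_append, List.nil_append, List.forall_mem_cons, dot_univ]
      simp [rc, sub_mul, *])
  obtain rfl : L = [] := List.eq_nil_iff_forall_not_mem.2 fun x hx => by
    obtain ⟨i, -, rfl⟩ := List.mem_map.1 (r2 x hx).1
    have : (d i : ℤ) = 0 := (r2 _ hx).2 (0, []) (by simp [SN])
    have := (B.dv i).2
    omega
  have := r1.length_eq
  simp only [List.nil_append, List.length_map, length_toList, card_univ] at this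
  simpa [this] using r3

theorem nb : NB.{u} := fun d a b u w h k ma mb m m' e K B P C Q D T o => by
  simp only [O7, List.mem_cons, Prod.mk.injEq, List.not_mem_nil, or_false] at o
  rcases o with o | o | o | o | o | o <;> obtain ⟨rfl, rfl⟩ := o
  · simpa using nb' B P C Q D T (by norm_num) (by norm_num) n1
  · simpa using nb' B P C Q D T (by norm_num) (by norm_num) n2
  · simpa using nb' B P C Q D T (by norm_num) (by norm_num) n3'
  · simpa using nb' B P C Q D T (by norm_num) (by norm_num) n4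
  · simpa using nb' B P C Q D T (by norm_num) (by norm_num) n5
  · simpa using nb' B P C Q D T (by norm_num) (by norm_num) n6

end CfH6.QC
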