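import Cfsg.Agent.H6.N23c
import Cfsg.Agent.H6.N23I
import Cfsg.Agent.H5.Q1a
import Cfsg.Agent.H1.Q2b
import Cfsg.Agent.H9.Q3
import Cfsg.Agent.H8.N4
/-! The recognition of `M₂₃` from the local data. -/
set_option autoImplicit false
namespace CfH6.M23
universe u

theorem ofQ0 (h0 : Q0.{u}) {G : Type u} [Group G] [Finite G] (hG : Cfsg.IsM23 G) : Cfsg.Spor.IsoM23 G :=
  final h0 CfH5.M23.q1 (CfH1.M23.q2_of @exE) CfH9.M23.q3 CfH8.M3.q4 q5 hG

end CfH6.M23
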