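import Cfsg.Agent.H6.N23Q7
import Cfsg.Agent.H6.N23z
import Cfsg.Agent.H1.R1
import Cfsg.Agent.H9.R2
import Cfsg.Agent.H5.R3
import Cfsg.Agent.H8.R4
import Cfsg.Agent.H9.R5
import Cfsg.Agent.H8.QA3
/-! The local data at `5` and `7`. -/
set_option autoImplicit false
namespace CfH6.QC
universe u

theorem qc : CfLm.QC.{u} := CfH9.M23.r5 CfH1.M23.r1 CfH9.M23.r2 CfH5.M23.r3 CfH8.QC.r4 na nb

theorem ofQB (hb : CfLm.QB.{u}) {G : Type u} [Group G] [Finite G] (hG : Cfsg.IsM23 G) : Cfsg.Spor.IsoM23 G :=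
  M23.ofQ0 (CfLm.q0_of CfH8.QA.qa hb qc) hG

end CfH6.QC
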