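import Cfsg.Agent.H4.Blk5
import Cfsg.Agent.H5.Integral
import Cfsg.Agent.H1.MB1a
/-! A character of degree 3 of a group of order 2688. -/
set_option autoImplicit false
set_option linter.all false
open Subgroup CfH9 CfH4 CfH4.GA Cfsg
open scoped ComplexConjugate
namespace CfH6.M23
universe u

theorem cnts {n : ℕ} [NeZero n] {ζ : ℂ} (hζ : IsPrimitiveRoot ζ n) (S : Multiset ℂ) (h : ∀ z ∈ S, z ^ n = 1) :
    ∃ m : Fin n → ℕ, ∀ k : ℕ, (S.map (· ^ k)).sum = ∑ j : Fin n, m j * ζ ^ (j.val * k % n) := by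
  induction S using Multiset.induction_on with
  | empty => exact ⟨0, by simp⟩
  | cons a S ih =>
    obtain ⟨m, hm⟩ := ih fun z hz => h z (Multiset.mem_cons_of_mem hz)
    obtain ⟨i, hi, rfl⟩ := hζ.eq_pow_of_pow_eq_one (h a (Multiset.mem_cons_self _ _))
    refine ⟨m + Pi.single ⟨i, hi⟩ 1, fun k => ?_⟩
    rw [Multiset.map_cons, Multiset.sum_cons, hm, ← pow_mul, pow_eq_pow_mod _ hζ.pow_eq_one]
    simp only [Pi.add_apply, Nat.cast_add, add_mul, Finset.sum_add_distrib]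
    rw [add_comm, Finset.sum_eq_single (f := fun j : Fin n => ((Pi.single (⟨i, hi⟩ : Fin n) 1 : Fin n → ℕ) j : ℂ) *
      ζ ^ (j.val * k % n)) ⟨i, hi⟩ (fun b _ hb => by simp [hb]) (by simp)]
    simp

variable {H : Type u} [Group H] [Finite H]

theorem eig {χ : H → ℂ} (hχ : IsCharacter H χ) {g : H} {n : ℕ} [NeZero n] (hg : orderOf g = n) {ζ : ℂ}
    (hζ : IsPrimitiveRoot ζ n) : ∃ m : Fin n → ℕ, ∀ k : ℕ, χ (g ^ k) = ∑ j : Fin n, m j * ζ ^ (j.val * k % n) := by
  obtain ⟨S, -, h2, h3⟩ := hχ.exists_eigen g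
  obtain ⟨m, hm⟩ := cnts hζ S (hg ▸ h2)
  exact ⟨m, fun k => (h3 k).trans (hm k)⟩

theorem exEta : ∃ η : ℂ, η ^ 2 + η + 2 = 0 ∧ ∀ {χ : H → ℂ}, IsCharacter H χ → ∀ {s x : H}, orderOf s = 7 →
    x * s * x⁻¹ = s ^ 2 → ∃ m : ℕ, ∃ a b : ℤ, χ 1 = 7 * m + 3 * (a + b) ∧ χ s = a * η + b * (-1 - η) ∧
      χ s⁻¹ = a * (-1 - η) + b * η := by
  have hζ := Complex.isPrimitiveRoot_exp 7 (by norm_num)
  generalize Complex.exp _ = ζ at hζ
  have h7 := hζ.pow_eq_one
  have h0 := hζ.geom_sum_eq_zero (by norm_num)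
  simp only [Finset.sum_range_succ, Finset.range_zero, Finset.sum_empty] at h0
  refine ⟨ζ + ζ ^ 2 + ζ ^ 4, by linear_combination 2 * h0 + ζ * h7, fun {χ} hχ s x hs e => ?_⟩
  obtain ⟨m, hm⟩ := eig hχ hs hζ
  have e1 := hm 1
  have e2 := hm 2
  have e0 := hm 0
  have e6 := hm 6
  rw [← e, hχ.classFun s x, ← pow_one s, e1] at e2
  rw [show s ^ 6 = s⁻¹ from eq_inv_of_mul_eq_one_left (by have := pow_orderOf_eq_one s; rwa [hs, pow_succ] at this)] at e6
  simp [Fin.sum_univ_succ] at e0 e1 e2 e6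
  have := (hζ.sum_eq_zero_iff_forall_eq_int (by norm_num)
    ![0, m 1 - m 4, m 2 - m 1, m 3 - m 5, m 4 - m 2, m 5 - m 6, m 6 - m 3]).1 (by
      simp [Fin.sum_univ_succ]; linear_combination e2)
  have a1 := this 1 0
  have a2 := this 2 0
  have a3 := this 3 0
  have a5 := this 5 0
  simp at a1 a2 a3 a5
  have b1 : m 4 = m 1 := by omega
  have b2 : m 2 = m 1 := by omega
  have b3 : m 5 = m 3 := by omega
  have b4 : m 6 = m 3 := by omega
  rw [b1, b2, b3, b4] at e0 e1 e6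
  refine ⟨m 0, m 1 - m 0, m 3 - m 0, ?_, ?_, ?_⟩ <;> push_cast
  · linear_combination e0
  · linear_combination e1 + (m 3 : ℂ) * h0
  · linear_combination e6 + (m 1 : ℂ) * h0

theorem six {θ : H → ℂ} (hθ : IsCharacter H θ) (h3 : θ 1 = 3) {g : H} (hg : orderOf g = 6) (e1 : θ (g ^ 5) = θ (g ^ 1))
    (e2 : θ (g ^ 2) = θ (g ^ 4)) : θ (g ^ 4) = θ 1 ∨ ‖θ (g ^ 3)‖ = ‖θ 1‖ ∨ θ g * conj (θ g) = 4 := by
  have hζ := Complex.isPrimitiveRoot_exp 6 (by norm_num)
  generalize Complex.exp _ = ζ at hζ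
  have k3 : ζ ^ 3 = -1 := (hζ.pow (a := 3) (b := 2) (by norm_num) rfl).eq_neg_one_of_two_right
  have k2 : ζ ^ 2 = ζ - 1 := by
    have : ζ + 1 ≠ 0 := fun h => hζ.pow_ne_one_of_pos_of_lt (l := 2) (by norm_num) (by norm_num)
      (by rw [eq_neg_of_add_eq_zero_left h]; norm_num)
    exact mul_left_cancel₀ this (by linear_combination k3)
  have k4 : ζ ^ 4 = -ζ := by linear_combination ζ * k3
  have k5 : ζ ^ 5 = 1 - ζ := by linear_combination ζ ^ 2 * k3 - k2
  have k : 2 * ζ - 1 ≠ 0 := fun h => by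
    have : (3 : ℂ) = 0 := by linear_combination (1 - 2 * ζ) * h + 4 * k2
    norm_num at this
  obtain ⟨m, hm⟩ := eig hθ hg hζ
  have f0 := hm 0
  have f1 := hm 1
  have f3 := hm 3
  have f4 := hm 4
  rw [hm, hm] at e1 e2
  simp [Fin.sum_univ_succ, k2, k3, k4, k5] at f0 f1 f3 f4 e1 e2
  have a1 : ((m 1 + m 2 - m 4 - m 5 : ℤ) : ℂ) = 0 := mul_left_cancel₀ k (by push_cast; linear_combination -e1)
  have a2 : ((m 1 + m 4 - m 2 - m 5 : ℤ) : ℂ) = 0 := mul_left_cancel₀ k (by push_cast; linear_combination e2)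
  have a0 : ((m 0 + m 1 + m 2 + m 3 + m 4 + m 5 : ℕ) : ℂ) = (3 : ℕ) := by push_cast; linear_combination h3 - f0
  replace a0 := Nat.cast_injective a0
  rw [Int.cast_eq_zero] at a1 a2
  have b1 : m 5 = m 1 := by omega
  have b2 : m 4 = m 2 := by omega
  rw [b1, b2] at f1 f3 f4
  replace f1 : θ g = m 0 - m 3 + m 1 - m 2 := by linear_combination f1
  rw [f1, f3, f4, h3]
  have : (m 1 = 0 ∧ m 2 = 0 ∧ m 0 + m 3 = 3) ∨ (m 0 = 1 ∧ m 3 = 0 ∧ m 1 = 1 ∧ m 2 = 0) ∨
    (m 0 = 1 ∧ m 3 = 0 ∧ m 1 = 0 ∧ m 2 = 1) ∨ (m 0 = 0 ∧ m 3 = 1 ∧ m 1 = 1 ∧ m 2 = 0) ∨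
    (m 0 = 0 ∧ m 3 = 1 ∧ m 1 = 0 ∧ m 2 = 1) := by omega
  rcases this with ⟨c1, c2, c3⟩ | ⟨c1, c2, c3, c4⟩ | ⟨c1, c2, c3, c4⟩ | ⟨c1, c2, c3, c4⟩ | ⟨c1, c2, c3, c4⟩
  · left; rw [c1, c2]; simp only [Nat.cast_zero, zero_mul, neg_zero, zero_add, add_zero]; exact_mod_cast c3
  all_goals rw [c1, c2, c3, c4]; right; simp [map_ofNat]; norm_num

open Classical in
theorem jsum {z : H} (zc : z ∈ center H) (z2 : z * z = 1) (a b : H) :
    2 * ∑ χ ∈ Finset.univ.filter (fun χ : IrrCharacter H => ∀ g, (χ : H → ℂ) (z * g) = (χ : H → ℂ) g),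
      (χ : H → ℂ) a * conj ((χ : H → ℂ) b) = (if IsConj a b then (Nat.card Cx(a) : ℂ) else 0) +
        if IsConj (z * a) b then (Nat.card Cx(z * a) : ℂ) else 0 := by
  rw [← sum_irr_mul_conj, ← sum_irr_mul_conj, ← Finset.sum_add_distrib, Finset.sum_filter, Finset.mul_sum]
  refine Finset.sum_congr rfl fun χ _ => ?_
  split_ifs with h
  · rw [h]; ring
  · rw [(irr_central_invol zc z2 χ).resolve_left h]; ring

theorem ind0 {η : ℂ} (h : η ^ 2 + η + 2 = 0) {a b : ℤ} (e : a + b * η = 0) : a = 0 ∧ b = 0 := by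
  have : ((a ^ 2 - a * b + 2 * b ^ 2 : ℤ) : ℂ) = 0 := by
    push_cast; linear_combination (a - b - b * η) * e + (b : ℂ) ^ 2 * h
  norm_cast at this
  have hb : b = 0 := pow_eq_zero_iff two_ne_zero |>.1 (le_antisymm (by nlinarith [sq_nonneg (2 * a - b)]) (sq_nonneg b))
  subst hb
  exact ⟨by simpa using this, rfl⟩

theorem arith {ι : Type*} [DecidableEq ι] (J : Finset ι) (t : ι) (ht : t ∈ J) (a b d : ι → ℤ) (m : ι → ℕ)
    (hd : ∀ i, d i = 7 * m i + 3 * (a i + b i)) (dv : ∀ i, 0 < d i ∧ d i ≤ 51 ∧ d i ∣ 2688) (d1 : ∀ i ∈ J, d i = 1 → i = t)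
    (at' : a t = -1) (bt : b t = -1) (dt : d t = 1)
    (s1 : ∑ i ∈ J, (2 * a i ^ 2 + 2 * b i ^ 2 - 3 * a i * b i) = 7)
    (s2 : ∑ i ∈ J, (-2 * a i ^ 2 + 4 * a i * b i - b i ^ 2) = 0) (s3 : ∑ i ∈ J, (b i ^ 2 - a i ^ 2) = 0)
    (s4 : ∑ i ∈ J, d i * b i = 0) (s5 : ∑ i ∈ J, d i * (a i - b i) = 0) :
    ∃ i ∈ J, ∃ j ∈ J, i ≠ j ∧ d i = 3 ∧ d j = 3 ∧ a i = 1 ∧ b i = 0 ∧ a j = 0 ∧ b j = 1 := by
  simp only [Finset.sum_add_distrib, Finset.sum_sub_distrib, mul_assoc, ← Finset.mul_sum] at s1 s2 s3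
  have t1 : ∑ i ∈ J, (a i - b i) ^ 2 = 2 := by
    simp only [sub_sq, Finset.sum_add_distrib, Finset.sum_sub_distrib, mul_assoc, ← Finset.mul_sum]; omega
  have t2 : ∑ i ∈ J, b i ^ 2 = 4 := by omega
  have key : ∀ i ∈ J, ∀ j ∈ J, i ≠ j → a i - b i = 1 → a j - b j = -1 → d i = d j →
      (a i + b i) - (a j + b j) = 0 → d i = 3 ∧ d j = 3 ∧ a i = 1 ∧ b i = 0 ∧ a j = 0 ∧ b j = 1 := by
    intro i hi j hj ij e1 e2 e3 e4
    have it : i ≠ t := by rintro rfl; omega
    have jt : j ≠ t := by rintro rfl; omega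
    have m1 : i ∈ J.erase t := Finset.mem_erase.2 ⟨it, hi⟩
    have m2 : j ∈ (J.erase t).erase i := Finset.mem_erase.2 ⟨ij.symm, Finset.mem_erase.2 ⟨jt, hj⟩⟩
    have sp : ∀ f : ι → ℤ, ∑ k ∈ J, f k = f t + (f i + (f j + ∑ k ∈ ((J.erase t).erase i).erase j, f k)) := fun f => by
      rw [Finset.add_sum_erase _ _ m2, Finset.add_sum_erase _ _ m1, Finset.add_sum_erase _ _ ht]
    have p0 : 0 ≤ ∑ k ∈ ((J.erase t).erase i).erase j, b k ^ 2 := Finset.sum_nonneg fun _ _ => sq_nonneg _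
    have z1 : ∑ k ∈ ((J.erase t).erase i).erase j, (a k - b k) ^ 2 = 0 := by
      rw [sp, e1, e2, at', bt] at t1; omega
    rw [sp, bt] at t2 s4
    have bj : b j = b i + 1 := by omega
    have bi : b i = 0 ∨ b i = -1 := by
      rw [bj] at t2
      have : -2 < b i := by nlinarith
      have : b i < 1 := by nlinarith
      omega
    obtain ⟨k, hk, l, hl, k1, l1, -, f⟩ := exists_pair_of_sum_sq (J := ((J.erase t).erase i).erase j) (w := b)
      (by rcases bi with h | h <;> rw [bj, h] at t2 <;> omega)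
    have f1 : ∑ k ∈ ((J.erase t).erase i).erase j, d k * b k = b k * d k + b l * d l := by
      have := f fun k => d k
      simp only [mul_comm (d _)]
      exact_mod_cast this
    have k2 := eq_zero_of_sum_sq z1 hk
    have l2 := eq_zero_of_sum_sq z1 hl
    have k3 : d k ≠ 1 := fun h => (Finset.mem_erase.1 (Finset.mem_of_mem_erase (Finset.mem_of_mem_erase hk))).1
      (d1 k (Finset.mem_of_mem_erase (Finset.mem_of_mem_erase (Finset.mem_of_mem_erase hk))) h)
    have l3 : d l ≠ 1 := fun h => (Finset.mem_erase.1 (Finset.mem_of_mem_erase (Finset.mem_of_mem_erase hl))).1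
      (d1 l (Finset.mem_of_mem_erase (Finset.mem_of_mem_erase (Finset.mem_of_mem_erase hl))) h)
    have q : ∀ x : ℤ, 0 < x ∧ x ≤ 51 ∧ x ∣ 2688 → (x % 7 = 1 → x = 1 ∨ x = 8) ∧ (x % 7 = 6 → x = 6 ∨ x = 48) ∧
        (x % 7 = 3 → x = 3 ∨ x = 24) ∧ (x % 7 = 4 → x = 4 ∨ x = 32) := by
      rintro x ⟨h1, h2, h3⟩
      lift x to ℕ using h1.le
      have := (by decide +kernel : ∀ x < 52, 2688 % x ≠ 0 ∨ x ∈ [1, 2, 3, 4, 6, 7, 8, 12, 14, 16, 21, 24, 28, 32, 42, 48]) x
        (by omega) |>.resolve_left (by simpa using Nat.mod_eq_zero_of_dvd (by exact_mod_cast h3 : x ∣ 2688))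
      simp only [List.mem_cons, List.not_mem_nil, or_false] at this
      rcases this with h | h | h | h | h | h | h | h | h | h | h | h | h | h | h | h <;> subst h <;> norm_num
    have r : ∀ k, b k = 1 ∨ b k = -1 → a k - b k = 0 → d k ≠ 1 → b k * d k = 6 ∨ b k * d k = 48 ∨ b k * d k = -8 := by
      intro k h1 h2 h3
      have := hd k
      rcases h1 with h | h <;> rw [h]
      · have := (q _ (dv k)).2.1 (by omega)
        omega
      · have := (q _ (dv k)).1 (by omega)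
        omega
    have qk := r k k1 k2 k3
    have ql := r l l1 l2 l3
    have di := hd i
    rw [f1, dt, bj, ← e3] at s4
    generalize b k * d k = X at *
    generalize b l * d l = Y at *
    rcases bi with h | h <;> rw [h] at s4
    · have := (q _ (dv i)).2.2.1 (by omega)
      have : d i = 3 := by clear * - this s4 qk ql; omega
      omega
    · have := (q _ (dv i)).2.2.2 (by omega)
      clear * - this s4 qk ql; omega
  obtain ⟨i, hi, j, hj, i1, j1, ij, f⟩ := exists_pair_of_sum_sq (w := fun i => a i - b i) t1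
  have f1 : (a i - b i) * d i + (a j - b j) * d j = 0 := by
    have := f fun k => d k
    rw [← s5]
    simp only [mul_comm (d _)]
    exact_mod_cast this.symm
  have f2 : (a i - b i) * (a i + b i) + (a j - b j) * (a j + b j) = 0 := by
    have := f fun k => a k + b k
    have e : ∑ k ∈ J, (a k - b k) * (a k + b k) = 0 := by
      simp only [fun k => show (a k - b k) * (a k + b k) = a k ^ 2 - b k ^ 2 by ring, Finset.sum_sub_distrib]; omega
    rw [← e]
    exact_mod_cast this.symm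
  have := (dv i).1
  have := (dv j).1
  rcases i1 with i1 | i1 <;> rcases j1 with j1 | j1 <;> rw [i1, j1] at f1 f2
  · omega
  · exact ⟨i, hi, j, hj, ij, key i hi j hj ij i1 j1 (by omega) (by omega)⟩
  · exact ⟨j, hj, i, hi, ij.symm, key j hj i hi ij.symm j1 i1 (by omega) (by omega)⟩
  · omega

section main
variable {z s x v u : H}

theorem deg3 (hH : Nat.card H = 2688) (zc : z ∈ center H) (hz : orderOf z = 2) (hs : orderOf s = 7) (hx : orderOf x = 3)
    (cs : Nat.card Cx(s) = 14) (ns : Nat.card Nm(zpowers s) = 42) (xs : x * s * x⁻¹ = s ^ 2) (u2 : u * x * u⁻¹ = x⁻¹) :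
    ∃ θ₁ θ₂ : IrrCharacter H, θ₁ ≠ θ₂ ∧ ∀ θ : IrrCharacter H, θ = θ₁ ∨ θ = θ₂ →
      (∀ g, (θ : H → ℂ) (z * g) = (θ : H → ℂ) g) ∧ (θ : H → ℂ) 1 = 3 ∧ (θ : H → ℂ) s * conj ((θ : H → ℂ) s) = 2 := by
  classical
  have := Fact.mk (by norm_num : Nat.Prime 7)
  have z2 : z * z = 1 := by have := pow_orderOf_eq_one z; rwa [hz, sq] at this
  have zz : ∀ g, Commute z g := fun g => (mem_center_iff.1 zc g).symm
  have ozs : orderOf (z * s) = 14 := by rw [(zz s).orderOf_mul_eq_mul_orderOf_of_coprime (by rw [hz, hs]; norm_num), hz, hs]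
  have nc : ∀ {a b : H}, orderOf a ≠ orderOf b → ¬ IsConj a b := fun h c => by
    obtain ⟨g, rfl⟩ := isConj_iff.1 c
    exact h (CfH1.MB1.ord_conj _ _).symm
  have xN : x ∈ Nm(zpowers s) := mem_normalizer_of_cj_le (by
    rintro _ ⟨_, ⟨n, rfl⟩, rfl⟩
    change x * s ^ n * x⁻¹ ∈ _
    rw [← conj_zpow, xs]; exact zpow_mem (pow_mem (mem_zpowers s) _) n)
  have zN : z ∈ Nm(zpowers s) := center_le_normalizer _ zc
  have full : ∀ K : Subgroup H, z ∈ K → x ∈ K → s ∈ K → Nm(zpowers s) ≤ K := fun K a b c => by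
    have d := fun g (h1 : g ∈ K) (h2 : g ∈ Nm(zpowers s)) => (K ⊓ Nm(zpowers s)).orderOf_dvd_natCard (x := g) ⟨h1, h2⟩
    have d1 := d z a zN
    have d2 := d x b xN
    have d3 := d s c (le_normalizer (mem_zpowers s))
    rw [hz] at d1; rw [hx] at d2; rw [hs] at d3
    exact inf_eq_right.1 (eq_of_le_of_card_ge inf_le_right (ns ▸ Nat.le_of_dvd Nat.card_pos (by omega)))
  have nr : ¬ IsConj s s⁻¹ := fun c => by
    obtain ⟨g, e⟩ := isConj_iff.1 c
    have gN : g ∈ Nm(zpowers s) := mem_normalizer_of_cj_le (by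
      rintro _ ⟨_, ⟨n, rfl⟩, rfl⟩
      change g * s ^ n * g⁻¹ ∈ _
      rw [← conj_zpow, e]; exact zpow_mem (inv_mem (mem_zpowers s)) n)
    let K : Subgroup H :=
      { carrier := {g | g * s * g⁻¹ = s ∨ g * s * g⁻¹ = s ^ 2 ∨ g * s * g⁻¹ = s ^ 4}
        one_mem' := Or.inl (by simp)
        mul_mem' := fun {a b} ha hb => by
          have r : ∀ n, s ^ n = s ^ (n % 7) := fun n => hs ▸ (pow_mod_orderOf s n).symm
          change a * b * s * (a * b)⁻¹ = s ∨ a * b * s * (a * b)⁻¹ = s ^ 2 ∨ a * b * s * (a * b)⁻¹ = s ^ 4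
          rw [show a * b * s * (a * b)⁻¹ = a * (b * s * b⁻¹) * a⁻¹ by group]
          rcases hb with h | h | h <;> rw [h] <;> try rw [← conj_pow]
          · exact ha
          all_goals rcases ha with h | h | h <;> rw [h, r] <;> try rw [← pow_mul, r]
          all_goals simp
        inv_mem' := fun {a} ha => by
          have r : ∀ n, s ^ n = s ^ (n % 7) := fun n => hs ▸ (pow_mod_orderOf s n).symm
          have k : ∀ n, a * s ^ n * a⁻¹ = s → a⁻¹ * s * a⁻¹⁻¹ = s ^ n := fun n h => by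
            conv_lhs => rw [← h]
            group
          rcases ha with h | h | h
          · exact Or.inl (by simpa using k 1 (by simpa using h))
          · exact Or.inr (Or.inr (k 4 (by rw [← conj_pow, h, ← pow_mul, r]; simp)))
          · exact Or.inr (Or.inl (k 2 (by rw [← conj_pow, h, ← pow_mul, r]; simp))) }
    have nd : ∀ n, ¬ 7 ∣ n + 1 → s⁻¹ ≠ s ^ n := fun n h e => h (hs ▸ orderOf_dvd_of_pow_eq_one (by rw [pow_succ, ← e]; simp))
    rcases full K (Or.inl (by rw [(zz s).eq]; simp)) (Or.inr (Or.inl xs)) (Or.inl (by simp)) gN with h | h | h <;> rw [e] at h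
    exacts [nd 1 (by norm_num) (by simpa using h), nd 2 (by norm_num) h, nd 4 (by norm_num) h]
  obtain ⟨η, hη, val⟩ := exEta (H := H)
  choose m a b h1 h2 h3 using fun χ : IrrCharacter H => val χ.2.isCharacter hs xs
  have cj : ∀ (χ : IrrCharacter H) g, conj ((χ : H → ℂ) g) = (χ : H → ℂ) g⁻¹ := fun χ g => (χ.2.isCharacter.apply_inv g).symm
  have j1 := jsum zc z2 s s
  have j2 := jsum zc z2 s s⁻¹
  have j3 := jsum zc z2 s 1
  rw [if_pos (IsConj.refl s), if_neg (nc (by rw [ozs, hs]; norm_num)), cs] at j1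
  rw [if_neg nr, if_neg (nc (by rw [ozs, orderOf_inv, hs]; norm_num))] at j2
  rw [if_neg (nc (by rw [hs, orderOf_one]; norm_num)), if_neg (nc (by rw [ozs, orderOf_one]; norm_num))] at j3
  set J := Finset.univ.filter (fun χ : IrrCharacter H => ∀ g, (χ : H → ℂ) (z * g) = (χ : H → ℂ) g) with hJ
  simp only [cj, inv_inv, inv_one] at j1 j2 j3
  simp only [h1, h2, h3, add_zero] at j1 j2 j3
  have k2 := ind0 hη (a := ∑ i ∈ J, (-2 * a i ^ 2 + 4 * a i * b i - b i ^ 2)) (b := ∑ i ∈ J, (b i ^ 2 - a i ^ 2)) (by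
    push_cast
    rw [Finset.sum_mul, ← Finset.sum_add_distrib, ← mul_right_inj' two_ne_zero, mul_zero]
    refine Eq.trans ?_ j2
    congr 1
    exact Finset.sum_congr rfl fun i _ => by linear_combination (-(a i : ℂ) ^ 2 + 2 * a i * b i - b i ^ 2) * hη)
  have k3 := ind0 hη (a := -∑ i ∈ J, (7 * m i + 3 * (a i + b i)) * b i) (b := ∑ i ∈ J, (7 * m i + 3 * (a i + b i)) * (a i - b i)) (by
    push_cast
    rw [Finset.sum_mul, ← Finset.sum_neg_distrib, ← Finset.sum_add_distrib, ← mul_right_inj' two_ne_zero, mul_zero]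
    refine Eq.trans ?_ j3
    congr 1
    exact Finset.sum_congr rfl fun i _ => by ring)
  have k1 : ((∑ i ∈ J, (2 * a i ^ 2 + 2 * b i ^ 2 - 3 * a i * b i) : ℤ) : ℂ) = (7 : ℤ) := by
    push_cast at j1 ⊢
    rw [← mul_right_inj' two_ne_zero, show (2 : ℂ) * 7 = 14 by norm_num, ← j1]
    congr 1
    exact Finset.sum_congr rfl fun i _ => by linear_combination ((a i : ℂ) ^ 2 - 2 * a i * b i + b i ^ 2) * hη
  have tv := ind0 hη (a := -b (triv H) - 1) (b := a (triv H) - b (triv H)) (by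
    have := h2 (triv H)
    rw [triv_apply] at this
    push_cast; linear_combination -this)
  have dI : ∀ χ : IrrCharacter H, (χ : H → ℂ) 1 = ((7 * m χ + 3 * (a χ + b χ) : ℤ) : ℂ) := fun χ => by rw [h1]; push_cast; rfl
  obtain ⟨i, hi, j, hj, ij, r1, r2, r3, r4, r5, r6⟩ := arith J (triv H) (by simp [hJ, triv_apply]) a b
    (fun i => 7 * m i + 3 * (a i + b i)) m (fun _ => rfl) (fun χ => by
      obtain ⟨S, e, -⟩ := χ.2.isCharacter.exists_eigen 1
      have e1 : (7 * m χ + 3 * (a χ + b χ) : ℤ) = S.card := by exact_mod_cast (dI χ).symm.trans e.symm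
      have e2 := CfH5.degree_dvd_card χ.2 e.symm
      have e3 := Finset.single_le_sum (f := fun χ : IrrCharacter H => ‖(χ : H → ℂ) 1‖ ^ 2) (fun _ _ => sq_nonneg _)
        (Finset.mem_univ χ)
      have e4 : S.card ≠ 0 := fun h => χ.2.apply_one_ne_zero (by rw [← e, h]; simp)
      simp only [sum_irr_normSq] at e3
      rw [← e, Complex.norm_natCast] at e3
      have e5 : S.card ^ 2 ≤ 2688 := hH ▸ (by exact_mod_cast e3 : S.card ^ 2 ≤ Nat.card Cx((1 : H))).trans (card_le_card_group _)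
      rw [hH] at e2
      simp only [e1]
      exact ⟨by omega, by have : S.card ≤ 51 := by nlinarith
                          omega, by exact_mod_cast e2⟩)
    (fun χ hχ e => by
      have e1 : (χ : H → ℂ) 1 = 1 := by rw [dI, e]; simp
      have mu := χ.2.isCharacter.map_mul_of_apply_one e1
      have kz : z ∈ charKer (χ : H → ℂ) := (Finset.mem_filter.1 hχ).2
      have kx : x ∈ charKer (χ : H → ℂ) := χ.2.isCharacter.mem_charKer.2 (by
        have t1 : (χ : H → ℂ) (x * x) = 1 := by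
          rw [mu]; nth_rewrite 1 [← χ.2.classFun x u]; rw [u2, ← mu, inv_mul_cancel, e1]
        have t2 : x * x * x = 1 := by have := pow_orderOf_eq_one x; rwa [hx, pow_three'] at this
        rw [← t2, mu, t1, one_mul])
      have := χ.2.classFun.normal_charKer
      have ks : s ∈ charKer (χ : H → ℂ) := by
        rw [show s = x * (s * x⁻¹ * s⁻¹) by rw [← mul_assoc, ← mul_assoc, xs, sq]; simp]
        exact mul_mem kx (this.conj_mem _ (inv_mem kx) _)
      have sy : SylIn 7 (zpowers s) (charKer (χ : H → ℂ)) := sylIn_of_not_dvd (zpowers_le.2 ks)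
        (IsPGroup.of_card (n := 1) (by rw [Nat.card_zpowers, hs]; rfl)) fun h => by
          have := (Nat.mul_dvd_mul_left (Nat.card (zpowers s)) h).trans
            ((card_mul_relIndex (zpowers_le.2 ks)).dvd.trans (card_subgroup_dvd_card _))
          rw [Nat.card_zpowers, hs, hH] at this
          norm_num at this
      refine Subtype.ext (funext fun g => ?_)
      obtain ⟨n, hn, y, hy, rfl⟩ := sy.frattini (mem_Nm_of_normal g _)
      rw [apply_eq_of_mem_charKer (mul_mem hn (full _ kz kx ks hy)), e1]; rfl)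
    (by omega) (by omega) (by have := dI (triv H); rw [triv_apply] at this; exact_mod_cast this.symm)
    (Int.cast_injective k1) k2.1 k2.2 (by omega) k3.2
  refine ⟨i, j, ij, ?_⟩
  rintro θ (rfl | rfl)
  · exact ⟨(Finset.mem_filter.1 hi).2, by rw [dI, r1]; simp, by rw [cj, h2, h3, r3, r4]; push_cast; linear_combination -hη⟩
  · exact ⟨(Finset.mem_filter.1 hj).2, by rw [dI, r2]; simp, by rw [cj, h2, h3, r5, r6]; push_cast; linear_combination -hη⟩
end main
end CfH6.M23
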