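import Cfsg.Agent.H6.N23b
import Cfsg.Agent.H6.N23a
/-! The normal `2⁴` of the involution centralizer of order 2688. -/
set_option autoImplicit false
set_option linter.all false
open Subgroup CfH9 CfH4 CfH4.GA Cfsg
open scoped ComplexConjugate
namespace CfH6.M23
universe u
section
variable {H : Type u} [Group H] [Finite H] {z s x v u : H}

theorem sylp {p : ℕ} [Fact p.Prime] {a b : H} (h : ¬ p * p ∣ Nat.card H) (ha : orderOf a = p) (hb : orderOf b = p) :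
    ∃ g : H, g * b * g⁻¹ ∈ zpowers a := by
  have sy : SylIn p (zpowers a) ⊤ := sylIn_of_not_dvd le_top
    (IsPGroup.of_card (n := 1) (by rw [Nat.card_zpowers, ha, pow_one])) fun h' => h (by
      have := card_mul_relIndex (le_top (a := zpowers a))
      rw [Nat.card_zpowers, ha, card_top] at this
      exact this ▸ Nat.mul_dvd_mul_left p h')
  obtain ⟨g, -, e⟩ := sy.exists_conj_mem (mem_top b) (k := 1) (by rw [pow_one, ← hb, pow_orderOf_eq_one])
  exact ⟨g, e⟩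

theorem pmem {p : ℕ} [Fact p.Prime] {a : H} (h : ¬ p * p ∣ Nat.card H) (ha : orderOf a = p) (M : Subgroup H)
    [hM : M.Normal] (d : p ∣ Nat.card M) : a ∈ M := by
  obtain ⟨b, hb⟩ := exists_prime_orderOf_dvd_card' p d
  obtain ⟨g, e⟩ := sylp h ((orderOf_coe b).trans hb) ha
  simpa [mul_assoc] using hM.conj_mem _ (zpowers_le.2 b.2 e) g⁻¹

theorem zp2 (hz : orderOf z = 2) {e : H} (h : e ∈ zpowers z) : e = 1 ∨ e = z := by
  classical
  rw [mem_zpowers_iff_mem_range_orderOf, hz] at h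
  simpa [Finset.range_add_one, eq_comm, or_comm] using h

theorem xs_mem (xs : x * s * x⁻¹ = s ^ 2) (M : Subgroup H) [hM : M.Normal] (h : x ∈ M) : s ∈ M := by
  rw [show s = x * (s * x⁻¹ * s⁻¹) by rw [← mul_assoc, ← mul_assoc, xs, sq]; simp]
  exact mul_mem h (hM.conj_mem _ (inv_mem h) _)

theorem n16 (hH : Nat.card H = 2688) (zc : z ∈ center H) (hz : orderOf z = 2) (hs : orderOf s = 7) (hx : orderOf x = 3)
    (cs : Nat.card Cx(s) = 14) (xs : x * s * x⁻¹ = s ^ 2) (u2 : u * x * u⁻¹ = x⁻¹) (vz : v ≠ z) (v1 : v ≠ 1)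
    (M : Subgroup H) [hM : M.Normal] (zM : z ∈ M) (vM : v ∈ M) (sM : s ∉ M) :
    Nat.card M = 16 ∧ ∀ t ∈ zpowers s, ∀ e ∈ M, t ≠ 1 → t * e = e * t → e = 1 ∨ e = z := by
  have := Fact.mk (by norm_num : Nat.Prime 7)
  have xM : x ∉ M := fun h => sM (xs_mem xs M h)
  have d3 : ¬ 3 ∣ Nat.card M := fun h => xM (pmem (by rw [hH]; norm_num) hx M h)
  have d7 : ¬ 7 ∣ Nat.card M := fun h => sM (pmem (by rw [hH]; norm_num) hs M h)
  have d : Nat.card M ∣ 2 ^ 7 := by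
    have := card_subgroup_dvd_card M
    rw [hH, show 2688 = 2 ^ 7 * 3 * 7 by norm_num] at this
    exact ((Nat.prime_three.coprime_iff_not_dvd).2 d3).symm.dvd_of_dvd_mul_right
      ((((by norm_num : Nat.Prime 7).coprime_iff_not_dvd).2 d7).symm.dvd_of_dvd_mul_right this)
  have z1 : z ≠ 1 := by rintro rfl; simp at hz
  have fx : ∀ t ∈ zpowers s, ∀ e ∈ M, t ≠ 1 → t * e = e * t → e = 1 ∨ e = z := fun t ht e he t1 c => by
    have o : orderOf t = 7 := ((Nat.dvd_prime (by norm_num)).1 (hs ▸ orderOf_dvd_of_mem_zpowers ht)).resolve_left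
      (by simpa using t1)
    have e1 := eq_of_le_of_card_ge (zpowers_le.2 ht) (by rw [Nat.card_zpowers, Nat.card_zpowers, o, hs])
    have e2 : e ∈ Cx(s) := mem_Cx.2 (CfH1.MB1.comm_zp (e1 ▸ mem_zpowers s) c.symm)
    have a1 := (card_dvd_of_le (inf_le_left (a := M) (b := Cx(s)))).trans d
    have a2 := cs ▸ card_dvd_of_le (inf_le_right (a := M) (b := Cx(s)))
    have a3 := Nat.le_of_dvd (by norm_num) (Nat.dvd_gcd a1 a2)
    have := eq_of_le_of_card_ge (zpowers_le.2 (show z ∈ M ⊓ Cx(s) from ⟨zM, mem_Cx.2 (mem_center_iff.1 zc s).symm⟩))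
      (by rw [Nat.card_zpowers, hz]; exact a3)
    exact zp2 hz (this ▸ ⟨he, e2⟩)
  refine ⟨?_, fx⟩
  obtain ⟨k, hk⟩ := CfH1.MB1.cnt (P := zpowers s) (X := M) (fun g _ => mem_Nm_of_normal g M) {1, z}
    (by rintro _ (rfl | rfl); exacts [one_mem _, zM]) fun y hy => ⟨fun h => ⟨s, mem_zpowers s, by rintro rfl; simp at hs, by
      rcases h with rfl | rfl
      exacts [by simp, mem_center_iff.1 zc s]⟩, fun ⟨t, h1, h2, h3⟩ => fx t h1 y hy h2 h3⟩
  rw [Set.ncard_pair z1.symm, Nat.card_zpowers, hs] at hk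
  obtain ⟨i, hi, e⟩ := (Nat.dvd_prime_pow Nat.prime_two).1 d
  have : Nat.card M = 2 ∨ Nat.card M = 16 ∨ Nat.card M = 128 := by interval_cases i <;> omega
  rcases this with h | h | h
  · have := eq_of_le_of_card_ge (zpowers_le.2 zM) (by rw [Nat.card_zpowers, hz, h])
    exact ((zp2 hz (this ▸ vM)).elim v1 vz).elim
  · exact h
  · have ix := M.card_mul_index
    rw [h, hH] at ix
    have w := M.pow_index_mem u
    rw [show M.index = 2 * 10 + 1 by omega, pow_succ, pow_mul] at w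
    have c : Commute (u ^ 2) x := by
      rw [Commute, SemiconjBy, ← mul_inv_eq_iff_eq_mul, show u ^ 2 * x * (u ^ 2)⁻¹ = u * (u * x * u⁻¹) * u⁻¹ by rw [sq]; group, u2,
        ← conj_inv, u2, inv_inv]
    have c' := (c.pow_left 10).inv_right.eq
    generalize (u ^ 2) ^ 10 = w' at *
    have x3 : x⁻¹ * x⁻¹ = x := by
      have := pow_orderOf_eq_one x
      rw [hx] at this
      rw [← mul_inv_rev, inv_eq_iff_mul_eq_one, ← this, pow_three']
    refine (xM ?_).elim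
    have := mul_mem w (hM.conj_mem _ (inv_mem w) x)
    rwa [show w' * u * (x * (w' * u)⁻¹ * x⁻¹) = w' * (u * x * u⁻¹) * w'⁻¹ * x⁻¹ by group, u2, c', mul_inv_cancel_right,
      x3] at this

theorem exN (hH : Nat.card H = 2688) (zc : z ∈ center H) (hz : orderOf z = 2) (hs : orderOf s = 7) (hx : orderOf x = 3)
    (cs : Nat.card Cx(s) = 14) (ns : Nat.card Nm(zpowers s) = 42) (xs : x * s * x⁻¹ = s ^ 2) (u2 : u * x * u⁻¹ = x⁻¹)
    (cx : Nat.card Cx(x) = 12) (hv : orderOf v = 2) (c3 : v * x = x * v) (u3 : u * v * u⁻¹ = v * z) :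
    ∃ M : Subgroup H, M.Normal ∧ z ∈ M ∧ v ∈ M ∧ s ∉ M := by
  classical
  obtain ⟨θ₁, θ₂, ne, h⟩ := deg3 hH zc hz hs hx cs ns xs u2
  have zz : ∀ g, Commute z g := fun g => (mem_center_iff.1 zc g).symm
  have z1 : z ≠ 1 := by rintro rfl; simp at hz
  have z2 : z ^ 2 = 1 := hz ▸ pow_orderOf_eq_one z
  have v2 : v ^ 2 = 1 := hv ▸ pow_orderOf_eq_one v
  have x3 : x ^ 3 = 1 := hx ▸ pow_orderOf_eq_one x
  have xv : Commute x v := c3.symm
  have xi : x ^ 2 = x⁻¹ := eq_inv_of_mul_eq_one_left (by rw [← pow_succ, x3])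
  have og : orderOf (x * v) = 6 := by rw [xv.orderOf_mul_eq_mul_orderOf_of_coprime (by rw [hx, hv]; norm_num), hx, hv]
  have pw : ∀ n, (x * v) ^ n = x ^ (n % 3) * v ^ (n % 2) := fun n => by
    rw [xv.mul_pow, pow_eq_pow_mod n x3, pow_eq_pow_mod n v2]
  have g4 : (x * v) ^ 4 = x := by simpa using pw 4
  have g3 : (x * v) ^ 3 = v := by simpa using pw 3
  by_contra hn
  have k : ∀ θ : IrrCharacter H, θ = θ₁ ∨ θ = θ₂ → ‖(θ : H → ℂ) (x * v)‖ ^ 2 = 4 := fun θ hθ => by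
    obtain ⟨a1, a2, a3⟩ := h θ hθ
    have sM : s ∉ charCenter (θ : H → ℂ) := fun m => by
      rw [Complex.mul_conj', norm_apply_eq_of_mem_charCenter m, a2] at a3
      norm_num at a3
    rcases six θ.2.isCharacter a2 og (by
        rw [pw, pow_one (x * v), ← θ.2.classFun (x * v) u, show u * (x * v) * u⁻¹ = u * x * u⁻¹ * (u * v * u⁻¹) by group, u2, u3,
          ← mul_assoc, ← (zz _).eq, a1]
        simp [xi]) (by rw [g4, pw, ← θ.2.classFun x u, u2]; simp [xi]) with e | e | e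
    · have := θ.2.classFun.normal_charCenter
      exact (sM (xs_mem xs _ (charKer_le_charCenter (θ.2.isCharacter.mem_charKer.2 (g4 ▸ e))))).elim
    · exact (hn ⟨_, θ.2.classFun.normal_charCenter, charKer_le_charCenter a1,
        θ.2.isCharacter.mem_charCenter.2 (g3 ▸ e), sM⟩).elim
    · rw [Complex.mul_conj'] at e
      exact_mod_cast e
  have xz : Commute x z := (zz x).symm
  have le : zpowers (x * z) ≤ Cx(x) ⊓ Cx(v) := zpowers_le.2
    ⟨mem_Cx.2 ((Commute.refl x).mul_left (zz x)), mem_Cx.2 (xv.mul_left (zz v))⟩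
  have o6 : Nat.card (zpowers (x * z)) = 6 := by
    rw [Nat.card_zpowers, xz.orderOf_mul_eq_mul_orderOf_of_coprime (by rw [hx, hz]; norm_num), hx, hz]
  have ab : Cx(x) ≤ Cx(v) := by
    have a1 := o6 ▸ card_dvd_of_le le
    have a2 := Nat.le_of_dvd (by norm_num) (cx ▸ card_dvd_of_le (inf_le_left (a := Cx(x)) (b := Cx(v))))
    have a3 : 0 < Nat.card (Cx(x) ⊓ Cx(v) : Subgroup H) := Nat.card_pos
    by_cases a4 : Nat.card (Cx(x) ⊓ Cx(v) : Subgroup H) = 6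
    · have := eq_of_le_of_card_ge le (by rw [o6, a4])
      obtain ⟨n, hn⟩ : v ∈ zpowers (x * z) := this ▸ ⟨mem_Cx.2 c3, mem_Cx.2 rfl⟩
      have e : u * (x * z) * u⁻¹ = (x * z)⁻¹ := by
        rw [xz.eq, ← mul_assoc, ← (zz u).eq, mul_assoc z, mul_assoc z, u2, mul_inv_rev, ← (zz x).inv_inv.eq,
          inv_eq_of_mul_eq_one_right (a := z) (by rw [← sq, z2])]
      replace hn : (x * z) ^ n = v := hn
      rw [← hn, ← conj_zpow, e, inv_zpow, hn, inv_eq_of_mul_eq_one_right (a := v) (by rw [← sq, v2])] at u3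
      exact (z1 (left_eq_mul.1 u3)).elim
    · exact inf_eq_left.1 (eq_of_le_of_card_ge inf_le_left (by omega))
  have j := jsum zc (by rw [← sq, z2]) (x * v) (x * v)
  rw [if_pos (IsConj.refl _), if_neg (fun c => by
    obtain ⟨g, e⟩ := isConj_iff.1 c
    have e4 := congrArg (· ^ 4) e
    have e3 := congrArg (· ^ 3) e
    simp only [conj_pow, (zz _).mul_pow, g4, g3, pow_eq_pow_mod 4 z2, pow_eq_pow_mod 3 z2] at e3 e4
    norm_num at e3 e4
    rw [← mul_assoc, ← (zz g).eq, mul_assoc z, mul_assoc z, mem_Cx'.1 (ab (mem_Cx'.2 e4))] at e3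
    exact z1 (mul_eq_right.1 e3)), add_zero] at j
  simp only [Complex.mul_conj'] at j
  have j' : 2 * ∑ χ ∈ Finset.univ.filter (fun χ : IrrCharacter H => ∀ g, (χ : H → ℂ) (z * g) = (χ : H → ℂ) g),
    ‖(χ : H → ℂ) (x * v)‖ ^ 2 = Nat.card Cx(x * v) := by exact_mod_cast j
  have b : Nat.card Cx(x * v) ≤ 12 := cx ▸ card_le_of_le fun g hg => mem_Cx.2
    (g4 ▸ (Commute.pow_right (mem_Cx.1 hg) 4).eq)
  have t : ∀ θ : IrrCharacter H, θ = θ₁ ∨ θ = θ₂ → triv H ≠ θ := fun θ hθ e => by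
    have := (h θ hθ).2.1
    rw [← e, triv_apply] at this
    norm_num at this
  have := Finset.sum_le_sum_of_subset_of_nonneg (f := fun χ : IrrCharacter H => ‖(χ : H → ℂ) (x * v)‖ ^ 2)
    (s := {triv H, θ₁, θ₂}) (t := Finset.univ.filter (fun χ : IrrCharacter H => ∀ g, (χ : H → ℂ) (z * g) = (χ : H → ℂ) g))
    (by
      intro χ hχ
      simp only [Finset.mem_insert, Finset.mem_singleton] at hχ
      rcases hχ with rfl | hχ
      exacts [by simp [triv_apply], Finset.mem_filter.2 ⟨Finset.mem_univ _, (h χ hχ).1⟩]) fun _ _ _ => sq_nonneg _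
  rw [Finset.sum_insert (by simp [t _ (.inl rfl), t _ (.inr rfl)]), Finset.sum_pair ne, k _ (.inl rfl), k _ (.inr rfl),
    triv_apply] at this
  have b' : (Nat.card Cx(x * v) : ℝ) ≤ 12 := by exact_mod_cast b
  norm_num at this
  linarith

theorem exH (hH : Nat.card H = 2688) (zc : z ∈ center H) (hz : orderOf z = 2) (hs : orderOf s = 7) (hx : orderOf x = 3)
    (cs : Nat.card Cx(s) = 14) (ns : Nat.card Nm(zpowers s) = 42) (xs : x * s * x⁻¹ = s ^ 2) (u2 : u * x * u⁻¹ = x⁻¹)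
    (cx : Nat.card Cx(x) = 12) (hv : orderOf v = 2) (vz : v ≠ z) (c3 : v * x = x * v) (u3 : u * v * u⁻¹ = v * z) :
    ∃ E : Subgroup H, E.Normal ∧ Nat.card E = 16 ∧ (∀ e ∈ E, e * e = 1) ∧ z ∈ E ∧ v ∈ E ∧ Cz(E) ≤ E := by
  classical
  obtain ⟨E, hE, zE, vE, sE⟩ := exN hH zc hz hs hx cs ns xs u2 cx hv c3 u3
  have v1 : v ≠ 1 := by rintro rfl; simp at hv
  have z1 : z ≠ 1 := by rintro rfl; simp at hz
  have z2 : z * z = 1 := by rw [← sq, ← hz, pow_orderOf_eq_one]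
  have v2 : v * v = 1 := by rw [← sq, ← hv, pow_orderOf_eq_one]
  obtain ⟨c, fx⟩ := n16 hH zc hz hs hx cs xs u2 vz v1 E zE vE sE
  have el : ∀ e ∈ E, e * e = 1 := by
    let K : Set H := {e | e ∈ E ∧ e * e ≠ 1}
    have d7 := CfH1.MB1.free (zpowers s) K (fun t _ y hy => ⟨hE.conj_mem _ hy.1 t, fun h => hy.2 (by
      rwa [conj_mul, conj_eq_one_iff] at h)⟩) fun t ht y hy e => by_contra fun t1 => by
        rcases fx t ht y hy.1 t1 e with rfl | rfl
        exacts [hy.2 (mul_one 1), hy.2 z2]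
    have d2 : ((K.toFinite.toFinset.card : ℕ) : ZMod 2) = 0 := by
      rw [Finset.card_eq_sum_ones, Nat.cast_sum]
      exact Finset.sum_involution (fun a _ => a⁻¹) (fun _ _ => by decide)
        (fun a ha _ e => (K.toFinite.mem_toFinset.1 ha).2 (by nth_rewrite 1 [← e]; simp))
        (fun a ha => K.toFinite.mem_toFinset.2 ⟨inv_mem (K.toFinite.mem_toFinset.1 ha).1, fun h =>
          (K.toFinite.mem_toFinset.1 ha).2 (by rwa [← mul_inv_rev, inv_eq_one] at h)⟩) fun _ _ => inv_inv _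
    rw [← Set.ncard_eq_toFinset_card, ZMod.natCast_eq_zero_iff] at d2
    have le := Set.ncard_le_ncard (s := K ∪ {1, z, v}) (t := E) (by
      rintro _ (h | rfl | rfl | rfl)
      exacts [h.1, one_mem _, zE, vE])
    rw [Set.ncard_union_eq (Set.disjoint_right.2 (by
      rintro _ (rfl | rfl | rfl) h
      exacts [h.2 (mul_one 1), h.2 z2, h.2 v2])), Set.ncard_insert_of_notMem (by simp [z1.symm, v1.symm]),
      Set.ncard_pair vz.symm, show (E : Set H).ncard = 16 from c] at le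
    rw [Nat.card_zpowers, hs] at d7
    have : K = ∅ := (Set.ncard_eq_zero K.toFinite).1 (by omega)
    exact fun e he => by_contra fun h => (this ▸ (⟨he, h⟩ : e ∈ K) : e ∈ (∅ : Set H))
  have le : E ≤ Cz(E) := fun a ha b hb => by
    have := el _ (mul_mem hb ha)
    rw [← inv_eq_of_mul_eq_one_right this, mul_inv_rev, inv_eq_of_mul_eq_one_right (el a ha),
      inv_eq_of_mul_eq_one_right (el b hb)]
  obtain ⟨c', -⟩ := n16 hH zc hz hs hx cs xs u2 vz v1 Cz(E) (le zE) (le vE) fun h =>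
    (fx s (mem_zpowers s) v vE (by rintro rfl; simp at hs) (h v vE).symm).elim v1 vz
  exact ⟨E, hE, c, el, zE, vE, (eq_of_le_of_card_ge le (by rw [c, c'])).ge⟩
end

variable {G : Type u} [Group G] [Finite G] {z v x u s : G}

theorem n7le (L : Loc G) (hz : orderOf z = 2) (hs : orderOf s = 7) (c : s * z = z * s) : Nm(zpowers s) ≤ Cx(z) := by
  have c' : Commute z s := c.symm
  have o : orderOf (z * s) = 14 := by rw [c'.orderOf_mul_eq_mul_orderOf_of_coprime (by rw [hz, hs]; norm_num), hz, hs]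
  have e := eq_of_le_of_card_ge (zpowers_le.2 (mem_Cx.2 (c'.mul_left (Commute.refl s))))
    (by rw [L.c7 s hs, Nat.card_zpowers, o])
  intro n hn
  obtain ⟨k, hk⟩ : n * z * n⁻¹ ∈ zpowers (z * s) := by
    rw [e, mem_Cx]
    obtain ⟨j, hj⟩ := conj_mem_of_mem_normalizer' hn (mem_zpowers s)
    replace hj : s ^ j = n⁻¹ * s * n := hj
    calc n * z * n⁻¹ * s = n * (z * (n⁻¹ * s * n)) * n⁻¹ := by group
      _ = _ := by rw [← hj, (c'.zpow_right j).eq, hj]; group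
  replace hk : (z * s) ^ k = n * z * n⁻¹ := hk
  have z2 : z ^ 2 = 1 := hz ▸ pow_orderOf_eq_one z
  have : n * z * n⁻¹ ∈ zpowers z := by
    have h7 := congrArg (· ^ 7) hk
    simp only [conj_pow, pow_eq_pow_mod 7 z2] at h7
    rw [← zpow_natCast, ← zpow_mul, mul_comm, zpow_mul, zpow_natCast, c'.mul_pow, (hs ▸ pow_orderOf_eq_one s : s ^ 7 = 1),
      mul_one] at h7
    norm_num at h7
    exact h7 ▸ zpow_mem (pow_mem (mem_zpowers z) _) _
  rcases zp2 hz this with h | h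
  · rw [conj_eq_one_iff] at h; subst h; simp at hz
  · exact mem_Cx'.2 h

theorem exE' (L : Loc G) (hz : orderOf z = 2) (hx : orderOf x = 3) (hv : orderOf v = 2) (vz : v ≠ z) (c1 : z * x = x * z)
    (c2 : v * z = z * v) (c3 : v * x = x * v) (u1 : u * z = z * u) (u2 : u * x * u⁻¹ = x⁻¹) (u3 : u * v * u⁻¹ = v * z)
    (hs : orderOf s = 7) (c : s * z = z * s) (xs : x * s * x⁻¹ = s ^ 2) :
    ∃ E : Subgroup G, Nat.card E = 16 ∧ (∀ e ∈ E, e * e = 1) ∧ z ∈ E ∧ v ∈ E ∧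
      centralizer {z} ≤ normalizer (E : Set G) ∧ centralizer (E : Set G) ≤ E := by
  have le := n7le L hz hs c
  have c' : Commute x z := c1.symm
  have o : orderOf (x * z) = 6 := by rw [c'.orderOf_mul_eq_mul_orderOf_of_coprime (by rw [hz, hx]; norm_num), hz, hx]
  have zz : (x * z) ^ 3 = z := by
    rw [c'.mul_pow, ← hx, pow_orderOf_eq_one, hx, one_mul, pow_succ, ← hz, pow_orderOf_eq_one, one_mul]
  obtain ⟨E, hE, e1, e2, e3, e4, e5⟩ := exH (H := Cx(z)) (z := ⟨z, mem_Cx.2 rfl⟩) (s := ⟨s, mem_Cx.2 c⟩)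
    (x := ⟨x, mem_Cx.2 c1.symm⟩) (v := ⟨v, mem_Cx.2 c2⟩) (u := ⟨u, mem_Cx.2 u1⟩) (L.c2 z x hz hx c1)
    (mem_center_iff.2 fun g => Subtype.ext (mem_Cx.1 g.2)) ((orderOf_coe _).symm.trans hz) ((orderOf_coe _).symm.trans hs)
    ((orderOf_coe _).symm.trans hx) (by
      rw [← L.c7 s hs, ← card_subgroupOf (A := Cx(s)) ((Cz_zpowers s ▸ centralizer_le_normalizer _).trans le)]
      congr 3
      ext g
      simp [mem_subgroupOf, mem_Cx, Subtype.ext_iff]) (by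
      rw [← L.n7 s hs, ← card_subgroupOf le, subgroupOf_normalizer_eq (le_normalizer.trans le),
        show (zpowers s).subgroupOf Cx(z) = zpowers ⟨s, mem_Cx.2 c⟩ by
          ext g; simp [mem_subgroupOf, mem_zpowers_iff, Subtype.ext_iff]]) (Subtype.ext xs) (Subtype.ext u2) (by
      rw [← L.c6 _ o, ← card_subgroupOf (H := Cx(z)) fun g hg => mem_Cx.2 (zz ▸ (Commute.pow_right (mem_Cx.1 hg) 3).eq)]
      congr 3
      ext g
      simp only [mem_subgroupOf, mem_Cx, Subtype.ext_iff, coe_mul, SetLike.mem_coe]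
      rw [mul_assoc x, ← mem_Cx.1 g.2, ← mul_assoc, ← mul_assoc, mul_left_inj]) ((orderOf_coe _).symm.trans hv)
    (fun h => vz (congrArg Subtype.val h)) (Subtype.ext c3) (Subtype.ext u3)
  refine ⟨E.map (Cx(z)).subtype, by rw [card_map_of_injective (subtype_injective _), e1], ?_, ⟨_, e3, rfl⟩, ⟨_, e4, rfl⟩,
    fun g hg => mem_normalizer_of_cj_le ?_, fun g hg => ?_⟩
  · rintro _ ⟨e, he, rfl⟩
    exact congrArg Subtype.val (e2 e he)
  · rintro _ ⟨_, ⟨e, he, rfl⟩, rfl⟩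
    exact ⟨_, hE.conj_mem e he ⟨g, hg⟩, rfl⟩
  · exact ⟨⟨g, mem_Cx.2 (hg z ⟨_, e3, rfl⟩).symm⟩, e5 fun e he => Subtype.ext (hg e ⟨e, he, rfl⟩), rfl⟩

theorem exE (L : Loc G) {z v x u : G} (hz : orderOf z = 2) (hx : orderOf x = 3) (hv : orderOf v = 2) (vz : v ≠ z)
    (c1 : z * x = x * z) (c2 : v * z = z * v) (c3 : v * x = x * v) (u1 : u * z = z * u) (u2 : u * x * u⁻¹ = x⁻¹)
    (u3 : u * v * u⁻¹ = v * z) : ∃ E : Subgroup G, Nat.card E = 16 ∧ (∀ e ∈ E, e * e = 1) ∧ z ∈ E ∧ v ∈ E ∧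
      centralizer {z} ≤ normalizer (E : Set G) ∧ centralizer (E : Set G) ≤ E ∧
      ∃ g, orderOf g = 7 ∧ g * z = z * g ∧ (x * g * x⁻¹ = g ^ 2 ∨ x * g * x⁻¹ = g ^ 4) := by
  classical
  have := Fact.mk (by norm_num : Nat.Prime 7)
  have cH := L.c2 z x hz hx c1
  obtain ⟨s0, h0⟩ := exists_prime_orderOf_dvd_card' (G := Cx(z)) 7 (by rw [cH]; norm_num)
  replace h0 := (orderOf_coe s0).trans h0
  obtain ⟨y, hy⟩ := exists_prime_orderOf_dvd_card' (G := Nm(zpowers (s0 : G))) 3 (by rw [L.n7 _ h0]; norm_num)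
  replace hy := (orderOf_coe y).trans hy
  obtain ⟨g, e⟩ := sylp (H := Cx(z)) (p := 3) (a := ⟨y, n7le L hz h0 (mem_Cx.1 s0.2) y.2⟩) (b := ⟨x, mem_Cx.2 c1.symm⟩)
    (by rw [cH]; norm_num) ((orderOf_coe _).symm.trans hy) ((orderOf_coe _).symm.trans hx)
  have m : g.1 * x * g.1⁻¹ ∈ Nm(zpowers (s0 : G)) := by
    obtain ⟨n, hn⟩ := e
    have : (y : G) ^ n = g.1 * x * g.1⁻¹ := congrArg Subtype.val hn
    exact this ▸ zpow_mem y.2 n
  have hs : orderOf (g.1⁻¹ * s0 * g.1⁻¹⁻¹) = 7 := (CfH1.MB1.ord_conj _ _).trans h0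
  have c : g.1⁻¹ * s0 * g.1⁻¹⁻¹ * z = z * _ := mem_Cx.1 (g⁻¹ * s0 * g⁻¹⁻¹).2
  have k : x * (g.1⁻¹ * s0 * g.1⁻¹⁻¹) * x⁻¹ ∈ zpowers (g.1⁻¹ * s0 * g.1⁻¹⁻¹) := by
    obtain ⟨n, hn⟩ := conj_mem_of_mem_normalizer m (mem_zpowers _)
    exact ⟨n, by simp only [conj_zpow] at hn ⊢; rw [hn]; group⟩
  generalize g.1⁻¹ * s0 * g.1⁻¹⁻¹ = s at hs c k
  rw [mem_zpowers_iff_mem_range_orderOf, hs, Finset.mem_image] at k
  obtain ⟨k, hk, ek⟩ := k
  have x3 : x * x * x = 1 := by rw [← pow_three', ← hx, pow_orderOf_eq_one]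
  have k3 : s ^ (k * k * k) = s ^ 1 := by
    rw [pow_mul, pow_mul, ek, conj_pow, ek, conj_pow, conj_pow, ek,
      show x * (x * (x * s * x⁻¹) * x⁻¹) * x⁻¹ = x * x * x * s * (x * x * x)⁻¹ by group, x3]
    simp
  rw [pow_eq_pow_iff_modEq, hs] at k3
  have : k = 1 ∨ k = 2 ∨ k = 4 := by
    rw [Finset.mem_range] at hk
    interval_cases k <;> simp_all [Nat.ModEq]
  rcases this with rfl | rfl | rfl
  · have := (Cx(s)).orderOf_dvd_natCard (x := x) (mem_Cx'.2 (by simpa using ek.symm))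
    rw [hx, L.c7 s hs] at this
    norm_num at this
  · obtain ⟨E, h⟩ := exE' L hz hx hv vz c1 c2 c3 u1 u2 u3 hs c ek.symm
    exact ⟨E, h.1, h.2.1, h.2.2.1, h.2.2.2.1, h.2.2.2.2.1, h.2.2.2.2.2, s, hs, c, .inl ek.symm⟩
  · obtain ⟨E, h⟩ := exE' (x := x⁻¹) L hz (by rwa [orderOf_inv]) hv vz (Commute.inv_right c1) c2 (Commute.inv_right c3) u1
      (by rw [← conj_inv, u2]) u3 hs c (by
        rw [show s ^ 2 = x⁻¹ * (x * s * x⁻¹) ^ 2 * x⁻¹⁻¹ by rw [conj_pow]; group, ← ek, ← pow_mul,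
          pow_eq_pow_mod _ (hs ▸ pow_orderOf_eq_one s : s ^ 7 = 1)]
        norm_num)
    exact ⟨E, h.1, h.2.1, h.2.2.1, h.2.2.2.1, h.2.2.2.2.1, h.2.2.2.2.2, s, hs, c, .inr ek.symm⟩
end CfH6.M23
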