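import Cfsg.Agent.OD.Pre
import Cfsg.Agent.H6.O7A
import Cfsg.Agent.H6.O7K
import Cfsg.Agent.H6.O7O
/-! An abstract presentation: order and simplicity. -/
set_option autoImplicit false
set_option maxRecDepth 100000
namespace CfH6.O7G
open CfH6 MulAction
attribute [local instance] O7A.act

theorem stab : O7A.H = stabilizer O7B.G 0 ∧ O7A.H.index = 364 := O7A.stab O7O.covT0

theorem card : Nat.card O7B.G = 4585351680 := (O7A.top O7O.finG).1

theorem base : ∀ g : O7B.G, (∀ b ∈ O7A.bs, g • b = b) → g = 1 := (O7A.top O7O.finG).2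

theorem simple : IsSimpleGroup O7B.G := by
  have := O7O.finG.1
  refine simple_of stab.1 (by rw [stab.2]; decide) (O7A.hmax stab.1 stab.2) base O7A.hbs fun M hM h => ?_
  exact top_of_index (eq_top_of_collapse O7B.el (n := 4) O7B.hinv O7B.hrel O7B.htop M
    (pow_words O7B.el h (by norm_num) (not_dvd_card card stab.2 (by decide)) 1 O7A.ex (O7A.hex base))
    (by decide +kernel) 1 fun ev' h1 h2 => O7K.covers ev' ⊥ h1 h2 forall_nil)

theorem nprime : ¬ (Nat.card O7B.G).Prime := by rw [card]; norm_num

end CfH6.O7G
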