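import Cfsg.Agent.OD.Pre
import Cfsg.Agent.H6.O7G
import Cfsg.Agent.H6.MatG
import Cfsg.Agent.H6.Ord
/-! The abstract presentation is `PΩ₇(3)`. -/
set_option autoImplicit false
set_option maxRecDepth 100000
namespace CfH6.O7M
open CfH6 Matrix

abbrev PM : MP := ⟨7, 11, 3, 2, 4, 43, 7, 0, 0⟩
def ms : List ℕ := [0x1002004010000020000000200000000000000004010010020000100000400400801000004000010040080080200400000802004004000010000000000000000000002, 0x10010000000100200000401000000000000020000000000000400000000004000000000000000000200000000000000000000020000000000000000000002, 0x10000000000000200000000000000000000020000000000000400000000000000000000000000000200000000000000000000020000000000000000000002, 0x2002000010020000000000000000801000000000000020000000000000000000002000000000000040000080000000000000000000000020000000000000000000002, 0x1000000010000020040000200000000000000004000020020000100200400000001000004008000000000000200000000000000000000020000080000000400000800, 0x2000000000000000000000200000000000000000000000000000100000000000002000000000000000000000200000000000004000000000000000000000000000002,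 0x4000010000000000000200000000000000000000020000000000000400400000000000000010040000100200000000000000000000020000000000000000000002, 0x1000004010020020000100200200801001000004000010020040100000400000801004004000000000000000200000000800004004008010000000000000000000002]

theorem D : Mdl PM.mm PM.okb PM.one (PM.toM (ZMod 3) e7) :=
  MP.mdl (P := PM) (ZMod 3) e7 (by decide) (by decide +kernel)
theorem U : UOk PM.mm PM.okb PM.one (PM.toM (ZMod 3) e7) ms O7B.il 8 := D.uok (by decide +kernel)

def A : Matrix I7 I7 (ZMod 3) := fun i j => match i, j with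
  | .inl _, .inl _ => 1
  | .inr (.inl i), .inr (.inr j) => if i = j then 2 else 0
  | .inr (.inr i), .inr (.inl j) => if i = j then 2 else 0
  | _, _ => 0

theorem Q_eq (v : I7 → ZMod 3) : Q7 v = v ⬝ᵥ (A *ᵥ v) := by
  simp only [Cfsg.quadFormOdd, dotProduct, mulVec, Fintype.sum_sum_type, Fin.sum_univ_three, A,
    Finset.univ_unique, Finset.sum_singleton]
  simp
  linear_combination (-(v (.inr (.inl 0)) * v (.inr (.inr 0)) + v (.inr (.inl 1)) * v (.inr (.inr 1)) +
    v (.inr (.inl 2)) * v (.inr (.inr 2)))) * (by decide : (3 : ZMod 3) = 0)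

theorem mem_O (M : Matrix I7 I7 (ZMod 3)) (h : Mᵀ * (A * M) = A) (v : I7 → ZMod 3) : Q7 (M *ᵥ v) = Q7 v := by
  rw [Q_eq, Q_eq, mulVec_mulVec, ← vecMul_transpose, ← dotProduct_mulVec, mulVec_mulVec, h]

theorem hA : ∀ x < 8, (PM.toM (ZMod 3) e7 (lget ms 0 x))ᵀ * (A * PM.toM (ZMod 3) e7 (lget ms 0 x)) = A := by
  decide +kernel

theorem iso : ∃ φ : O7B.G →* Cfsg.POmega (ZMod 3) Q7, Function.Bijective φ := by
  have := O7O.finG.1
  have := O7G.simple
  obtain ⟨φ, hφ⟩ := O7B.hhom _ U.inv (U.rels (by decide +kernel))
  have h1 : ∀ g, φ g ∈ Cfsg.isometryGroup (ZMod 3) Q7 :=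
    mem_of_gens O7B.htop φ (Cfsg.isometryGroup (ZMod 3) Q7).toSubmonoid fun x hx u _ => by
      rw [hφ x hx]
      exact (congrArg (fun M => Q7 (M *ᵥ u)) (U.val x hx)).trans (mem_O _ (hA x hx) u)
  have h2 : Function.Injective φ := inj_of_simple φ (g := O7B.el 0) fun hc => by
    have := U.val 0 (by decide)
    rw [← hφ 0 (by decide), hc] at this
    exact absurd this (by decide +kernel)
  let φ1 := φ.codRestrict _ h1
  let φ2 := φ1.codRestrict (Cfsg.Omega (ZMod 3) Q7) (range_le_commutator φ1 (perfect_of_simple O7G.nprime))
  have h3 : Function.Injective φ2 := fun a b h => h2 (congrArg (fun x => x.1.1) h)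
  refine ⟨_, bij_of_inj _ (inj_quot_center O7G.nprime φ2 h3) ⟨card_POmega73.1, ?_⟩⟩
  rw [O7G.card]
  exact (Nat.card_le_card_of_surjective _ QuotientGroup.mk_surjective).trans card_POmega73.2

end CfH6.O7M
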