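import Cfsg.Agent.OD.Pre
import Cfsg.Agent.L.R3
import Cfsg.Agent.L.GA
/-! Rank 3 groups: transport to a model and recognition through the orbital graph. -/
set_option autoImplicit false
open MulAction Subgroup
open scoped Pointwise
namespace CfH6.R3
open CfL

theorem equiv_of_reps {X Ω P ι : Type*} [Group X] [MulAction X Ω] [MulAction X P] (u : ι → Ω) (v : ι → P)
    (hs : ∀ i, stabilizer X (u i) = stabilizer X (v i))
    (hd : ∀ i j, (stabilizer X (u i)).index = (stabilizer X (u j)).index → i = j)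
    (hu : ∀ ω, ∃ i, ∃ x : X, x • u i = ω) (hv : ∀ p, ∃ i, ∃ x : X, x • v i = p) :
    ∃ β : Ω ≃ P, (∀ i, β (u i) = v i) ∧ ∀ (x : X) ω, β (x • ω) = x • β ω := by
  have h : ∀ i j (x y : X), x • u i = y • u j ↔ x • v i = y • v j := fun i j x y => by
    by_cases e : i = j
    · subst e
      rw [← inv_smul_eq_iff, ← inv_smul_eq_iff (g := y), ← mul_smul, ← mul_smul, ← mem_stabilizer_iff,
        ← mem_stabilizer_iff, hs]
    · refine ⟨fun h => absurd (hd i j ?_) e, fun h => absurd (hd i j ?_) e⟩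
      · rw [index_stabilizer, index_stabilizer, ← orbit_eq_iff.2 (mem_orbit (u i) x), h,
          orbit_eq_iff.2 (mem_orbit (u j) y)]
      · rw [hs, hs, index_stabilizer, index_stabilizer, ← orbit_eq_iff.2 (mem_orbit (v i) x), h,
          orbit_eq_iff.2 (mem_orbit (v j) y)]
  choose f g hfg using hu
  let b : Ω → P := fun ω => g ω • v (f ω)
  have hb : ∀ i (x : X), b (x • u i) = x • v i := fun i x => (h _ _ _ _).1 (hfg _)
  refine ⟨Equiv.ofBijective b ⟨fun ω ω' e => ?_, fun p => ?_⟩, fun i => ?_, fun x ω => ?_⟩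
  · rw [← hfg ω, ← hfg ω']; exact (h _ _ _ _).2 e
  · obtain ⟨i, x, rfl⟩ := hv p; exact ⟨_, hb i x⟩
  · exact (congrArg b (one_smul X _).symm).trans ((hb i 1).trans (one_smul _ _))
  · change b (x • ω) = x • b ω
    rw [← hfg ω, ← mul_smul, hb, hb, mul_smul]

/-- `K` is transitive, with the point stabiliser `H`, and swaps `p0` and `b0` -/
structure Sit {A P : Type*} [Group A] [MulAction A P] (H K : Subgroup A) (p0 b0 : P) : Prop where
  tr : ∀ p, ∃ g ∈ K, g • p0 = p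
  st : ∀ g, g ∈ H ↔ g ∈ K ∧ g • p0 = p0
  sw : ∃ t ∈ K, t • p0 = b0 ∧ t • b0 = p0

theorem transport {Ω P : Type*} [Finite Ω] (G : Subgroup (Equiv.Perm Ω)) [IsPretransitive G Ω] {a b c : Ω} {k l : ℕ}
    (hb : (orbit (stabilizer G a) b).ncard = k) (hc : (orbit (stabilizer G a) c).ncard = l) (hk : k ≠ 1)
    (hl : l ≠ 1) (hkl : k ≠ l) (hΩ : Nat.card Ω = 1 + k + l) {H : Subgroup (Equiv.Perm P)} {p0 b0 c0 : P}
    (j : stabilizer G a →* Equiv.Perm P) (hr : j.range = H) (h0 : ∀ h ∈ H, h • p0 = p0)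
    (cov : ∀ p, p = p0 ∨ p ∈ orbit H b0 ∨ p ∈ orbit H c0)
    (h1 : ∃ h ∈ H, ∀ x, x • b = b ↔ j x • h • b0 = h • b0) (h2 : ∃ h ∈ H, ∀ x, x • c = c ↔ j x • h • c0 = h • c0) :
    ∃ K : Subgroup (Equiv.Perm P), Nonempty (G ≃* K) ∧ Sit H K p0 b0 := by
  subst hr
  obtain ⟨_, ⟨x1, rfl⟩, h1⟩ := h1
  obtain ⟨_, ⟨x2, rfl⟩, h2⟩ := h2
  let _ : MulAction (stabilizer G a) P := MulAction.compHom P j
  have sm : ∀ (x : stabilizer G a) (p : P), x • p = j x • p := fun _ _ => rfl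
  have st : ∀ (x : stabilizer G a) (w : Ω) (p : P), (∀ y, y • w = w ↔ j y • j x • p = j x • p) →
      stabilizer (stabilizer G a) (x⁻¹ • w) = stabilizer (stabilizer G a) p := fun x w p h => by
    ext y
    rw [mem_stabilizer_iff, mem_stabilizer_iff, eq_inv_smul_iff, ← mul_smul, ← mul_smul, h, sm, ← mul_smul,
      ← map_mul, inv_mul_cancel_right, map_mul, mul_smul, smul_left_cancel_iff]
  have o1 : orbit (stabilizer G a) (x1⁻¹ • b) = orbit (stabilizer G a) b := orbit_eq_iff.2 (mem_orbit _ _)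
  have o2 : orbit (stabilizer G a) (x2⁻¹ • c) = orbit (stabilizer G a) c := orbit_eq_iff.2 (mem_orbit _ _)
  have o0 : (orbit (stabilizer G a) a).ncard = 1 := by
    rw [show orbit (stabilizer G a) a = {a} from Set.ext fun y =>
      ⟨fun ⟨g, e⟩ => e.symm.trans g.2, fun e => e ▸ mem_orbit_self _⟩, Set.ncard_singleton]
  obtain ⟨β, hβ, he⟩ := equiv_of_reps (X := stabilizer G a) ![a, x1⁻¹ • b, x2⁻¹ • c] ![p0, b0, c0]
    (fun i => by
      fin_cases i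
      · ext y; exact ⟨fun _ => h0 _ ⟨y, rfl⟩, fun _ => y.2⟩
      · exact st _ _ _ h1
      · exact st _ _ _ h2)
    (fun i i' => by
      fin_cases i <;> fin_cases i' <;> simp [index_stabilizer, o0, o1, o2, hb, hc] <;> omega)
    (fun ω => by
      rcases r3_tri hb hc hk hl hkl hΩ ω with e | e | e
      · exact ⟨0, 1, (one_smul _ _).trans e.symm⟩
      · exact ⟨1, o1.ge e⟩
      · exact ⟨2, o2.ge e⟩)
    (fun p => by
      rcases cov p with e | ⟨⟨_, x, rfl⟩, e⟩ | ⟨⟨_, x, rfl⟩, e⟩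
      · exact ⟨0, 1, (one_smul _ _).trans e.symm⟩
      · exact ⟨1, x, e⟩
      · exact ⟨2, x, e⟩)
  have b0' : β a = p0 := hβ 0
  have b1' : β (x1⁻¹ • b) = b0 := hβ 1
  have ap : ∀ (g : G) ω, β.permCongrHom g • β ω = β (g • ω) := fun g ω => by simp; rfl
  refine ⟨G.map β.permCongrHom.toMonoidHom, ⟨β.permCongrHom.subgroupMap G⟩, fun p => ?_, fun g => ⟨?_, ?_⟩, ?_⟩
  · obtain ⟨g, hg⟩ := exists_smul_eq G a (β.symm p)
    exact ⟨_, ⟨g, g.2, rfl⟩, by rw [← b0']; exact (ap g a).trans (by rw [hg, β.apply_symm_apply])⟩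
  · rintro ⟨x, rfl⟩
    refine ⟨⟨x.1, x.1.2, Equiv.ext fun p => ?_⟩, h0 _ ⟨x, rfl⟩⟩
    obtain ⟨ω, rfl⟩ := β.surjective p
    exact (ap x ω).trans (he x ω)
  · rintro ⟨⟨g, hg, rfl⟩, e⟩
    have : (⟨g, hg⟩ : G) • a = a := β.injective ((ap ⟨g, hg⟩ a).symm.trans (by rw [b0']; exact e))
    refine ⟨⟨⟨g, hg⟩, this⟩, Equiv.ext fun p => ?_⟩
    obtain ⟨ω, rfl⟩ := β.surjective p
    exact (he _ ω).symm.trans (ap ⟨g, hg⟩ ω).symm
  · obtain ⟨t, t1, t2⟩ := r3_swap (o1 ▸ hb) hc hk hl hkl hΩ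
    exact ⟨_, ⟨t, t.2, rfl⟩, by rw [← b0', ← b1']; exact (ap t a).trans (congrArg β t1),
      by rw [← b0', ← b1']; exact (ap t _).trans (congrArg β t2)⟩

section
variable {A P : Type*} [Group A] [MulAction A P] {H K : Subgroup A} {p0 b0 : P}

def Nb (K : Subgroup A) (p0 b0 p : P) : Set P := {q | ∃ g ∈ K, g • p0 = p ∧ g • b0 = q}

theorem nb_smul {g : A} (hg : g ∈ K) (p q : P) : g • q ∈ Nb K p0 b0 (g • p) ↔ q ∈ Nb K p0 b0 p := by
  have key : ∀ g ∈ K, ∀ p q, q ∈ Nb K p0 b0 p → g • q ∈ Nb K p0 b0 (g • p) := by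
    rintro g hg _ _ ⟨x, hx, rfl, rfl⟩
    exact ⟨g * x, K.mul_mem hg hx, mul_smul _ _ _, mul_smul _ _ _⟩
  exact ⟨fun h => by simpa using key _ (K.inv_mem hg) _ _ h, key g hg p q⟩

namespace Sit
variable (S : Sit H K p0 b0)
include S

theorem le : H ≤ K := fun g hg => ((S.st g).1 hg).1

theorem nb0 : Nb K p0 b0 p0 = orbit H b0 := Set.ext fun _ =>
  ⟨fun ⟨g, h1, h2, h3⟩ => ⟨⟨g, (S.st g).2 ⟨h1, h2⟩⟩, h3⟩, fun ⟨g, h⟩ => ⟨g, S.le g.2, ((S.st g).1 g.2).2, h⟩⟩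

theorem ncard (p : P) : (Nb K p0 b0 p).ncard = (orbit H b0).ncard := by
  obtain ⟨g, hg, rfl⟩ := S.tr p
  rw [← S.nb0, ← Set.ncard_image_of_injective (Nb K p0 b0 p0) (MulAction.injective g)]
  congr 1
  ext q
  refine ⟨fun h => ⟨g⁻¹ • q, (nb_smul hg _ _).1 (by simpa using h), smul_inv_smul _ _⟩, ?_⟩
  rintro ⟨q, h, rfl⟩
  exact (nb_smul hg _ _).2 h

theorem symm {p q : P} (h : q ∈ Nb K p0 b0 p) : p ∈ Nb K p0 b0 q := by
  obtain ⟨g, hg, rfl, rfl⟩ := h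
  obtain ⟨t, ht, t1, t2⟩ := S.sw
  exact ⟨g * t, K.mul_mem hg ht, by rw [mul_smul, t1], by rw [mul_smul, t2]⟩

omit S in
theorem irr (h : b0 ≠ p0) (p : P) : p ∉ Nb K p0 b0 p := fun ⟨g, _, h1, h2⟩ =>
  h (smul_left_cancel g (h2.trans h1.symm))

theorem conj {π : A} (h1 : π • p0 = p0) (h2 : π • b0 = b0) (hn : π ∈ normalizer (H : Set A)) :
    Sit H (K.map (MulAut.conj π).toMonoidHom) p0 b0 ∧
      ∀ q, q ∈ Nb K p0 b0 b0 → π • q ∈ Nb (K.map (MulAut.conj π).toMonoidHom) p0 b0 b0 := by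
  have i1 : π⁻¹ • p0 = p0 := inv_smul_eq_iff.2 h1.symm
  have i2 : π⁻¹ • b0 = b0 := inv_smul_eq_iff.2 h2.symm
  refine ⟨⟨fun p => ?_, fun g => ?_, ?_⟩, ?_⟩
  · obtain ⟨g, hg, e⟩ := S.tr (π⁻¹ • p)
    exact ⟨_, ⟨g, hg, rfl⟩, by simp [mul_smul, i1, e]⟩
  · obtain ⟨g, rfl⟩ := (MulAut.conj π).surjective g
    rw [MulAut.conj_apply, ← mem_normalizer_iff.1 hn g, S.st]
    refine and_congr (mem_map_iff_mem (f := (MulAut.conj π).toMonoidHom) (MulAut.conj π).injective).symm ?_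
    rw [mul_smul, mul_smul, i1, ← eq_inv_smul_iff (g := π), i1]
  · obtain ⟨t, ht, t1, t2⟩ := S.sw
    exact ⟨_, ⟨t, ht, rfl⟩, by simp [mul_smul, i1, t1, h2], by simp [mul_smul, i2, t2, h1]⟩
  · rintro _ ⟨g, hg, e, rfl⟩
    exact ⟨_, ⟨g, hg, rfl⟩, by simp [mul_smul, i1, e, h2], by simp [mul_smul, i2]⟩

theorem card [Finite P] : Nat.card K = Nat.card P * Nat.card H := by
  rw [card_orbit_mul K p0, show orbit K p0 = Set.univ from Set.eq_univ_of_forall fun p => by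
    obtain ⟨g, hg, e⟩ := S.tr p; exact ⟨⟨g, hg⟩, e⟩, Set.ncard_univ,
    show K ⊓ stabilizer A p0 = H from Subgroup.ext fun g => (S.st g).symm]

/-- the last step: `z = y (z y z⁻¹) y` lies in `K` when all automorphisms fixing `p0` normalise `H` -/
theorem fin {D : Subgroup A} (hK : K ≤ D) {z y : A} (hz : z ∈ D) (hy : y ∈ H) (e : z = y * (z * y * z⁻¹) * y)
    (hn : ∀ σ ∈ D, σ • p0 = p0 → σ ∈ normalizer (H : Set A)) : z ∈ K := by
  obtain ⟨t, ht, t1⟩ := S.tr (z • p0)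
  have h1 := hn (t⁻¹ * z) (D.mul_mem (D.inv_mem (hK ht)) hz) (by rw [mul_smul, ← t1, inv_smul_smul])
  have h2 := K.mul_mem (K.mul_mem ht (S.le ((mem_normalizer_iff.1 h1 y).1 hy))) (K.inv_mem ht)
  rw [e]
  exact K.mul_mem (K.mul_mem (S.le hy) (by simpa [mul_assoc] using h2)) (S.le hy)

end Sit
end

theorem syl_conj {A : Type*} [Group A] [Finite A] {H Y T : Subgroup A} {p a b : ℕ} (hp : p.Prime) (hT : T ≤ H)
    (hY : Y ≤ H) (cT : Nat.card T = p ^ a) (hH : ¬ p ^ (a + 1) ∣ Nat.card H) (hb : p ^ b ∣ Nat.card Y) :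
    ∃ h ∈ H, p ^ b ≤ Nat.card (T ⊓ Y.map (MulAut.conj h).toMonoidHom : Subgroup A) := by
  have := Fact.mk hp
  obtain ⟨Q, hQ⟩ := Sylow.exists_subgroup_card_pow_prime (G := Y) p hb
  have c1 : Nat.card (Q.map (inclusion hY)) = p ^ b := by rw [card_map_of_injective (inclusion_injective hY), hQ]
  have c2 : Nat.card (T.subgroupOf H) = p ^ a := by rw [← cT]; exact Nat.card_congr (subgroupOfEquivOfLe hT).toEquiv
  obtain ⟨R, hR⟩ := (IsPGroup.of_card c1).exists_le_sylow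
  obtain ⟨R', hR'⟩ := (IsPGroup.of_card c2).exists_le_sylow
  have e : T.subgroupOf H = R' := by
    refine eq_of_le_of_card_ge hR' ?_
    obtain ⟨n, hn⟩ := IsPGroup.iff_card.1 R'.2
    rw [c2, hn]
    refine Nat.pow_le_pow_right hp.pos (Nat.le_of_not_lt fun hlt => hH ?_)
    exact (pow_dvd_pow p hlt).trans (hn ▸ card_subgroup_dvd_card R'.1)
  obtain ⟨g, hg⟩ := exists_smul_eq H R R'
  refine ⟨g, g.2, ?_⟩
  rw [← hQ, ← card_map_of_injective (K := Q) (f := (MulAut.conj (g : A)).toMonoidHom.comp Y.subtype)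
    ((MulAut.conj (g : A)).injective.comp Subtype.val_injective)]
  refine card_le_of_le ?_
  rintro _ ⟨x, hx, rfl⟩
  refine ⟨?_, x, x.2, rfl⟩
  have : g * inclusion hY x * g⁻¹ ∈ T.subgroupOf H := by
    rw [e, ← hg]
    exact ⟨_, hR ⟨x, hx, rfl⟩, rfl⟩
  exact this

end CfH6.R3
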