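import Cfsg.Agent.OD.Pre
import Cfsg.Agent.H6.R3A
/-! Certificates for subgroup classification and orbital graphs on coset tables. -/
set_option autoImplicit false
open MulAction Subgroup
open scoped Pointwise
namespace CfH6.R3
open CfL
variable {T : Tab} {G : Type*} [Group G] {ev : ℕ → G} (r : Rep T ev)

def sU (U : ℕ) : Set r.Pt := {i | U.testBit i.1 = true}

noncomputable def sm (T : Tab) (U : ℕ) : Bool := Nat.beq (Nat.shiftRight U T.N) 0

theorem sm_lt {U i : ℕ} (h : sm T U = true) (hi : U.testBit i = true) : i < T.N := by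
  by_contra hc
  have h1 : U >>> T.N = 0 := Nat.eq_of_beq_eq_true h
  have := Nat.testBit_shiftRight (i := T.N) (j := i - T.N) U
  rw [h1, Nat.zero_testBit, show T.N + (i - T.N) = i by omega, hi] at this
  exact absurd this (by decide)

theorem ncard_sU {U d : ℕ} (h : ∀ i, U.testBit i = true → i < T.N) (hd : T.N ≤ 2 ^ d) : (sU r U).ncard = popc d U := by
  rw [popc_eq, ← Set.ncard_coe_finset, ← Set.ncard_image_of_injective (sU r U) Subtype.val_injective]
  congr 1
  ext i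
  simp only [Finset.coe_filter, Finset.mem_range, Set.mem_ofPred_eq]
  exact ⟨fun ⟨a, ha, e⟩ => e ▸ ⟨a.2.trans_le hd, ha⟩, fun hi => ⟨⟨i, h i hi.2⟩, hi.2, rfl⟩⟩

theorem sU_inj {U V : ℕ} (hU : ∀ i, U.testBit i = true → i < T.N) (hV : ∀ i, V.testBit i = true → i < T.N)
    (e : sU r U = sU r V) : U = V := Nat.eq_of_testBit_eq fun i => Bool.eq_iff_iff.2
  ⟨fun h => (e.le (show (⟨i, hU i h⟩ : r.Pt) ∈ sU r U from h) :), fun h => (e.ge (show (⟨i, hV i h⟩ : r.Pt) ∈ sU r V from h) :)⟩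

structure Ob where
  p : ℕ
  U : ℕ
  l : List (ℕ × ℕ)

noncomputable def okOb (T : Tab) (ws : List (List ℕ)) (m : ℕ) (os : List Ob) : Bool :=
  ws.all (allLt T.nc) && os.all fun o => Nat.blt o.p T.N && Nat.beq (T.growL ws m o.l (Nat.shiftLeft 1 o.p)) o.U &&
    bitN o.U o.p

noncomputable def un (os : List Ob) : ℕ → ℕ :=
  List.rec (fun _ => 0) (fun o _ ih s => frc (ih (Nat.shiftRight s 1)) fun V =>
    Nat.rec V (fun _ _ => Nat.lor o.U V) (Nat.land s 1)) os

noncomputable def orA (os : List Ob) : ℕ := List.rec 0 (fun o _ ih => Nat.lor o.U ih) os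

theorem un_cases {N : Set r.Pt} {ws : List (List ℕ)} (hN : ∀ w ∈ ws, evw ev w ∈ stabilizer G N) {m : ℕ} {os : List Ob}
    (h : okOb T ws m os = true) (hc : N ⊆ sU r (orA os)) : ∃ s < 2 ^ os.length, N = sU r (un os s) := by
  rw [okOb, Bool.and_eq_true] at h
  have key : ∀ o ∈ os, sU r o.U ⊆ N ∨ ∀ i ∈ sU r o.U, i ∉ N := fun o ho => by
    have h1 := List.all_eq_true.1 h.2 o ho
    simp only [Bool.and_eq_true] at h1
    have h2 : r.Sub o.U (orbit (stabilizer G N) (⟨o.p, blt1 h1.1.1⟩ : r.Pt)) := by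
      have := r.orb_sub h.1 hN ⟨o.p, blt1 h1.1.1⟩ m o.l
      exact (congrArg (r.Sub · _) (Nat.eq_of_beq_eq_true h1.1.2)).mp this
    have h3 : ∀ i ∈ sU r o.U, (i ∈ N ↔ (⟨o.p, blt1 h1.1.1⟩ : r.Pt) ∈ N) := fun i hi => by
      obtain ⟨a, ⟨g, hg⟩, e⟩ := h2 _ hi
      rw [← Subtype.ext e, ← hg]
      exact (mem_stabilizer_set.1 g.2 _)
    by_cases hp : (⟨o.p, blt1 h1.1.1⟩ : r.Pt) ∈ N
    · exact Or.inl fun i hi => (h3 i hi).2 hp
    · exact Or.inr fun i hi hn => hp ((h3 i hi).1 hn)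
  have main : ∀ l : List Ob, (∀ o ∈ l, o ∈ os) → ∃ s < 2 ^ l.length, N ∩ sU r (orA l) = sU r (un l s) := fun l => by
    induction l with
    | nil => exact fun _ => ⟨0, Nat.one_pos, Set.ext fun i => by simp [sU, orA, un]⟩
    | cons o l ih =>
      intro hl
      obtain ⟨s, hs, e⟩ := ih fun o ho => hl o (List.mem_cons_of_mem _ ho)
      have e1 : sU r (orA (o :: l)) = sU r o.U ∪ sU r (orA l) := Set.ext fun i => by
        change Nat.testBit (_ ||| _) _ = true ↔ _
        rw [Nat.testBit_or, Bool.or_eq_true]; rfl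
      have e2 : ∀ t, un (o :: l) t = (Nat.rec (un l (t >>> 1)) (fun _ _ => o.U ||| un l (t >>> 1)) (t &&& 1) : ℕ) :=
        fun t => by simp only [un, frc_eq]; rfl
      rw [e1, Set.inter_union_distrib_left, e, List.length_cons, pow_succ]
      rcases key o (hl o List.mem_cons_self) with k | k
      · refine ⟨2 * s + 1, by omega, ?_⟩
        rw [e2, Nat.and_one_is_mod, show (2 * s + 1) % 2 = 1 by omega, show (2 * s + 1) >>> 1 = s by omega,
          Set.inter_eq_right.2 k]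
        ext i
        change _ ↔ Nat.testBit (_ ||| _) _ = true
        rw [Nat.testBit_or, Bool.or_eq_true]; rfl
      · refine ⟨2 * s, by omega, ?_⟩
        rw [e2, Nat.and_one_is_mod, show (2 * s) % 2 = 0 by omega, show (2 * s) >>> 1 = s by omega,
          show N ∩ sU r o.U = ∅ from Set.eq_empty_of_forall_notMem fun i hi => k i hi.2 hi.1, Set.empty_union]
        rfl
  obtain ⟨s, hs, e⟩ := main os fun _ h => h
  exact ⟨s, hs, by rw [← e, Set.inter_eq_left.2 hc]⟩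

theorem full {U : ℕ} (h : Nat.beq (Nat.succ U) (Nat.shiftLeft 1 T.N) = true) (N : Set r.Pt) : N ⊆ sU r U := fun i _ => by
  change Nat.testBit _ _ = true
  rw [show U = Nat.pred (Nat.shiftLeft 1 T.N) by rw [← Nat.eq_of_beq_eq_true h]; rfl, testBit_mask]
  exact decide_eq_true i.2

/-- the set `U` is the image of `V` under the word -/
noncomputable def mv (T : Tab) (w : List ℕ) (V U : ℕ) : Bool :=
  allLt T.nc w && allN (fun i => bitN U i == bitN V (T.trL w i)) T.N

theorem mv_sound {w : List ℕ} {V U : ℕ} (h : mv T w V U = true) : sU r U = evw ev w • sU r V := by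
  rw [mv, Bool.and_eq_true, allN_iff] at h
  ext i
  have := h.2 i.1 i.2
  rw [bitN_eq, bitN_eq, beq_iff_eq, ← r.word (allLt_sound h.1)] at this
  rw [Set.mem_smul_set_iff_inv_smul_mem]
  change _ = true ↔ _ = true
  rw [this]

noncomputable def pre (T : Tab) (x U n : ℕ) : ℕ :=
  Nat.rec 0 (fun j ih => frc ih fun S =>
    Nat.lor S (Nat.shiftLeft (Nat.land (Nat.shiftRight U (T.R x j)) 1) j)) n

theorem pre_bit (x U n j : ℕ) : (pre T x U n).testBit j = (decide (j < n) && U.testBit (T.R x j)) := by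
  induction n with
  | zero => simp [pre]
  | succ n ih =>
    have e : pre T x U (n + 1) = pre T x U n ||| ((U >>> T.R x n &&& 1) <<< n) := by simp only [pre, frc_eq]; rfl
    rw [e, Nat.testBit_or, ih, Nat.testBit_shiftLeft, Nat.testBit_and, Nat.testBit_shiftRight]
    rcases lt_trichotomy j n with h | rfl | h
    · simp [h, Nat.lt_succ_of_lt h, Nat.not_le.2 h]
    · simp
    · have : (1 : ℕ).testBit (j - n) = false := Nat.testBit_one_eq_true_iff_self_eq_zero.not.2 (by omega) |> Bool.eq_false_iff.2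
      simp [Nat.not_lt.2 h.le, Nat.not_lt.2 (Nat.succ_le_of_lt h), this]

noncomputable def bfs (T : Tab) (kx U n : ℕ) : ℕ → List ℕ → List ℕ :=
  Nat.rec (fun _ L => L) (fun _ ih c L => frc c fun c =>
    frc (pre T (Nat.mod (Nat.land (Nat.shiftRight c 8) 15) kx) (lget L U (Nat.land c 255)) T.N) fun V =>
      ih (Nat.shiftRight c 12) (V :: L)) n

noncomputable def nd (L : List ℕ) : Bool := List.rec true (fun a l ih => (l.all fun b => !Nat.beq a b) && ih) L

theorem nd_sound (L : List ℕ) (h : nd L = true) : L.Nodup := by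
  induction L with
  | nil => exact List.nodup_nil
  | cons a l ih =>
    have h : ((l.all fun b => !Nat.beq a b) && nd l) = true := h
    rw [Bool.and_eq_true] at h
    refine List.nodup_cons.2 ⟨fun ha => ?_, ih h.2⟩
    simpa using List.all_eq_true.1 h.1 a ha

theorem set_orb {H : Subgroup G} {kx : ℕ} (hH : ∀ x < kx, ev x ∈ H) (h0 : 0 < kx) (hk : kx ≤ T.nc) {U n c : ℕ}
    (h1 : sm T U = true) (h2 : nd (bfs T kx U n c [U]) = true) : n + 1 ≤ (orbit H (sU r U)).ncard := by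
  let p : ℕ → Prop := fun V => sU r V ∈ orbit H (sU r U) ∧ ∀ i, V.testBit i = true → i < T.N
  have pU : p U := ⟨mem_orbit_self _, fun _ => sm_lt h1⟩
  have key : ∀ n c (L : List ℕ), (∀ V ∈ L, p V) → (∀ V ∈ bfs T kx U n c L, p V) ∧
      (bfs T kx U n c L).length = n + L.length := fun n => by
    induction n with
    | zero => exact fun c L h => ⟨h, (zero_add _).symm⟩
    | succ n ih =>
      intro c L h
      have e : bfs T kx U (n + 1) c L = bfs T kx U n (c >>> 12)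
          (pre T ((c >>> 8 &&& 15) % kx) (lget L U (c &&& 255)) T.N :: L) := by
        simp only [bfs, frc_eq]; rfl
      have hx := Nat.mod_lt (c >>> 8 &&& 15) h0
      generalize (c >>> 8 &&& 15) % kx = x at e hx
      have h3 : p (lget L U (c &&& 255)) := (lget_mem L U _).elim (fun e => e.symm ▸ pU) (h _)
      have := ih (c >>> 12) (pre T x (lget L U (c &&& 255)) T.N :: L) (List.forall_mem_cons.2 ⟨⟨?_, fun i hi => ?_⟩, h⟩)
      · rw [e]; exact ⟨this.1, by rw [this.2, List.length_cons]; omega⟩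
      · suffices e2 : sU r (pre T x (lget L U (c &&& 255)) T.N) = (⟨ev x, hH x hx⟩ : H) • sU r (lget L U (c &&& 255)) from
          e2 ▸ mem_orbit_of_mem_orbit _ h3.1
        ext i
        change Nat.testBit _ _ = true ↔ i ∈ ev x • sU r _
        rw [pre_bit, Set.mem_smul_set_iff_inv_smul_mem, decide_eq_true i.2, ← r.spec x (hx.trans_le hk) i]
        rfl
      · rw [pre_bit, Bool.and_eq_true] at hi
        exact of_decide_eq_true hi.1
  obtain ⟨k1, k2⟩ := key n c [U] (List.forall_mem_cons.2 ⟨pU, forall_nil⟩)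
  rw [← show _ = n + 1 from k2, ← List.toFinset_card_of_nodup (nd_sound _ h2), ← Set.ncard_coe_finset]
  exact Set.ncard_le_ncard_of_injOn (sU r) (fun V hV => (k1 V (by simpa using hV)).1)
    (fun V hV W hW e => sU_inj r (k1 V (by simpa using hV)).2 (k1 W (by simpa using hW)).2 e) (Set.toFinite _)

variable [Finite G]

theorem row_iff {A : ℕ} {y : G} (hy : y ∈ r.Pres A T.N) (i j : r.Pt) :
    y • j ∈ sU r (rowM A T.N (y • i).1) ↔ j ∈ sU r (rowM A T.N i.1) :=
  ⟨fun h => by simpa [sU] using (r.mem_Pres.1 ((r.Pres A T.N).inv_mem hy) _ (y • i).2).2 _ (y • j).2 h,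
    (r.mem_Pres.1 hy i i.2).2 j j.2⟩

omit [Finite G] in
theorem sU_and (U V : ℕ) : sU r (U &&& V) = sU r U ∩ sU r V := Set.ext fun i => by
  change Nat.testBit _ _ = true ↔ _
  rw [Nat.testBit_and, Bool.and_eq_true]; rfl

noncomputable def clsOk (T : Tab) (A d q nY : ℕ) (os : List Ob) (cs : List ℕ) : Bool :=
  Nat.ble T.N (Nat.pow 2 d) && allN (fun s => frc (un os s) fun U => !bitN U q || (sm T U &&
    (!Nat.beq (Nat.mod nY (popc d U)) 0 || (frc (popc d (Nat.land (rowM A T.N q) U)) fun v =>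
      !os.all fun o => !bitN U o.p || !Nat.blt o.p T.N || Nat.beq (popc d (Nat.land (rowM A T.N o.p) U)) v) ||
      cs.any (Nat.beq U)))) (Nat.pow 2 os.length)

theorem cls1 {Y : Subgroup G} {A : ℕ} (hP : Y ≤ r.Pres A T.N) {ws : List (List ℕ)} (hw : ∀ w ∈ ws, evw ev w ∈ Y)
    (q : r.Pt) {m d : ℕ} {os : List Ob} {cs : List ℕ} (h : okOb T ws m os = true) (hc : orbit Y q ⊆ sU r (orA os))
    (h2 : clsOk T A d q.1 (Nat.card Y) os cs = true) : ∃ U ∈ cs, Y ≤ stabilizer G (sU r U) := by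
  have hY : Y ≤ stabilizer G (orbit Y q) := fun y hy => smul_orbit (⟨y, hy⟩ : Y) q
  obtain ⟨s, hs, e⟩ := un_cases r (fun w h => hY (hw w h)) h hc
  rw [clsOk, Bool.and_eq_true, allN_iff] at h2
  have hd := Nat.le_of_ble_eq_true h2.1
  have h3 := h2.2 s hs
  generalize un os s = U at e h3
  have hq : U.testBit q.1 = true := e.le (mem_orbit_self q)
  simp only [frc_eq, bitN_eq, hq, Bool.not_true, Bool.false_or, Bool.and_eq_true, Bool.or_eq_true] at h3
  obtain ⟨h3, (h4 | h4) | h4⟩ := h3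
  · rw [← ncard_sU r (fun _ => sm_lt h3) hd, ← e, card_orbit_mul Y q] at h4
    change (!Nat.beq (_ * _ % _) 0) = true at h4
    simp at h4
  · have : ∀ i : r.Pt, popc d (Nat.land (rowM A T.N i.1) U) = (sU r (rowM A T.N i.1) ∩ orbit Y q).ncard := fun i => by
      rw [e, ← sU_and, ncard_sU r (fun j hj => ?_) hd]; rfl
      rw [Nat.testBit_and, Bool.and_eq_true] at hj
      exact sm_lt h3 hj.2
    rw [Bool.not_eq_true', ← Bool.not_eq_true, List.all_eq_true] at h4
    refine absurd (fun o _ => ?_) h4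
    cases h5 : U.testBit o.p
    · rfl
    cases h6 : Nat.blt o.p T.N
    · rfl
    obtain ⟨y, hy⟩ : (⟨o.p, blt1 h6⟩ : r.Pt) ∈ orbit Y q := e.ge h5
    have h7 := this ⟨o.p, blt1 h6⟩
    rw [← hy] at h7
    rw [show o.p = (y • q).1 from (congrArg Subtype.val hy).symm, h7, this q,
      ← Set.ncard_image_of_injective (sU r (rowM A T.N q.1) ∩ _) (MulAction.injective (y : G))]
    simp only [Bool.not_true, Bool.false_or, Nat.beq_eq]
    congr 1
    ext j
    obtain ⟨j, rfl⟩ := (MulAction.surjective (y : G)) j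
    rw [(MulAction.injective (y : G)).mem_set_image]
    exact and_congr (row_iff r (hP y.2) q j) (mem_stabilizer_set.1 (hY y.2) j)
  · obtain ⟨V, hV, e2⟩ := List.any_eq_true.1 h4
    exact ⟨V, hV, Nat.eq_of_beq_eq_true e2 ▸ e ▸ hY⟩

structure Cd where
  U : ℕ
  n : ℕ
  c : ℕ
  h : List ℕ
  V : ℕ
  l : ℕ

noncomputable def cdOk (T : Tab) (kx idx : ℕ) (Ls : List (List (List ℕ))) (c : Cd) : Bool :=
  sm T c.U && nd (bfs T kx c.U c.n c.c [c.U]) && (Nat.ble idx c.n || (Nat.beq (Nat.succ c.n) idx && allLt kx c.h &&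
    mv T c.h c.V c.U && Nat.blt c.l Ls.length && (Ls.getD c.l []).all fun w => mv T w c.V c.V))

abbrev gW (ev : ℕ → G) (ws : List (List ℕ)) : Subgroup G := gensub (byW ev ws) ws.length

theorem cls2 {H Y : Subgroup G} {kx idx n : ℕ} (hH : ∀ x < kx, ev x ∈ H) (h0 : 0 < kx) (hk : kx ≤ T.nc) (hY : Y ≤ H)
    (cH : Nat.card H = idx * n) (cY : Nat.card Y = n) {Ls : List (List (List ℕ))}
    (hL : ∀ l < Ls.length, gW ev (Ls.getD l []) ≤ H ∧ n ≤ Nat.card (gW ev (Ls.getD l []))) {cs : List Cd}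
    (h : cs.all (cdOk T kx idx Ls) = true) (h2 : ∃ U ∈ cs.map Cd.U, Y ≤ stabilizer G (sU r U)) :
    ∃ h ∈ H, ∃ l < Ls.length, Y = (gW ev (Ls.getD l [])).map (MulAut.conj h).toMonoidHom := by
  obtain ⟨_, hc', h2⟩ := h2
  obtain ⟨c, hc, rfl⟩ := List.mem_map.1 hc'
  have h3 := List.all_eq_true.1 h c hc
  simp only [cdOk, Bool.and_eq_true, Bool.or_eq_true, Nat.ble_eq, Nat.beq_eq, Nat.blt_eq] at h3
  obtain ⟨⟨h3, h4⟩, h5⟩ := h3
  have h6 := set_orb r hH h0 hk h3 h4
  have h7 := card_orbit_mul H (sU r c.U)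
  have h8 := card_le_of_le (le_inf hY h2)
  have h9 : 0 < n := cY ▸ Nat.card_pos
  rw [cY] at h8
  rw [cH] at h7
  rcases h5 with h5 | ⟨⟨⟨⟨h5, a1⟩, a2⟩, a3⟩, a4⟩
  · nlinarith [Nat.mul_le_mul ((Nat.succ_le_succ h5).trans h6) h8]
  have a5 : Nat.card (H ⊓ stabilizer G (sU r c.U) : Subgroup G) ≤ n := by
    refine Nat.le_of_mul_le_mul_left ?_ (show 0 < idx by omega)
    rw [h7]
    exact Nat.mul_le_mul_right _ (by omega)
  have a6 := evw_mem hH (allLt_sound a1)
  refine ⟨_, a6, c.l, a3, (eq_of_le_of_card_ge (le_inf hY h2) (a5.trans cY.ge)).trans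
    (eq_of_le_of_card_ge ?_ ?_).symm⟩
  · rintro _ ⟨y, hy, rfl⟩
    refine ⟨H.mul_mem (H.mul_mem a6 ((hL _ a3).1 hy)) (H.inv_mem a6), ?_⟩
    have : y ∈ stabilizer G (sU r c.V) := gen_le (fun w hw => (mv_sound r (List.all_eq_true.1 a4 w hw)).symm) _ hy
    change (_ * y * _) • _ = _
    rw [mv_sound r a2, mul_smul, mul_smul, inv_smul_smul, this]
  · rw [card_map_of_injective (MulAut.conj _).injective]
    exact a5.trans (hL _ a3).2

omit [Finite G] in
/-- words of even parity lie in a subgroup of index at most two -/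
theorem par {M : Subgroup G} {ts : List (List ℕ)} (hi : M.relIndex (gW ev ts) = 2) :
    ∃ f : ℕ → Bool, (∃ x < ts.length, f x = true) ∧ ∀ vs : List (List ℕ), (∀ w ∈ vs, w.countP f % 2 = 0) →
      ∀ w ∈ vs.map (subst ts), evw ev w ∈ M := by
  classical
  refine ⟨fun x => decide (byW ev ts x ∉ M), ?_, fun vs h w hw => ?_⟩
  · by_contra hc
    rw [relIndex_eq_one.2 (gensub_le fun x hx => by
      by_contra h; exact hc ⟨x, hx, decide_eq_true h⟩)] at hi
    omega
  obtain ⟨w, hw', rfl⟩ := List.mem_map.1 hw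
  have key : ∀ w : List ℕ, evw ev (subst ts w) ∈ M ↔ w.countP (fun x => decide (byW ev ts x ∉ M)) % 2 = 0 := fun w => by
    induction w with
    | nil => simp [evw_subst]
    | cons x w ih =>
      have := mul_mem_iff_of_index_two (H := M.subgroupOf (gW ev ts)) hi (a := ⟨_, byW_gen ev ts x⟩)
        (b := ⟨_, evw_sub (byW_gen ev ts) w⟩)
      simp only [mem_subgroupOf, coe_mul] at this
      rw [evw_subst, evw_cons, ← evw_subst, this, ih, List.countP_cons]
      by_cases hx : byW ev ts x ∈ M <;> simp [hx] <;> omega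
  exact (key w).2 (h w hw')

section graph
variable {H K : Subgroup G} {p0 b0 c0 : r.Pt}

omit [Finite G] in
theorem nb_stab (S : Sit H K p0 b0) {ws : List (List ℕ)} {p : r.Pt} (h1 : ∀ w ∈ ws, evw ev w ∈ H)
    (h2 : ∀ w ∈ ws, evw ev w ∈ stabilizer G p) : ∀ w ∈ ws, evw ev w ∈ stabilizer G (Nb K p0 b0 p) := fun w hw =>
  mem_stabilizer_set.2 fun q => by
    have := nb_smul (p0 := p0) (b0 := b0) (S.le (h1 w hw)) p q
    rwa [h2 w hw] at this

noncomputable def nbOk (T : Tab) (d k : ℕ) (os : List Ob) (f : ℕ → Bool) (cs : List ℕ) : Bool :=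
  Nat.ble T.N (Nat.pow 2 d) && Nat.beq (Nat.succ (orA os)) (Nat.shiftLeft 1 T.N) &&
    allN (fun s => frc (un os s) fun U => !f U || (sm T U && (!Nat.beq (popc d U) k || cs.any (Nat.beq U))))
      (Nat.pow 2 os.length)

omit [Finite G] in
theorem nb_cases {N : Set r.Pt} {ws : List (List ℕ)} (hN : ∀ w ∈ ws, evw ev w ∈ stabilizer G N) {m d : ℕ} {os : List Ob}
    (h : okOb T ws m os = true) {f : ℕ → Bool} (hf : ∀ U, N = sU r U → f U = true) {cs : List ℕ}
    (h2 : nbOk T d N.ncard os f cs = true) : ∃ U ∈ cs, N = sU r U := by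
  simp only [nbOk, Bool.and_eq_true, allN_iff] at h2
  obtain ⟨s, hs, e⟩ := un_cases r hN h (full r h2.1.2 N)
  have h3 := h2.2 s hs
  simp only [frc_eq, hf _ e, Bool.not_true, Bool.false_or, Bool.and_eq_true, Bool.or_eq_true] at h3
  rcases h3.2 with h4 | h4
  · rw [← ncard_sU r (fun _ => sm_lt h3.1) (Nat.le_of_ble_eq_true h2.1.1), ← e] at h4
    simp at h4
  · obtain ⟨V, hV, e2⟩ := List.any_eq_true.1 h4
    exact ⟨V, hV, Nat.eq_of_beq_eq_true e2 ▸ e⟩

omit [Finite G] in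
theorem fB (S : Sit H K p0 b0) (hne : b0 ≠ p0) (U : ℕ) (e : Nb K p0 b0 b0 = sU r U) :
    (bitN U p0.1 && !bitN U b0.1) = true := by
  have h1 : p0 ∈ sU r U := e ▸ S.symm ⟨1, K.one_mem, one_smul _ _, one_smul _ _⟩
  have h2 : b0 ∉ sU r U := e ▸ Sit.irr hne b0
  rw [bitN_eq, bitN_eq, h1, Bool.eq_false_iff.2 h2]; rfl

noncomputable def gC (T : Tab) (kx p b c M : ℕ) (hs : List (List ℕ × ℕ)) (U : ℕ) : Bool :=
  !bitN U p && !bitN U c && hs.all fun h => !(allLt kx h.1 && Nat.blt h.2 T.N && Nat.beq (T.trL h.1 h.2) c) ||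
    bitN U (T.trL h.1 b) == bitN M h.2

omit [Finite G] in
theorem fC (S : Sit H K p0 b0) (hne : b0 ≠ p0) {kx : ℕ} (hH : ∀ x < kx, ev x ∈ H) (hk : kx ≤ T.nc)
    (hc : c0 ∉ orbit H b0) {M : ℕ} (hM : Nb K p0 b0 b0 = sU r M) (hs : List (List ℕ × ℕ)) (U : ℕ)
    (e : Nb K p0 b0 c0 = sU r U) : gC T kx p0.1 b0.1 c0.1 M hs U = true := by
  have h1 : p0 ∉ sU r U := e ▸ fun h => hc (S.nb0 ▸ S.symm h)
  have h2 : c0 ∉ sU r U := e ▸ Sit.irr hne c0
  rw [gC, bitN_eq, bitN_eq, Bool.eq_false_iff.2 h1, Bool.eq_false_iff.2 h2]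
  refine List.all_eq_true.2 fun h _ => ?_
  cases h3 : (allLt kx h.1 && Nat.blt h.2 T.N && Nat.beq (T.trL h.1 h.2) c0.1)
  · rfl
  simp only [Bool.and_eq_true, Nat.beq_eq] at h3
  have h4 : ∀ x ∈ h.1, x < T.nc := fun x hx => (allLt_sound h3.1.1 x hx).trans_le hk
  have h5 : (evw ev h.1)⁻¹ • r.pt h.2 h3.1.2 = c0 := Subtype.ext ((r.word h4 (r.pt h.2 h3.1.2)).trans h3.2)
  have h6 := nb_smul (p0 := p0) (b0 := b0) (K.inv_mem (S.le (evw_mem hH (allLt_sound h3.1.1)))) b0 (r.pt h.2 h3.1.2)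
  rw [h5, hM] at h6
  rw [← r.word h4, bitN_eq, bitN_eq]
  simp only [Bool.not_true, Bool.false_or, beq_iff_eq]
  exact Bool.eq_iff_iff.2 ⟨fun h => h6.1 (S.symm (e.ge h)), fun h => e.le (S.symm (h6.2 h))⟩

theorem pres_of (S : Sit H K p0 b0) {A : ℕ} (hP : H ≤ r.Pres A T.N) (cov : ∀ p, p = p0 ∨ p ∈ orbit H b0 ∨ p ∈ orbit H c0)
    (h0 : orbit H b0 = sU r (rowM A T.N p0.1)) (h1 : Nb K p0 b0 b0 = sU r (rowM A T.N b0.1))
    (h2 : Nb K p0 b0 c0 = sU r (rowM A T.N c0.1)) : K ≤ r.Pres A T.N := by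
  have key : ∀ (h : H) (p : r.Pt), Nb K p0 b0 p = sU r (rowM A T.N p.1) →
      Nb K p0 b0 (h • p) = sU r (rowM A T.N (h • p).1) := fun h p e => Set.ext fun q => by
    obtain ⟨q, rfl⟩ := MulAction.surjective (h : G) q
    exact (nb_smul (S.le h.2) p q).trans (e ▸ (row_iff r (hP h.2) p q).symm)
  have all : ∀ p, Nb K p0 b0 p = sU r (rowM A T.N p.1) := fun p => by
    rcases cov p with rfl | ⟨h, rfl⟩ | ⟨h, rfl⟩
    exacts [S.nb0.trans h0, key h _ h1, key h _ h2]
  exact fun g hg => r.mem_Pres.2 fun i _ => ⟨(g • i).2, fun j _ e =>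
    (all _).le ((nb_smul hg i j).2 ((all i).ge e))⟩

theorem aut_norm (hf : ∀ g : G, (∀ i : r.Pt, g • i = i) → g = 1) {A : ℕ} {σw : List (List ℕ)}
    (h1 : gW ev σw ≤ r.Pres A T.N) (h2 : gW ev σw ≤ normalizer (H : Set G)) (l : List Stp)
    (h : T.stps A T.N σw l [p0.1] = true) : ∀ σ ∈ r.Pres A T.N, σ • p0 = p0 → σ ∈ normalizer (H : Set G) := by
  intro σ hσ e
  obtain ⟨k, hk, hk'⟩ := r.aut_le le_rfl h1 σw (byW_gen ev σw) l [p0.1] (by simpa using p0.2) h (fun i => σ • i)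
    (r.mem_Pres.1 hσ) (fun i j _ _ e => smul_left_cancel σ e) fun i hi => by
      rw [show i = p0 from Subtype.ext (List.mem_singleton.1 hi), e]
  rw [show σ = k from (inv_mul_eq_one.1 (hf _ fun i => by rw [mul_smul, hk' i i.2, inv_smul_smul])).symm]
  exact h2 hk

end graph
end CfH6.R3
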