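import Cfsg.Agent.OD.Pre
import Cfsg.Agent.H6.R3B
import Cfsg.Agent.H6.MatG
/-! The full symmetric group on the points of a table as the ambient group. -/
set_option autoImplicit false
open MulAction Subgroup
open scoped Pointwise
namespace CfH6.R3
open CfL

section
variable {T : Tab} {G : Type*} [Group G] {ev : ℕ → G} (r : Rep T ev)

noncomputable def eqW (T : Tab) (u v : List ℕ) : Bool :=
  allLt T.nc u && allLt T.nc v && allN (fun i => Nat.beq (T.trL u i) (T.trL v i)) T.N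

theorem weq (hf : ∀ g : G, (∀ i : r.Pt, g • i = i) → g = 1) {u v : List ℕ} (h : eqW T u v = true) :
    evw ev u = evw ev v := by
  simp only [eqW, Bool.and_eq_true, allN_iff] at h
  refine mul_inv_eq_one.1 (hf _ fun i => ?_)
  rw [mul_smul, ← eq_inv_smul_iff]
  exact Subtype.ext (by rw [r.word (allLt_sound h.1.2), r.word (allLt_sound h.1.1), Nat.eq_of_beq_eq_true (h.2 _ i.2)])

theorem wones (hf : ∀ g : G, (∀ i : r.Pt, g • i = i) → g = 1) {σ ws : List (List ℕ)}
    (h : (ws.all fun w => eqW T (subst σ w) []) = true) : ∀ w ∈ ws, evw (byW ev σ) w = 1 := fun w hw => by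
  rw [← evw_subst]; exact weq r hf (List.all_eq_true.1 h w hw)

theorem winv (hf : ∀ g : G, (∀ i : r.Pt, g • i = i) → g = 1) {σ : List (List ℕ)} {il : List ℕ} {k : ℕ}
    (h : (((List.range k).map fun x => [x, il.getD x 0]).all fun w => eqW T (subst σ w) []) = true) :
    ∀ x < k, byW ev σ (il.getD x 0) = (byW ev σ x)⁻¹ := inv_of_rels (wones r hf h)

omit r in
theorem wmem {H : Subgroup G} {kx : ℕ} (hH : ∀ x < kx, ev x ∈ H) {ws : List (List ℕ)} (h : ws.all (allLt kx) = true) :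
    ∀ w ∈ ws, evw ev w ∈ H := fun w hw => evw_mem hH (allLt_all h w hw)

variable [Finite G]

theorem orb_eq {ws : List (List ℕ)} (b : r.Pt) {m D : ℕ} {l : List (ℕ × ℕ)} (h : (okOb T ws m [⟨b.1, D, l⟩] &&
    allN (fun i => !bitN D i || ws.all fun w => bitN D (T.trL w i)) T.N && sm T D) = true) :
    orbit (gW ev ws) b = sU r D := by
  simp only [okOb, Bool.and_eq_true, List.all_cons, List.all_nil, and_true] at h
  obtain ⟨⟨⟨h1, ⟨-, h2⟩, h3⟩, h4⟩, h5⟩ := h
  refine Set.Subset.antisymm ?_ fun i hi => ?_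
  · rintro _ ⟨g, rfl⟩
    exact (bitN_eq _ _).symm.trans (r.closed (bitN D) ws (by rw [h1, h4]; rfl) g.2 b h3)
  · have := r.orb_sub (K := gW ev ws) h1 (fun w hw => by
      obtain ⟨k, hk, rfl⟩ := List.getElem_of_mem hw
      have := byW_gen ev ws k
      rwa [byW, List.getD_eq_getElem _ _ hk] at this) b m l
    rw [Nat.eq_of_beq_eq_true h2] at this
    obtain ⟨a, ha, e⟩ := this _ hi
    exact Subtype.ext e ▸ ha

omit [Finite G] in
theorem cover {p0 : r.Pt} {U V : ℕ} (h : Nat.beq (Nat.succ (Nat.lor (Nat.shiftLeft 1 p0.1) (Nat.lor U V)))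
    (Nat.shiftLeft 1 T.N) = true) (p : r.Pt) : p = p0 ∨ p ∈ sU r U ∨ p ∈ sU r V := by
  have : Nat.testBit (_ ||| (_ ||| _)) _ = true := full r h Set.univ (Set.mem_univ p)
  simp only [Nat.testBit_or, Bool.or_eq_true] at this
  exact this.imp_left fun e => Subtype.ext (bit_one e).symm

omit [Finite G] in
theorem sub_of {H Y : Subgroup G} (hY : Y ≤ H) {b : r.Pt} {D : ℕ} (o : orbit H b = sU r D) (q : r.Pt) {os : List Ob}
    (h : (bitN D q.1 && Nat.beq (orA os) D) = true) : orbit Y q ⊆ sU r (orA os) := by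
  rw [Bool.and_eq_true, bitN_eq] at h
  rw [Nat.eq_of_beq_eq_true h.2, ← o, ← orbit_eq_iff.2 (o.ge h.1)]
  exact orbit_mono hY q

omit [Finite G] in
theorem ncard_of {U d k : ℕ} (h : (sm T U && Nat.ble T.N (Nat.pow 2 d) && Nat.beq (popc d U) k) = true) :
    (sU r U).ncard = k := by
  simp only [Bool.and_eq_true] at h
  rw [ncard_sU r (fun _ => sm_lt h.1.1) (Nat.le_of_ble_eq_true h.1.2), Nat.eq_of_beq_eq_true h.2]

theorem pres_words {A : ℕ} {ws : List (List ℕ)} (h : ws.all (T.presW A T.N) = true) : gW ev ws ≤ r.Pres A T.N :=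
  gen_le (fun w hw => r.pres_word A T.N w (List.all_eq_true.1 h w hw)) _

theorem norm_word (hf : ∀ g : G, (∀ i : r.Pt, g • i = i) → g = 1) {H : Subgroup G} {kx : ℕ} (hH : gensub ev kx = H)
    (w : List ℕ) (us : List (List ℕ))
    (h : ((List.range kx).all fun x => allLt kx (us.getD x []) && eqW T (w ++ [x]) (us.getD x [] ++ w)) = true) :
    evw ev w ∈ normalizer (H : Set G) := by
  subst hH
  refine mem_normalizer_fintype fun n hn => ?_
  refine (gensub_le (K := (gensub ev kx).comap (MulAut.conj (evw ev w)).toMonoidHom) fun x hx => ?_) hn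
  have := List.all_eq_true.1 h x (List.mem_range.2 hx)
  rw [Bool.and_eq_true] at this
  have e := weq r hf this.2
  rw [evw_append, evw_append, evw_cons, evw_nil, mul_one] at e
  change evw ev w * ev x * (evw ev w)⁻¹ ∈ gensub ev kx
  rw [e, mul_inv_cancel_right]
  exact evw_mem (fun _ => mem_gensub) (allLt_sound this.1)

theorem stab_eq {H L : Subgroup G} {b : r.Pt} {k n : ℕ} (h1 : L ≤ H) (h2 : L ≤ stabilizer G b) (h3 : n ≤ Nat.card L)
    (cH : Nat.card H = k * n) (hk : (orbit H b).ncard = k) (h0 : 0 < k) : L = H ⊓ stabilizer G b := by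
  refine eq_of_le_of_card_ge (le_inf h1 h2) (le_trans (Nat.le_of_mul_le_mul_left ?_ h0) h3)
  rw [← cH, card_orbit_mul H b, hk]

omit [Finite G] in
theorem tr_of {Z Ω : Type*} [Group Z] [MulAction Z Ω] {j : Z →* G} (hj : Function.Injective j) {H L : Subgroup G}
    (hr : j.range = H) {b0 : r.Pt} (hL : L = H ⊓ stabilizer G b0) {b : Ω}
    (e : ∃ h ∈ H, (stabilizer Z b).map j = L.map (MulAut.conj h).toMonoidHom) :
    ∃ h ∈ H, ∀ x, x • b = b ↔ j x • h • b0 = h • b0 := by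
  obtain ⟨h, hh, e⟩ := e
  refine ⟨h, hh, fun x => ?_⟩
  rw [← mem_stabilizer_iff, ← mem_map_iff_mem hj, e, hL, ← inv_smul_eq_iff, ← mul_smul, ← mul_smul]
  refine ⟨?_, fun h1 => ⟨h⁻¹ * j x * h, ⟨H.mul_mem (H.mul_mem (H.inv_mem hh) (hr.le ⟨x, rfl⟩)) hh, h1⟩, by simp [mul_assoc]⟩⟩
  rintro ⟨y, hy, e2⟩
  rw [← e2]
  simpa [mul_assoc] using hy.2

omit r [Finite G] in
theorem card_stab {Z Ω : Type*} [Group Z] [MulAction Z Ω] {j : Z →* G} (hj : Function.Injective j) {H : Subgroup G}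
    (hr : j.range = H) {b : Ω} {k n : ℕ} (hb : (orbit Z b).ncard = k) (cH : Nat.card H = k * n) (h0 : 0 < k) :
    (stabilizer Z b).map j ≤ H ∧ Nat.card ((stabilizer Z b).map j) = n := by
  refine ⟨hr ▸ map_le_range _ _, Nat.eq_of_mul_eq_mul_left h0 ?_⟩
  rw [card_map_of_injective hj, ← cH, ← hr, ← hb, ← index_stabilizer, index_mul_card]
  exact Nat.card_congr (MonoidHom.ofInjective hj).toEquiv

omit r [Finite G] in
theorem unconj {H Y L : Subgroup G} {g h : G} (hg : g ∈ H) (hh : h ∈ H)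
    (e : Y.map (MulAut.conj g).toMonoidHom = L.map (MulAut.conj h).toMonoidHom) :
    ∃ h ∈ H, Y = L.map (MulAut.conj h).toMonoidHom := by
  refine ⟨g⁻¹ * h, H.mul_mem (H.inv_mem hg) hh, map_injective (f := (MulAut.conj g).toMonoidHom)
    (MulAut.conj g).injective ?_⟩
  rw [e, map_map]
  congr 1
  ext; simp [mul_assoc]

omit r [Finite G] in
theorem conj_le {H Y : Subgroup G} {g : G} (hg : g ∈ H) (hY : Y ≤ H) : Y.map (MulAut.conj g).toMonoidHom ≤ H ∧
    Nat.card (Y.map (MulAut.conj g).toMonoidHom) = Nat.card Y :=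
  ⟨by rintro _ ⟨y, hy, rfl⟩; exact H.mul_mem (H.mul_mem hg (hY hy)) (H.inv_mem hg),
    card_map_of_injective (MulAut.conj g).injective⟩

omit r in
theorem syl_full {H Y S : Subgroup G} {p a : ℕ} (hp : p.Prime) (hT : S ≤ H)
    (hY : Y ≤ H) (cT : Nat.card S = p ^ a) (hH : ¬ p ^ (a + 1) ∣ Nat.card H) (hb : p ^ a ∣ Nat.card Y) :
    ∃ h ∈ H, S ≤ Y.map (MulAut.conj h).toMonoidHom := by
  obtain ⟨h, hh, e⟩ := syl_conj hp hT hY cT hH hb
  exact ⟨h, hh, inf_eq_left.1 (eq_of_le_of_card_ge inf_le_left (cT.le.trans e))⟩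

omit r [Finite G] in
theorem gW_mem (ws : List (List ℕ)) : ∀ w ∈ ws, evw ev w ∈ gW ev ws := fun w hw => by
  obtain ⟨k, hk, rfl⟩ := List.getElem_of_mem hw
  have := byW_gen ev ws k
  rwa [byW, List.getD_eq_getElem _ _ hk] at this

omit r [Finite G] in
theorem twist {Z X : Type*} [Group Z] [Group X] {ι0 ι1 : X →* G} (i0 : Function.Injective ι0) (i1 : Function.Injective ι1)
    {H : Subgroup G} (r0 : ι0.range = H) (r1 : ι1.range = H) (W : Subgroup X) {j : Z →* G} (hj : Function.Injective j)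
    (hr : j.range = H) {Y : Subgroup Z} {h : G} (hh : h ∈ H) (e : Y.map j = (W.map ι1).map (MulAut.conj h).toMonoidHom) :
    ∃ j : Z →* G, Function.Injective j ∧ j.range = H ∧ ∃ h ∈ H, Y.map j = (W.map ι0).map (MulAut.conj h).toMonoidHom := by
  let k : Z →* X := (MonoidHom.ofInjective i1).symm.toMonoidHom.comp (j.codRestrict _ fun z => r1.ge (hr.le ⟨z, rfl⟩))
  have hk : ∀ z, ι1 (k z) = j z := fun z => MonoidHom.apply_ofInjective_symm i1 _
  obtain ⟨x, rfl⟩ := r1.ge hh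
  have c : ∀ ι : X →* G, (W.map ι).map (MulAut.conj (ι x)).toMonoidHom = (W.map (MulAut.conj x).toMonoidHom).map ι :=
    fun ι => by rw [map_map, map_map]; congr 1; ext; simp
  refine ⟨ι0.comp k, i0.comp fun a b e => hj (by rw [← hk, ← hk, e]), ?_, ι0 x, r0.le ⟨x, rfl⟩, ?_⟩
  · rw [MonoidHom.range_comp, MonoidHom.range_eq_top.2 fun y => ?_, ← MonoidHom.range_eq_map, r0]
    obtain ⟨z, hz⟩ := hr.ge (r1.le ⟨y, rfl⟩)
    exact ⟨z, i1 ((hk z).trans hz)⟩
  · rw [c, ← map_map]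
    congr 1
    refine map_injective i1 ?_
    rw [← c, ← e, map_map, show ι1.comp k = j from MonoidHom.ext hk]

theorem finish {H K : Subgroup G} {p0 b0 : r.Pt} (S : Sit H K p0 b0) {X : Type*} [Group X] (κ : X →* G)
    (hκ : Function.Injective κ) (h1 : κ.range ≤ K) (h2 : Nat.card X = T.N * Nat.card H) : Nonempty (K ≃* X) := by
  rw [← eq_of_le_of_card_ge h1 (by
    rw [S.card, r.card_Pt, ← h2]; exact (Nat.card_congr (MonoidHom.ofInjective hκ).toEquiv).le)]
  exact ⟨(MonoidHom.ofInjective hκ).symm⟩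
end

variable {T : Tab} {il : List ℕ} (g : T.Act il [])

noncomputable def pev (x : ℕ) : Equiv.Perm {i // i < T.N} := (Classical.choice g.rep).ρ (wel T.nc il [] x)

noncomputable def pr : Rep T (pev g) :=
  ⟨MonoidHom.id _, fun x hx i => by rw [MonoidHom.id_apply, pev, ← map_inv]; exact (Classical.choice g.rep).spec x hx i⟩

theorem pr_faith (x : Equiv.Perm {i // i < T.N}) (h : ∀ i : (pr g).Pt, x • i = i) : x = 1 := Equiv.ext h

theorem transport' {Ω : Type*} [Finite Ω] (G : Subgroup (Equiv.Perm Ω)) [IsPretransitive G Ω] {a b c : Ω} {k l : ℕ}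
    (hb : (orbit (stabilizer G a) b).ncard = k) (hc : (orbit (stabilizer G a) c).ncard = l) (hk : k ≠ 1)
    (hl : l ≠ 1) (hkl : k ≠ l) (hΩ : Nat.card Ω = 1 + k + l) {H : Subgroup (Equiv.Perm {i // i < T.N})}
    {p0 b0 c0 : (pr g).Pt} (j : stabilizer G a →* Equiv.Perm {i // i < T.N}) (hr : j.range = H)
    (h0 : ∀ h ∈ H, h • p0 = p0) (cov : ∀ p, p = p0 ∨ p ∈ orbit H b0 ∨ p ∈ orbit H c0)
    (h1 : ∃ h ∈ H, ∀ x, x • b = b ↔ j x • h • b0 = h • b0) (h2 : ∃ h ∈ H, ∀ x, x • c = c ↔ j x • h • c0 = h • c0) :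
    ∃ K : Subgroup (Equiv.Perm {i // i < T.N}), Nonempty (G ≃* K) ∧ Sit H K p0 b0 := by
  obtain ⟨K, e, S⟩ := transport (P := {i // i < T.N}) (p0 := p0) (b0 := b0) (c0 := c0) G hb hc hk hl hkl hΩ j hr h0
    cov h1 h2
  exact ⟨K, e, S.tr, S.st, S.sw⟩

end CfH6.R3
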