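import Cfsg.Agent.OD.Pre
import Cfsg.Agent.H6.R3HD
import Cfsg.Agent.H6.LT18
import Cfsg.Agent.H6.LT19
import Cfsg.Agent.H6.M22G
import Cfsg.Agent.H6.HiG
import Cfsg.Agent.OD.Helper6x1bfdef16f3
/-! Rank 3 characterisation of the Higman–Sims group. -/
set_option autoImplicit false
set_option maxRecDepth 100000
set_option Elab.async false
set_option linter.all false
namespace CfH6.R3H
open CfH6
open CfH6.R3 CfL MulAction Subgroup
open scoped Pointwise
theorem act : T.Act [0, 1, 2, 3, 4, 5, 6] [] := ⟨by decide +kernel, by decide +kernel, rfl⟩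
abbrev A : Type := Equiv.Perm {i // i < T.N}
noncomputable abbrev ev : ℕ → A := pev act
noncomputable abbrev r : Rep T ev := pr act
theorem hf : ∀ g : A, (∀ i : r.Pt, g • i = i) → g = 1 := pr_faith act
def gw : List (List ℕ) := [[0], [1], [2], [3], [4]]
noncomputable abbrev H : Subgroup A := gW ev gw
theorem He : gensub ev 5 = H := (gensub_id ev (σ := gw) (by decide)).symm
theorem hH : ∀ x < 5, ev x ∈ H := fun _ hx => He.le (mem_gensub hx)
theorem wle {ws : List (List ℕ)} (h : ws.all (allLt 5) = true) : gW ev ws ≤ H := gen_le (wmem hH h) _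
noncomputable abbrev p0 : r.Pt := r.pt 0
noncomputable abbrev b0 : r.Pt := r.pt 99
noncomputable abbrev c0 : r.Pt := r.pt 4
theorem iota : ∃ ι : M22B.G →* A, Function.Injective ι ∧ ι.range = H ∧ ∀ x < 5, ι (M22B.el x) = byW ev gw x := by
  obtain ⟨ι, h⟩ := M22B.hhom (byW ev gw) (winv r hf (by decide +kernel)) (wones r hf (by decide +kernel))
  have := M22G.simple
  exact ⟨ι, inj_of_simple ι (g := M22B.el 0) (by
    rw [h 0 (by decide)]; exact r.ne_one [0] (r.pt mv0) (by decide +kernel)), range_hom h M22B.htop, h⟩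
theorem cH : Nat.card H = 443520 := by
  obtain ⟨ι, h1, h2, -⟩ := iota
  rw [← h2, ← M22G.card]; exact (Nat.card_congr (MonoidHom.ofInjective h1).toEquiv).symm
theorem oB : orbit H b0 = sU r (rowM Adj T.N 0) := orb_eq r b0 (m := 3) (l := cB) (by decide +kernel)
theorem oC : orbit H c0 = sU r Sg := orb_eq r c0 (m := 3) (l := cC) (by decide +kernel)
theorem nB : (orbit H b0).ncard = 22 := oB ▸ ncard_of r (d := 7) (by decide +kernel)
theorem nC : (orbit H c0).ncard = 77 := oC ▸ ncard_of r (d := 7) (by decide +kernel)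
theorem cov : ∀ p, p = p0 ∨ p ∈ orbit H b0 ∨ p ∈ orbit H c0 := oB ▸ oC ▸ cover r (by decide +kernel)
theorem h0 : ∀ h ∈ H, h • p0 = p0 := gen_le (r.words_stab gw p0 (by decide +kernel)) _
theorem hP : H ≤ r.Pres Adj T.N := pres_words r (by decide +kernel)
theorem gB : 20160 ≤ Nat.card (gW ev LB) := le_trans (by decide) (r.chain_ge (byW_gen ev LB) 7 chB (by decide +kernel))
theorem gC' : 5760 ≤ Nat.card (gW ev LC) := le_trans (by decide) (r.chain_ge (byW_gen ev LC) 7 chC (by decide +kernel))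
theorem eB : gW ev LB = H ⊓ stabilizer A b0 :=
  R3.stab_eq r (wle (by decide)) (gen_le (r.words_stab LB b0 (by decide +kernel)) _) gB cH nB (by decide)
theorem eC : gW ev LC = H ⊓ stabilizer A c0 :=
  R3.stab_eq r (wle (by decide)) (gen_le (r.words_stab LC c0 (by decide +kernel)) _) gC' cH nC (by decide)
theorem hne : b0 ≠ p0 := fun e => absurd (congrArg Subtype.val e) (by decide)
theorem nbB {K : Subgroup A} (S : Sit H K p0 b0) : ∃ U ∈ Ms, Nb K p0 b0 b0 = sU r U :=
  nb_cases r (nb_stab r S (wmem hH (by decide)) (r.words_stab LB b0 (by decide +kernel))) (m := 3) (d := 7) (os := oJB)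
    (by decide +kernel) (fB r S hne) (by rw [S.ncard, nB]; decide +kernel)
theorem nbC {K : Subgroup A} (S : Sit H K p0 b0) {M : ℕ} (hM : Nb K p0 b0 b0 = sU r M) (cs : List ℕ)
    (h : nbOk T 7 22 oJC (gC T 5 0 99 4 M hsC) cs = true) : ∃ U ∈ cs, Nb K p0 b0 c0 = sU r U :=
  nb_cases r (nb_stab r S (wmem hH (by decide)) (r.words_stab LC c0 (by decide +kernel))) (m := 3) (d := 7) (os := oJC)
    (by decide +kernel) (fC r S hne hH (by decide) (by
      rw [oB]; exact Bool.eq_false_iff.1 ((bitN_eq _ _).symm.trans (by decide +kernel))) hM hsC)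
    (by rw [S.ncard, nB]; exact h)
theorem hn : ∀ σ ∈ r.Pres Adj T.N, σ • p0 = p0 → σ ∈ normalizer (H : Set A) :=
  aut_norm r hf (σw := gw ++ [[6]]) (pres_words r (by decide +kernel))
    (gen_le (forall_app (fun w hw => le_normalizer (gW_mem gw w hw))
      (forall_cons (norm_word r hf He [6] us6 (by decide +kernel)) forall_nil)) _) st (by decide +kernel)
theorem core {K : Subgroup A} (S : Sit H K p0 b0) (hM : Nb K p0 b0 b0 = sU r (rowM Adj T.N 99)) :
    Nonempty (K ≃* HiB.G) := by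
  obtain ⟨U, hU, e⟩ := nbC S hM [rowM Adj T.N 4] (by decide +kernel)
  rw [List.mem_singleton.1 hU] at e
  have z2 : (ev 5)⁻¹ = ev 5 := inv_eq_of_mul_eq_one_right (by
    simpa using weq r hf (u := [5, 5]) (v := []) (by decide +kernel))
  have hz := S.fin (pres_of r S hP cov oB hM e) (z := ev 5) (by simpa using r.pres_word Adj T.N [5] (by decide +kernel))
    (hH 0 (by decide)) (by
      rw [z2]; simpa [mul_assoc] using weq r hf (u := [5]) (v := [0, 5, 0, 5, 0]) (by decide +kernel)) hn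
  obtain ⟨κ, h⟩ := HiB.hhom (byW ev [[0], [1], [2], [3], [4], [5]]) (winv r hf (by decide +kernel)) (wones r hf (by decide +kernel))
  have := HiG.simple
  refine finish r S κ (inj_of_simple κ (g := HiB.el 0) (by
    rw [h 0 (by decide)]; exact r.ne_one [0] (r.pt mv0) (by decide +kernel))) ?_ (by rw [HiG.card, cH]; rfl)
  rw [range_hom h HiB.htop]
  refine gen_le (wmem (kx := 6) (fun x hx => ?_) (by decide)) _
  rcases Nat.lt_succ_iff_lt_or_eq.1 hx with hx | rfl
  exacts [S.le (hH x hx), hz]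
theorem s7 : Nat.card (gW ev t7) = 7 := le_antisymm
  ((LT18.covers (byW ev t7) ⊥ (winv r hf (by decide +kernel)) (wones r hf (by decide +kernel)) forall_nil).card_le
    (m := 1) ⟨inferInstance, card_bot.le⟩).2
  (le_trans (by decide) (r.chain_ge (byW_gen ev t7) 7 cht7 (by decide +kernel)))
theorem s2 : Nat.card (gW ev t2) = 128 := le_antisymm
  ((LT19.covers (byW ev t2) ⊥ (winv r hf (by decide +kernel)) (wones r hf (by decide +kernel)) forall_nil).card_le
    (m := 1) ⟨inferInstance, card_bot.le⟩).2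
  (le_trans (by decide) (r.chain_ge (byW_gen ev t2) 7 cht2 (by decide +kernel)))
theorem clsB {Y : Subgroup A} (h : Y ≤ H ∧ Nat.card Y = 20160) :
    ∃ h ∈ H, Y = (gW ev LB).map (MulAut.conj h).toMonoidHom := by
  obtain ⟨g, hg, hs⟩ := syl_full (p := 7) (a := 1) (by norm_num) (wle (ws := t7) (by decide)) h.1 s7
    (by rw [cH]; norm_num) (by rw [h.2]; norm_num)
  obtain ⟨h1, h2⟩ := conj_le hg h.1
  obtain ⟨x, hx, l, hl, e⟩ := cls2 r hH (by decide) (by decide) h1 (idx := 22) cH (h2.trans h.2) (Ls := [LB])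
    (fun l hl => by obtain rfl : l = 0 := Nat.lt_one_iff.1 hl; exact ⟨wle (by decide), gB⟩) (cs := cdB) (by decide +kernel)
    (cls1 r (h1.trans hP) (fun w hw => hs (gW_mem _ w hw)) (r.pt 99) (m := 3) (d := 7) (os := osB) (by decide +kernel)
      (R3.sub_of r h1 oB _ (by decide +kernel)) (by rw [h2, h.2]; decide +kernel))
  obtain rfl : l = 0 := Nat.lt_one_iff.1 hl
  exact unconj hg hx e
theorem clsC {Y : Subgroup A} (h : Y ≤ H ∧ Nat.card Y = 5760) :
    ∃ h ∈ H, Y = (gW ev LC).map (MulAut.conj h).toMonoidHom := by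
  obtain ⟨g, hg, hs⟩ := syl_full (p := 2) (a := 7) (by norm_num) (wle (ws := t2) (by decide)) h.1 s2
    (by rw [cH]; norm_num) (by rw [h.2]; norm_num)
  obtain ⟨h1, h2⟩ := conj_le hg h.1
  obtain ⟨x, hx, l, hl, e⟩ := cls2 r hH (by decide) (by decide) h1 (idx := 77) cH (h2.trans h.2) (Ls := [LC])
    (fun l hl => by obtain rfl : l = 0 := Nat.lt_one_iff.1 hl; exact ⟨wle (by decide), gC'⟩) (cs := cdC) (by decide +kernel)
    (cls1 r (h1.trans hP) (fun w hw => hs (gW_mem _ w hw)) (r.pt 98) (m := 3) (d := 7) (os := osC) (by decide +kernel)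
      (R3.sub_of r h1 oB _ (by decide +kernel)) (by rw [h2, h.2]; decide +kernel))
  obtain rfl : l = 0 := Nat.lt_one_iff.1 hl
  exact unconj hg hx e
theorem main {Ω : Type*} [Finite Ω] (G : Subgroup (Equiv.Perm Ω)) [IsPretransitive G Ω] {a b c : Ω}
    (hΩ : Nat.card Ω = 100) (e : stabilizer G a ≃* M22B.G) (hb : (orbit (stabilizer G a) b).ncard = 22)
    (hc : (orbit (stabilizer G a) c).ncard = 77) : Nonempty (G ≃* HiB.G) := by
  obtain ⟨ι, i1, i2, -⟩ := iota
  have j1 : Function.Injective (ι.comp e.toMonoidHom) := i1.comp e.injective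
  have j2 : (ι.comp e.toMonoidHom).range = H := by
    rw [MonoidHom.range_comp, MonoidHom.range_eq_top.2 e.surjective, ← MonoidHom.range_eq_map, i2]
  obtain ⟨K, ⟨f⟩, S⟩ := transport' act G hb hc (by decide) (by decide) (by decide) hΩ _ j2 h0 cov
    (tr_of r j1 j2 eB (clsB (card_stab j1 j2 hb cH (by decide))))
    (tr_of r j1 j2 eC (clsC (card_stab j1 j2 hc cH (by decide))))
  obtain ⟨U, hU, hM⟩ := nbB S
  rcases List.mem_cons.1 hU with rfl | hU
  · exact (core S hM).map f.trans
  · obtain ⟨_, h, -⟩ := nbC S (List.mem_singleton.1 hU ▸ hM) [] (by decide +kernel)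
    cases h
end CfH6.R3H
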