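import Cfsg.Agent.OD.Pre
import Cfsg.Agent.H6.R3MD
/-! Subgroups of order 20160 of `U₄(3)`: certificates. -/
set_option autoImplicit false
set_option maxRecDepth 100000
set_option Elab.async false
set_option linter.all false
namespace CfH6.R3M
open CfH6
open CfH6.R3 CfL
theorem k4 : clsOk T Adj 9 1 20160 os4 (cd4.map Cd.U) = true := by decide +kernel
theorem l4 : cd4.all (cdOk T 5 162 [LC, L1]) = true := by decide +kernel
theorem k2 : clsOk T Adj 9 1 20160 os2 (cd2.map Cd.U) = true := by decide +kernel
theorem l2 : cd2.all (cdOk T 5 162 [LC, L1]) = true := by decide +kernel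
theorem k6 : clsOk T Adj 9 1 20160 os6 (cd6.map Cd.U) = true := by decide +kernel
theorem l6 : cd6.all (cdOk T 5 162 [LC, L1]) = true := by decide +kernel
theorem k1 : clsOk T Adj 9 1 20160 os1 (cd1.map Cd.U) = true := by decide +kernel
theorem l1 : cd1.all (cdOk T 5 162 [LC, L1]) = true := by decide +kernel
theorem k5 : clsOk T Adj 9 1 20160 os5 (cd5.map Cd.U) = true := by decide +kernel
theorem l5 : cd5.all (cdOk T 5 162 [LC, L1]) = true := by decide +kernel
theorem k3 : clsOk T Adj 9 1 20160 os3 (cd3.map Cd.U) = true := by decide +kernel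
theorem l3 : cd3.all (cdOk T 5 162 [LC, L1]) = true := by decide +kernel
theorem k7 : clsOk T Adj 9 1 20160 os7 (cd7.map Cd.U) = true := by decide +kernel
theorem l7 : cd7.all (cdOk T 5 162 [LC, L1]) = true := by decide +kernel
end CfH6.R3M
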