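import Cfsg.Agent.OD.Pre
import Cfsg.Agent.H6.U43B
import Cfsg.Agent.H6.TCPart
import Cfsg.Agent.H6.LT14
set_option autoImplicit false
set_option maxRecDepth 100000
set_option linter.all false
namespace CfH6.U43O2
open CfH6
def s0 : List (List ℕ) := [[0], [1], [2], [3], [4]]
def t0 : List (List ℕ) := [[1], [2], [0, 3, 1, 3], [3, 2, 4, 3]]
theorem cov0 : Covers (gensub (byW U43B.el t0) 4) (gensub (byW U43B.el s0) 5) 112 :=
  cov_step U43B.el U43B.hinv U43B.hrel s0 t0 4 4 (fun ev H => LT14.covers ev H) (by decide +kernel)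
theorem top0 : gensub (byW U43B.el s0) 5 = ⊤ := (gensub_id U43B.el (by decide)).trans U43B.htop
theorem covT0 : Covers (gensub (byW U43B.el t0) 4) ⊤ 112 := cov0.top top0
end CfH6.U43O2
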