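import Cfsg.Agent.OD.Pre
import Cfsg.Agent.H6.U43A
import Cfsg.Agent.H6.U43K
import Cfsg.Agent.H6.U43O
import Cfsg.Agent.H6.U43O2
/-! An abstract presentation: order and simplicity. -/
set_option autoImplicit false
set_option maxRecDepth 100000
namespace CfH6.U43G
open CfH6 MulAction
attribute [local instance] U43A.act

theorem stab : U43A.H = stabilizer U43B.G 0 ∧ U43A.H.index = 112 := U43A.stab U43O2.covT0

theorem card : Nat.card U43B.G = 3265920 := (U43A.top U43O.finG).1

theorem base : ∀ g : U43B.G, (∀ b ∈ U43A.bs, g • b = b) → g = 1 := (U43A.top U43O.finG).2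

theorem simple : IsSimpleGroup U43B.G := by
  have := U43O.finG.1
  refine simple_of stab.1 (by rw [stab.2]; decide) (U43A.hmax stab.1 stab.2) base U43A.hbs fun M hM h => ?_
  exact top_of_index (eq_top_of_collapse U43B.el (n := 4) U43B.hinv U43B.hrel U43B.htop M
    (pow_words U43B.el h (by norm_num) (not_dvd_card card stab.2 (by decide)) 1 U43A.ex (U43A.hex base))
    (by decide +kernel) 1 fun ev' h1 h2 => U43K.covers ev' ⊥ h1 h2 forall_nil)

theorem nprime : ¬ (Nat.card U43B.G).Prime := by rw [card]; norm_num

end CfH6.U43G
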