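import Cfsg.Agent.OD.Pre
import Cfsg.Agent.H6.R3MK
import Cfsg.Agent.H6.LT20
import Cfsg.Agent.H6.LT21
import Cfsg.Agent.H6.U43G
import Cfsg.Agent.H6.McG
import Cfsg.Agent.OD.Helper6x1bfdef16f3
import Cfsg.Agent.OD.Helper6xfd99992537
/-! Rank 3 characterisation of the McLaughlin group. -/
set_option autoImplicit false
set_option maxRecDepth 100000
set_option Elab.async false
set_option linter.all false
namespace CfH6.R3M
open CfH6
open CfH6.R3 CfL MulAction Subgroup
open scoped Pointwise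
theorem act : T.Act [0, 1, 2, 3, 4, 5, 6, 7] [] := ⟨by decide +kernel, by decide +kernel, rfl⟩
abbrev A : Type := Equiv.Perm {i // i < T.N}
noncomputable abbrev ev : ℕ → A := pev act
noncomputable abbrev r : Rep T ev := pr act
theorem hf : ∀ g : A, (∀ i : r.Pt, g • i = i) → g = 1 := pr_faith act
def gw : List (List ℕ) := [[0], [1], [2], [3], [4]]
noncomputable abbrev H : Subgroup A := gW ev gw
theorem He : gensub ev 5 = H := (gensub_id ev (σ := gw) (by decide)).symm
theorem hH : ∀ x < 5, ev x ∈ H := fun _ hx => He.le (mem_gensub hx)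
theorem wle {ws : List (List ℕ)} (h : ws.all (allLt 5) = true) : gW ev ws ≤ H := gen_le (wmem hH h) _
noncomputable abbrev p0 : r.Pt := r.pt 0
noncomputable abbrev b0 : r.Pt := r.pt 260
noncomputable abbrev c0 : r.Pt := r.pt 1
theorem iota : ∃ ι : U43B.G →* A, Function.Injective ι ∧ ι.range = H ∧ ∀ x < 5, ι (U43B.el x) = byW ev gw x := by
  obtain ⟨ι, h⟩ := U43B.hhom (byW ev gw) (winv r hf (by decide +kernel)) (wones r hf (by decide +kernel))
  have := U43G.simple
  exact ⟨ι, inj_of_simple ι (g := U43B.el 0) (by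
    rw [h 0 (by decide)]; exact r.ne_one [0] (r.pt mv0) (by decide +kernel)), range_hom h U43B.htop, h⟩
theorem cH : Nat.card H = 3265920 := by
  obtain ⟨ι, h1, h2, -⟩ := iota
  rw [← h2, ← U43G.card]; exact (Nat.card_congr (MonoidHom.ofInjective h1).toEquiv).symm
theorem oB : orbit H b0 = sU r (rowM Adj T.N 0) := orb_eq r b0 (m := 3) (l := cB) (by decide +kernel)
theorem oC : orbit H c0 = sU r Sg := orb_eq r c0 (m := 3) (l := cC) (by decide +kernel)
theorem nB : (orbit H b0).ncard = 112 := oB ▸ ncard_of r (d := 9) (by decide +kernel)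
theorem nC : (orbit H c0).ncard = 162 := oC ▸ ncard_of r (d := 9) (by decide +kernel)
theorem cov : ∀ p, p = p0 ∨ p ∈ orbit H b0 ∨ p ∈ orbit H c0 := oB ▸ oC ▸ cover r (by decide +kernel)
theorem h0 : ∀ h ∈ H, h • p0 = p0 := gen_le (r.words_stab gw p0 (by decide +kernel)) _
theorem hP : H ≤ r.Pres Adj T.N := pres_words r (by decide +kernel)
theorem gB : 29160 ≤ Nat.card (gW ev LB) := le_trans (by decide) (r.chain_ge (byW_gen ev LB) 9 chB (by decide +kernel))
theorem gC' : 20160 ≤ Nat.card (gW ev LC) := le_trans (by decide) (r.chain_ge (byW_gen ev LC) 9 chC (by decide +kernel))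
theorem eB : gW ev LB = H ⊓ stabilizer A b0 :=
  R3.stab_eq r (wle (by decide)) (gen_le (r.words_stab LB b0 (by decide +kernel)) _) gB cH nB (by decide)
theorem eC : gW ev LC = H ⊓ stabilizer A c0 :=
  R3.stab_eq r (wle (by decide)) (gen_le (r.words_stab LC c0 (by decide +kernel)) _) gC' cH nC (by decide)
theorem hne : b0 ≠ p0 := fun e => absurd (congrArg Subtype.val e) (by decide)
theorem nbB {K : Subgroup A} (S : Sit H K p0 b0) : ∃ U ∈ Ms, Nb K p0 b0 b0 = sU r U :=
  nb_cases r (nb_stab r S (wmem hH (by decide)) (r.words_stab LB b0 (by decide +kernel))) (m := 3) (d := 9) (os := oJB)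
    (by decide +kernel) (fB r S hne) (by rw [S.ncard, nB]; decide +kernel)
theorem nbC {K : Subgroup A} (S : Sit H K p0 b0) {M : ℕ} (hM : Nb K p0 b0 b0 = sU r M) (cs : List ℕ)
    (h : nbOk T 9 112 oJC (gC T 5 0 260 1 M hsC) cs = true) : ∃ U ∈ cs, Nb K p0 b0 c0 = sU r U :=
  nb_cases r (nb_stab r S (wmem hH (by decide)) (r.words_stab LC c0 (by decide +kernel))) (m := 3) (d := 9) (os := oJC)
    (by decide +kernel) (fC r S hne hH (by decide) (by
      rw [oB]; exact Bool.eq_false_iff.1 ((bitN_eq _ _).symm.trans (by decide +kernel))) hM hsC)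
    (by rw [S.ncard, nB]; exact h)
theorem hn : ∀ σ ∈ r.Pres Adj T.N, σ • p0 = p0 → σ ∈ normalizer (H : Set A) :=
  aut_norm r hf (σw := gw ++ [[6]]) (pres_words r (by decide +kernel))
    (gen_le (forall_app (fun w hw => le_normalizer (gW_mem gw w hw))
      (forall_cons (norm_word r hf He [6] us6 (by decide +kernel)) forall_nil)) _) st (by decide +kernel)
theorem core {K : Subgroup A} (S : Sit H K p0 b0) (hM : Nb K p0 b0 b0 = sU r (rowM Adj T.N 260)) :
    Nonempty (K ≃* McB.G) := by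
  obtain ⟨U, hU, e⟩ := nbC S hM [rowM Adj T.N 1] (by decide +kernel)
  rw [List.mem_singleton.1 hU] at e
  have z2 : (ev 5)⁻¹ = ev 5 := inv_eq_of_mul_eq_one_right (by
    simpa using weq r hf (u := [5, 5]) (v := []) (by decide +kernel))
  have hz := S.fin (pres_of r S hP cov oB hM e) (z := ev 5) (by simpa using r.pres_word Adj T.N [5] (by decide +kernel))
    (hH 3 (by decide)) (by
      rw [z2]; simpa [mul_assoc] using weq r hf (u := [5]) (v := [3, 5, 3, 5, 3]) (by decide +kernel)) hn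
  obtain ⟨κ, h⟩ := McB.hhom (byW ev [[0], [1], [2], [3], [5], [4]]) (winv r hf (by decide +kernel)) (wones r hf (by decide +kernel))
  have := McG.simple
  refine finish r S κ (inj_of_simple κ (g := McB.el 0) (by
    rw [h 0 (by decide)]; exact r.ne_one [0] (r.pt mv0) (by decide +kernel))) ?_ (by rw [McG.card, cH]; rfl)
  rw [range_hom h McB.htop]
  refine gen_le (wmem (kx := 6) (fun x hx => ?_) (by decide)) _
  rcases Nat.lt_succ_iff_lt_or_eq.1 hx with hx | rfl
  exacts [S.le (hH x hx), hz]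
theorem s3 : Nat.card (gW ev t3) = 729 := le_antisymm
  ((LT20.covers (byW ev t3) ⊥ (winv r hf (by decide +kernel)) (wones r hf (by decide +kernel)) forall_nil).card_le
    (m := 1) ⟨inferInstance, card_bot.le⟩).2
  (le_trans (by decide) (r.chain_ge (byW_gen ev t3) 9 cht3 (by decide +kernel)))
theorem s2 : Nat.card (gW ev t2) = 128 := le_antisymm
  ((LT21.covers (byW ev t2) ⊥ (winv r hf (by decide +kernel)) (wones r hf (by decide +kernel)) forall_nil).card_le
    (m := 1) ⟨inferInstance, card_bot.le⟩).2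
  (le_trans (by decide) (r.chain_ge (byW_gen ev t2) 9 cht2 (by decide +kernel)))
theorem clsB {Y : Subgroup A} (h : Y ≤ H ∧ Nat.card Y = 29160) :
    ∃ h ∈ H, Y = (gW ev LB).map (MulAut.conj h).toMonoidHom := by
  obtain ⟨g, hg, hs⟩ := syl_full (p := 3) (a := 6) (by norm_num) (wle (ws := t3) (by decide)) h.1 s3
    (by rw [cH]; norm_num) (by rw [h.2]; norm_num)
  obtain ⟨h1, h2⟩ := conj_le hg h.1
  obtain ⟨x, hx, l, hl, e⟩ := cls2 r hH (by decide) (by decide) h1 (idx := 112) cH (h2.trans h.2) (Ls := [LB])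
    (fun l hl => by obtain rfl : l = 0 := Nat.lt_one_iff.1 hl; exact ⟨wle (by decide), gB⟩) (cs := cdB) (by decide +kernel)
    (cls1 r (h1.trans hP) (fun w hw => hs (gW_mem _ w hw)) (r.pt 260) (m := 3) (d := 9) (os := osB) (by decide +kernel)
      (R3.sub_of r h1 oB _ (by decide +kernel)) (by rw [h2, h.2]; decide +kernel))
  obtain rfl : l = 0 := Nat.lt_one_iff.1 hl
  exact unconj hg hx e
theorem g1 : 20160 ≤ Nat.card (gW ev L1) := le_trans (by decide) (r.chain_ge (byW_gen ev L1) 9 ch1 (by decide +kernel))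
theorem clsC {Y : Subgroup A} (h : Y ≤ H ∧ Nat.card Y = 20160) :
    ∃ h ∈ H, Y = (gW ev LC).map (MulAut.conj h).toMonoidHom ∨ Y = (gW ev L1).map (MulAut.conj h).toMonoidHom := by
  obtain ⟨g, hg, hs⟩ := syl_conj (p := 2) (a := 7) (b := 6) (by norm_num) (wle (ws := t2) (by decide)) h.1 s2
    (by rw [cH]; norm_num) (by rw [h.2]; norm_num)
  obtain ⟨h1, h2⟩ := conj_le hg h.1
  rw [h.2] at h2
  have c1 := card_dvd_of_le (inf_le_left : gW ev t2 ⊓ Y.map (MulAut.conj g).toMonoidHom ≤ _)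
  have c2 := card_dvd_of_le (inf_le_right : gW ev t2 ⊓ Y.map (MulAut.conj g).toMonoidHom ≤ _)
  rw [s2] at c1
  rw [h2] at c2
  have c3 := Nat.le_of_dvd (by decide) (Nat.dvd_gcd c1 c2)
  have c4 := ((gW ev t2 ⊓ Y.map (MulAut.conj g).toMonoidHom).subgroupOf (gW ev t2)).card_mul_index
  rw [Nat.card_congr (subgroupOfEquivOfLe inf_le_left).toEquiv, s2,
    le_antisymm c3 hs] at c4
  obtain ⟨f, ⟨x, hx, fx⟩, hv⟩ := par (M := gW ev t2 ⊓ Y.map (MulAut.conj g).toMonoidHom) (ts := t2)
    (Nat.eq_of_mul_eq_mul_left (by decide) c4)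
  have fin : ∀ vs : List (List ℕ), (∀ w ∈ vs, w.countP f % 2 = 0) → ∀ (q : r.Pt) (os : List Ob) (cs : List Cd),
      okOb T (vs.map (subst t2)) 3 os = true → (bitN Sg q.1 && Nat.beq (orA os) Sg) = true →
      clsOk T Adj 9 q.1 20160 os (cs.map Cd.U) = true → cs.all (cdOk T 5 162 [LC, L1]) = true →
      ∃ h ∈ H, Y = (gW ev LC).map (MulAut.conj h).toMonoidHom ∨ Y = (gW ev L1).map (MulAut.conj h).toMonoidHom := by
    intro vs a1 q os cs a2 a3 a4 a5
    obtain ⟨x, hx, l, hl, e⟩ := cls2 r hH (by decide) (by decide) h1 (idx := 162) cH h2 (Ls := [LC, L1])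
      (fun l hl => by
        change l < 2 at hl
        interval_cases l
        exacts [⟨wle (by decide), gC'⟩, ⟨wle (by decide), g1⟩]) a5
      (cls1 r (h1.trans hP) (fun w hw => (hv vs a1 w hw).2) q a2 (R3.sub_of r h1 oC _ a3) (h2.symm ▸ a4))
    obtain ⟨y, hy, e⟩ := unconj hg hx e
    change l < 2 at hl
    interval_cases l
    exacts [⟨y, hy, Or.inl e⟩, ⟨y, hy, Or.inr e⟩]
  cases f0 : f 0 <;> cases f1 : f 1 <;> cases f2 : f 2
  · change x < 3 at hx
    interval_cases x <;> simp_all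
  · exact fin [[0], [2, 0, 2], [1], [2, 1, 2]] (by simp [f0, f1, f2]) (r.pt 1) os4 cd4 (by decide +kernel) (by decide +kernel) k4 l4
  · exact fin [[0], [1, 0, 1], [2], [1, 2, 1]] (by simp [f0, f1, f2]) (r.pt 1) os2 cd2 (by decide +kernel) (by decide +kernel) k2 l2
  · exact fin [[0], [1, 0, 1], [2, 1], [1, 2]] (by simp [f0, f1, f2]) (r.pt 1) os6 cd6 (by decide +kernel) (by decide +kernel) k6 l6
  · exact fin [[1], [0, 1, 0], [2], [0, 2, 0]] (by simp [f0, f1, f2]) (r.pt 1) os1 cd1 (by decide +kernel) (by decide +kernel) k1 l1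
  · exact fin [[1], [0, 1, 0], [2, 0], [0, 2]] (by simp [f0, f1, f2]) (r.pt 1) os5 cd5 (by decide +kernel) (by decide +kernel) k5 l5
  · exact fin [[1, 0], [0, 1], [2], [0, 2, 0]] (by simp [f0, f1, f2]) (r.pt 1) os3 cd3 (by decide +kernel) (by decide +kernel) k3 l3
  · exact fin [[1, 0], [0, 1], [2, 0], [0, 2]] (by simp [f0, f1, f2]) (r.pt 1) os7 cd7 (by decide +kernel) (by decide +kernel) k7 l7

theorem iota1 : ∃ ι : U43B.G →* A, Function.Injective ι ∧ ι.range = H ∧ ∀ x < 5, ι (U43B.el x) = byW ev s1 x := by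
  obtain ⟨ι, h⟩ := U43B.hhom (byW ev s1) (winv r hf (by decide +kernel)) (wones r hf (by decide +kernel))
  have := U43G.simple
  have hi := inj_of_simple ι (g := U43B.el 0) (by
    rw [h 0 (by decide)]; exact r.ne_one [0] (r.pt mv0) (by decide +kernel))
  refine ⟨ι, hi, eq_of_le_of_card_ge ((range_hom h U43B.htop).le.trans (wle (ws := s1) (by decide))) ?_, h⟩
  rw [cH, ← U43G.card]; exact (Nat.card_congr (MonoidHom.ofInjective hi).toEquiv).le

theorem map4 {ι : U43B.G →* A} {σ τ : List (List ℕ)} (h : ∀ x < 5, ι (U43B.el x) = byW ev σ x) (h4 : τ.length = 4)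
    (e : ∀ x < 4, σ.getD x [] = τ.getD x []) : (gensub U43B.el 4).map ι = gW ev τ := by
  rw [gW, h4, gensub, MonoidHom.map_closure, gensub, Set.image_image]
  congr 1
  exact Set.image_congr fun x hx => by rw [h x (Nat.lt_succ_of_lt hx), byW, byW, e x hx]

theorem main {Ω : Type*} [Finite Ω] (G : Subgroup (Equiv.Perm Ω)) [IsPretransitive G Ω] {a b c : Ω}
    (hΩ : Nat.card Ω = 275) (e : stabilizer G a ≃* U43B.G) (hb : (orbit (stabilizer G a) b).ncard = 112)
    (hc : (orbit (stabilizer G a) c).ncard = 162) : Nonempty (G ≃* McB.G) := by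
  obtain ⟨ι, i1, i2, i3⟩ := iota
  obtain ⟨κ, k1, k2, k3⟩ := iota1
  have j1 : Function.Injective (ι.comp e.toMonoidHom) := i1.comp e.injective
  have j2 : (ι.comp e.toMonoidHom).range = H := by
    rw [MonoidHom.range_comp, MonoidHom.range_eq_top.2 e.surjective, ← MonoidHom.range_eq_map, i2]
  obtain ⟨j, j1, j2, j3⟩ : ∃ j : stabilizer G a →* A, Function.Injective j ∧ j.range = H ∧
      ∃ h ∈ H, (stabilizer _ c).map j = (gW ev LC).map (MulAut.conj h).toMonoidHom := by
    obtain ⟨h, hh, e1 | e1⟩ := clsC (card_stab j1 j2 hc cH (by decide))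
    · exact ⟨_, j1, j2, h, hh, e1⟩
    · rw [← map4 i3 rfl (by decide)] at e1
      rw [← map4 k3 rfl (by decide)]
      exact twist k1 i1 k2 i2 _ j1 j2 hh e1
  obtain ⟨K, ⟨f⟩, S⟩ := transport' act G hb hc (by decide) (by decide) (by decide) hΩ _ j2 h0 cov
    (tr_of r j1 j2 eB (clsB (card_stab j1 j2 hb cH (by decide)))) (tr_of r j1 j2 eC j3)
  obtain ⟨U, hU, hM⟩ := nbB S
  rcases List.mem_cons.1 hU with rfl | hU
  · exact (core S hM).map f.trans
  rcases List.mem_cons.1 hU with rfl | hU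
  · obtain ⟨_, h, -⟩ := nbC S hM [] (by decide +kernel)
    cases h
  · rw [List.mem_singleton.1 hU] at hM
    obtain ⟨S', h⟩ := S.conj (r.mem_stab [7] p0 (by decide +kernel)) (r.mem_stab [7] b0 (by decide +kernel))
      (norm_word r hf He [7] us7 (by decide +kernel))
    refine (core S' (Set.eq_of_subset_of_ncard_le ?_ ?_).symm).map
      (f.trans ((MulAut.conj (evw ev [7])).subgroupMap K)).trans
    · rw [mv_sound r (w := [7]) (V := M2) (by decide +kernel)]
      rintro _ ⟨q, hq, rfl⟩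
      exact h q (hM.ge hq)
    · rw [S'.ncard, nB]
      exact (ncard_of r (d := 9) (by decide +kernel)).ge
end CfH6.R3M
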