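import Cfsg.Agent.OD.Pre
import Cfsg.Agent.H6.S4B
import Cfsg.Agent.H6.S4A.P0
set_option autoImplicit false
set_option maxRecDepth 100000
set_option Elab.async false
set_option linter.all false
namespace CfH6.S4A
open CfH6 MulAction
theorem eq0 : ∀ e ∈ eqs0, evw (lp nets0) e.1 = evw (lp nets0) e.2 :=
  EqsOk.sound (e0_0) ok0 (by decide)
theorem eqAll : ∀ e ∈ eqs, evw (lp nets0) e.1 = evw (lp nets0) e.2 := eq0
theorem hsd : (∀ x < 6, lp nets0 (S4B.il.getD x 0) = (lp nets0 x)⁻¹) ∧ ∀ r ∈ eqRels S4B.il sig eqs, evw (lp nets0) r = 1 :=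
  eqRels_sound (lp nets0) (k := 6) (by decide +kernel) eqAll
theorem exRho : ∃ ρ : S4B.G →* Equiv.Perm ℕ, ∀ x < 6, ρ (S4B.el x) = lp nets0 x :=
  S4B.hhom _ hsd.1 (follows_sound (n := 4) _ hsd.1 hsd.2 (by decide +kernel))
noncomputable def rho : S4B.G →* Equiv.Perm ℕ := Classical.choose exRho
@[reducible] noncomputable def act : MulAction S4B.G ℕ := MulAction.compHom ℕ rho
attribute [local instance] act
theorem L0 : Lvl 96 nets0 6 S4B.el := lvl0 rho ok0 (Classical.choose_spec exRho)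
noncomputable abbrev el1 : ℕ → S4B.G := byW S4B.el ws1
theorem L1 : Lvl 96 nets1 6 el1 := L0.next sx1 (x1_0)
noncomputable abbrev el2 : ℕ → S4B.G := byW el1 ws2
theorem L2 : Lvl 20 nets2 3 el2 := L1.next sx2 (x2_0)
noncomputable abbrev el3 : ℕ → S4B.G := byW el2 ws3
theorem L3 : Lvl 16 nets3 2 el3 := L2.next sx3 (x3_0)
noncomputable abbrev H : Subgroup S4B.G := gensub el1 6
theorem fix0 : H ≤ stabilizer S4B.G 0 := L1.fix' 0 (by decide +kernel)
theorem cU : (bitSet U).ncard = 85 := ncard_ivls lU _ (by decide +kernel)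
theorem oi1 : OrbIn (gensub el1 6) 20 96 S1 :=
  (L1.orbStep (OrbIn.one _ (by decide)) 12 S1 oi1_0)
theorem o1 : orbit H 20 = bitSet S1 := L1.orbEq oi1 ci1
theorem c1 : (bitSet S1).ncard = 20 := ncard_ivls l1 _ (by decide +kernel)
theorem oi2 : OrbIn (gensub el1 6) 14 96 S2 :=
  (L1.orbStep (OrbIn.one _ (by decide)) 12 S2 oi2_0)
theorem o2 : orbit H 14 = bitSet S2 := L1.orbEq oi2 ci2
theorem c2 : (bitSet S2).ncard = 64 := ncard_ivls l2 _ (by decide +kernel)
theorem hJ : ∀ j ∈ J, orbit H j.2.1 = bitSet j.2.2 := (forall_cons o1 (forall_cons o2 forall_nil))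
theorem subU : bitSet U ⊆ orbit (⊤ : Subgroup S4B.G) 0 := L0.sub_top J hJ U (by decide +kernel)
theorem q1 (hH : H = stabilizer S4B.G 0) : (orbit H ((evw S4B.el w1 : S4B.G) : S4B.G ⧸ H)).ncard = 20 :=
  L0.quot hH w1 o1 c1 (by decide +kernel)
theorem q2 (hH : H = stabilizer S4B.G 0) : (orbit H ((evw S4B.el w2 : S4B.G) : S4B.G ⧸ H)).ncard = 64 :=
  L0.quot hH w2 o2 c2 (by decide +kernel)
theorem orbTop : OrbGe (⊤ : Subgroup S4B.G) 0 85 := orbGe_of_sub subU cU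
theorem stab (hc : Covers H ⊤ 85) : H = stabilizer S4B.G 0 ∧ H.index = 85 := stab_eq hc fix0 orbTop
theorem mx2 (hH : H = stabilizer S4B.G 0) (hN : H.index = 85) : Mx H S2 :=
  L0.mx hH hN w2 o2 J2 (forall_cons o2 forall_nil) lBig cm2
theorem mx1 (hH : H = stabilizer S4B.G 0) (hN : H.index = 85) : Mx H S1 :=
  L0.mx hH hN w1 o1 J1 (forall_cons o2 forall_nil) lBig cm1
theorem hmax (hH : H = stabilizer S4B.G 0) (hN : H.index = 85) : ∀ L : Subgroup S4B.G, H ≤ L → L = H ∨ L = ⊤ :=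
  coatom_of hH (Mx.lorJ J (forall_cons (mx1 hH hN) (forall_cons (mx2 hH hN) forall_nil))) (orbit_sub_of_card hH hN (by decide) subU cU) (by decide +kernel)
theorem low3 : Low (gensub el3 2) [2] 12 :=
  (Low.cons bot_le bot_le (L3.orbGe 2 6 4 12 (by decide) (by decide) og3) (Low.nil ⊥)).cast (by decide)
theorem low2 : Low (gensub el2 3) [1, 2] 180 :=
  (Low.step' L3 (L2.orbGe 1 6 5 15 (by decide) (by decide) og2) (by decide +kernel) low3).cast (by decide)
theorem low1 : Low (gensub el1 6) [14, 1, 2] 11520 :=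
  (Low.step' L2 (orbGe_of_eq o2 c2) (by decide +kernel) low2).cast (by decide)
theorem low0 : Low (gensub S4B.el 6) [0, 14, 1, 2] 979200 :=
  (Low.step' L1 (S4B.htop ▸ orbTop) (by decide +kernel) low1).cast (by decide)
def bs : List ℕ := [0, 14, 1, 2]
theorem hbs : ∀ b ∈ bs, b ∈ orbit S4B.G 0 := base_mem subU bs (by decide +kernel)
theorem top (hf : Finite S4B.G ∧ Nat.card S4B.G ≤ 979200) : Nat.card S4B.G = 979200 ∧ ∀ g : S4B.G, (∀ b ∈ bs, g • b = b) → g = 1 := low0.top hf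
theorem hex (hb : ∀ g : S4B.G, (∀ b ∈ bs, g • b = b) → g = 1) : ∀ w ∈ ex, evw S4B.el (wpow w (17 ^ 1)) = 1 := (forall_cons (L0.word_one hb _ pw0) forall_nil)
end CfH6.S4A
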