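import Cfsg.Agent.OD.Pre
import Cfsg.Agent.H6.TCTop
/-! coset enumeration certificate; generators a b c ; index 15 -/
set_option autoImplicit false
set_option maxRecDepth 100000
set_option Elab.async false
set_option linter.all false
namespace CfH6.S4T3
open CfH6
noncomputable def tab0 : Tr := (Tr.l (nat_lit 0x2cceb53644a8f214cc6b1944b69153494b1e2c34d1194147088c0))
noncomputable def tab1 : Tr := (Tr.l (nat_lit 0x254e9135b496b1dac64f31a454d2d34a4b219c26505244470c8c0))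
noncomputable def tab2 : Tr := (Tr.l (nat_lit 0x134b4d2accc2f38bcd6f1e3483125244470cac62915a424300941))
noncomputable def tab3 : Tr := (Tr.l (nat_lit 0))
noncomputable def tab4 : Tr := (Tr.l (nat_lit 0x221110102211020))
noncomputable def tab5 : Tr := (Tr.l (nat_lit 0))
noncomputable def tab6 : Tr := (Tr.l (nat_lit 0))
noncomputable def tab7 : Tr := (Tr.l (nat_lit 0))
noncomputable def tab8 : Tr := (Tr.l (nat_lit 0))
noncomputable def ty0 : TT := (TT.n (TT.n (TT.n (TT.l (Ty.ssub [] []))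
 (TT.l (Ty.rel5 (nat_lit 2) (nat_lit 0) (nat_lit 2) (nat_lit 0) (nat_lit 2))))
 (TT.l (Ty.dfn)))
 (TT.n (TT.l (Ty.rel1 (nat_lit 0)))
 (TT.l (Ty.rel3 (nat_lit 1) (nat_lit 0) (nat_lit 1)))))
noncomputable def ty1 : TT := (TT.n (TT.n (TT.l (Ty.ssub [] []))
 (TT.l (Ty.dfn)))
 (TT.n (TT.l (Ty.rel1 (nat_lit 1)))
 (TT.l (Ty.relL (nat_lit 2) [nat_lit 1, nat_lit 2, nat_lit 1, nat_lit 2, nat_lit 1, nat_lit 2, nat_lit 1, nat_lit 2]))))
noncomputable def ty2 : TT := (TT.n (TT.n (TT.n (TT.l (Ty.rel1 (nat_lit 2)))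
 (TT.l (Ty.relL (nat_lit 0) [nat_lit 1, nat_lit 2, nat_lit 0, nat_lit 1, nat_lit 2, nat_lit 1, nat_lit 0, nat_lit 2, nat_lit 1, nat_lit 0, nat_lit 2, nat_lit 0, nat_lit 1])))
 (TT.l (Ty.rel5 (nat_lit 0) (nat_lit 2) (nat_lit 0) (nat_lit 2) (nat_lit 0))))
 (TT.n (TT.l (Ty.dfn))
 (TT.l (Ty.relL (nat_lit 1) [nat_lit 2, nat_lit 1, nat_lit 2, nat_lit 1, nat_lit 2, nat_lit 1, nat_lit 2, nat_lit 1]))))
noncomputable def ty3 : TT := (TT.l (Ty.skip))
noncomputable def C : Cert where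
  tabs := [tab0, tab1, tab2, tab3, tab4, tab5, tab6, tab7, tab8]
  tts := [ty0, ty1, ty2, ty3]
  k := nat_lit 6
  base := nat_lit 5
  mJ := nat_lit 64
  mR := nat_lit 63
  W := nat_lit 14
  mA := nat_lit 2047
  mI := nat_lit 127
  S := nat_lit 11
  mC := nat_lit 7
  nc := nat_lit 3
  lo := nat_lit 64
  live := nat_lit 79
  hi1 := nat_lit 78
  AW := nat_lit 13
  mAW := nat_lit 8191
def il : List ℕ := [0, 1, 2]
def rels : List (List ℕ) := [[0, 1, 0, 1],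
  [0, 1, 2, 0, 1, 2, 0, 1, 2, 1, 0, 2, 1, 0, 2],
  [1, 2, 1, 2, 1, 2, 1, 2, 1, 2],
  [0, 2, 0, 2, 0, 2]]
def subs : List (List ℕ) := [[0],
  [1]]
theorem valid : C.valid il rels subs = true := by decide +kernel
theorem p0 : C.OkL 64 79 := C.okL_of 64 0 15 79 (by decide) (by decide +kernel)
theorem covers {G : Type*} [Group G] (ev : ℕ → G) (H : Subgroup G)
    (hinv : ∀ x < 3, ev (il.getD x 0) = (ev x)⁻¹) (hr : ∀ r ∈ rels, evw ev r = 1)
    (hs : ∀ s ∈ subs, evw ev s ∈ H) : Covers H (gensub ev 3) 15 :=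
  C.sound il rels subs 3 15 valid (p0) (Cert.OkR.nil C _) (by decide) (by decide) ev H hinv hr hs
end CfH6.S4T3
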