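import Cfsg.Agent.OD.Pre
import Cfsg.Agent.H6.TCTop
/-! coset enumeration certificate; generators a b ; index 4 -/
set_option autoImplicit false
set_option maxRecDepth 100000
set_option Elab.async false
set_option linter.all false
namespace CfH6.S4T4
open CfH6
noncomputable def tab0 : Tr := (Tr.l (nat_lit 0xe426c38c0541))
noncomputable def tab1 : Tr := (Tr.l (nat_lit 0x9418c05c3542))
noncomputable def tab2 : Tr := (Tr.l (nat_lit 0))
noncomputable def tab3 : Tr := (Tr.l (nat_lit 0x1100))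
noncomputable def tab4 : Tr := (Tr.l (nat_lit 0))
noncomputable def tab5 : Tr := (Tr.l (nat_lit 0))
noncomputable def tab6 : Tr := (Tr.l (nat_lit 0))
noncomputable def ty0 : TT := (TT.n (TT.n (TT.l (Ty.rel1 (nat_lit 0)))
 (TT.l (Ty.rel3 (nat_lit 1) (nat_lit 0) (nat_lit 1))))
 (TT.l (Ty.dfn)))
noncomputable def ty1 : TT := (TT.n (TT.l (Ty.rel1 (nat_lit 1)))
 (TT.l (Ty.dfn)))
noncomputable def ty2 : TT := (TT.l (Ty.skip))
noncomputable def C : Cert where
  tabs := [tab0, tab1, tab2, tab3, tab4, tab5, tab6]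
  tts := [ty0, ty1, ty2]
  k := nat_lit 6
  base := nat_lit 3
  mJ := nat_lit 64
  mR := nat_lit 63
  W := nat_lit 12
  mA := nat_lit 1023
  mI := nat_lit 127
  S := nat_lit 10
  mC := nat_lit 3
  nc := nat_lit 2
  lo := nat_lit 64
  live := nat_lit 68
  hi1 := nat_lit 67
  AW := nat_lit 13
  mAW := nat_lit 8191
def il : List ℕ := [0, 1]
def rels : List (List ℕ) := [[0, 1, 0, 1]]
def subs : List (List ℕ) := []
theorem valid : C.valid il rels subs = true := by decide +kernel
theorem p0 : C.OkL 64 68 := C.okL_of 64 0 4 68 (by decide) (by decide +kernel)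
theorem covers {G : Type*} [Group G] (ev : ℕ → G) (H : Subgroup G)
    (hinv : ∀ x < 2, ev (il.getD x 0) = (ev x)⁻¹) (hr : ∀ r ∈ rels, evw ev r = 1)
    (hs : ∀ s ∈ subs, evw ev s ∈ H) : Covers H (gensub ev 2) 4 :=
  C.sound il rels subs 2 4 valid (p0) (Cert.OkR.nil C _) (by decide) (by decide) ev H hinv hr hs
end CfH6.S4T4
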