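import Cfsg.Agent.OD.Pre
import Cfsg.Agent.H6.S4B
import Cfsg.Agent.H6.S4T1
import Cfsg.Agent.H6.S4T2
import Cfsg.Agent.H6.S4T3
import Cfsg.Agent.H6.S4T4
set_option autoImplicit false
set_option maxRecDepth 100000
set_option linter.all false
namespace CfH6.S4O
open CfH6
def s0 : List (List ℕ) := [[0], [1], [2], [3], [4], [5]]
def t0 : List (List ℕ) := [[0], [1], [2], [3], [4]]
theorem cov0 : Covers (gensub (byW S4B.el t0) 5) (gensub (byW S4B.el s0) 6) 255 :=
  cov_step S4B.el S4B.hinv S4B.hrel s0 t0 5 4 (fun ev H => S4T1.covers ev H) (by decide +kernel)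
theorem top0 : gensub (byW S4B.el s0) 6 = ⊤ := (gensub_id S4B.el (by decide)).trans S4B.htop
theorem covT0 : Covers (gensub (byW S4B.el t0) 5) ⊤ 255 := cov0.top top0
def s1 : List (List ℕ) := [[0], [1], [2], [3], [4]]
def t1 : List (List ℕ) := [[0], [1], [2]]
theorem cov1 : Covers (gensub (byW S4B.el t1) 3) (gensub (byW S4B.el s1) 5) 64 :=
  cov_step S4B.el S4B.hinv S4B.hrel s1 t1 3 4 (fun ev H => S4T2.covers ev H) (by decide +kernel)
def s2 : List (List ℕ) := [[0], [1], [2]]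
def t2 : List (List ℕ) := [[0], [1]]
theorem cov2 : Covers (gensub (byW S4B.el t2) 2) (gensub (byW S4B.el s2) 3) 15 :=
  cov_step S4B.el S4B.hinv S4B.hrel s2 t2 2 4 (fun ev H => S4T3.covers ev H) (by decide +kernel)
def s3 : List (List ℕ) := [[0], [1]]
def t3 : List (List ℕ) := []
theorem cov3 : Covers (gensub (byW S4B.el t3) 0) (gensub (byW S4B.el s3) 2) 4 :=
  cov_step S4B.el S4B.hinv S4B.hrel s3 t3 0 4 (fun ev H => S4T4.covers ev H) (by decide +kernel)
theorem finT3 : Finite (gensub (byW S4B.el t3) 0) ∧ Nat.card (gensub (byW S4B.el t3) 0) ≤ 1 := (gensub_zero _)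
theorem fin3 : Finite (gensub (byW S4B.el s3) 2) ∧ Nat.card (gensub (byW S4B.el s3) 2) ≤ 4 :=
  fin_cast (cov3.card_le finT3) (by decide)
theorem finT2 : Finite (gensub (byW S4B.el t2) 2) ∧ Nat.card (gensub (byW S4B.el t2) 2) ≤ 4 := (fin_le (gensub_le_of_subsIn S4B.el (by decide)) fin3)
theorem fin2 : Finite (gensub (byW S4B.el s2) 3) ∧ Nat.card (gensub (byW S4B.el s2) 3) ≤ 60 :=
  fin_cast (cov2.card_le finT2) (by decide)
theorem finT1 : Finite (gensub (byW S4B.el t1) 3) ∧ Nat.card (gensub (byW S4B.el t1) 3) ≤ 60 := (fin_le (gensub_le_of_subsIn S4B.el (by decide)) fin2)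
theorem fin1 : Finite (gensub (byW S4B.el s1) 5) ∧ Nat.card (gensub (byW S4B.el s1) 5) ≤ 3840 :=
  fin_cast (cov1.card_le finT1) (by decide)
theorem finT0 : Finite (gensub (byW S4B.el t0) 5) ∧ Nat.card (gensub (byW S4B.el t0) 5) ≤ 3840 := (fin_le (gensub_le_of_subsIn S4B.el (by decide)) fin1)
theorem fin0 : Finite (gensub (byW S4B.el s0) 6) ∧ Nat.card (gensub (byW S4B.el s0) 6) ≤ 979200 :=
  fin_cast (cov0.card_le finT0) (by decide)
theorem finG : Finite S4B.G ∧ Nat.card S4B.G ≤ 979200 := fin_top (top0 ▸ fin0)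
end CfH6.S4O
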