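import Cfsg.Agent.OD.Pre
import Cfsg.Agent.H6.S4B
import Cfsg.Agent.H6.S4T5
set_option autoImplicit false
set_option maxRecDepth 100000
set_option linter.all false
namespace CfH6.S4O2
open CfH6
def s0 : List (List ℕ) := [[0], [1], [2], [3], [4], [5]]
def t0 : List (List ℕ) := [[0], [1], [2], [3], [4], [5, 2, 1, 0, 3, 2, 1, 2, 5]]
theorem cov0 : Covers (gensub (byW S4B.el t0) 6) (gensub (byW S4B.el s0) 6) 85 :=
  cov_step S4B.el S4B.hinv S4B.hrel s0 t0 6 4 (fun ev H => S4T5.covers ev H) (by decide +kernel)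
theorem top0 : gensub (byW S4B.el s0) 6 = ⊤ := (gensub_id S4B.el (by decide)).trans S4B.htop
theorem covT0 : Covers (gensub (byW S4B.el t0) 6) ⊤ 85 := cov0.top top0
end CfH6.S4O2
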