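import Cfsg.Agent.OD.Pre
import Cfsg.Agent.H6.S4A
import Cfsg.Agent.H6.S4K
import Cfsg.Agent.H6.S4O
import Cfsg.Agent.H6.S4O2
/-! An abstract presentation: order and simplicity. -/
set_option autoImplicit false
set_option maxRecDepth 100000
namespace CfH6.S4G
open CfH6 MulAction
attribute [local instance] S4A.act

theorem stab : S4A.H = stabilizer S4B.G 0 ∧ S4A.H.index = 85 := S4A.stab S4O2.covT0

theorem card : Nat.card S4B.G = 979200 := (S4A.top S4O.finG).1

theorem base : ∀ g : S4B.G, (∀ b ∈ S4A.bs, g • b = b) → g = 1 := (S4A.top S4O.finG).2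

theorem simple : IsSimpleGroup S4B.G := by
  have := S4O.finG.1
  refine simple_of stab.1 (by rw [stab.2]; decide) (S4A.hmax stab.1 stab.2) base S4A.hbs fun M hM h => ?_
  exact top_of_index (eq_top_of_collapse S4B.el (n := 4) S4B.hinv S4B.hrel S4B.htop M
    (pow_words S4B.el h (by norm_num) (not_dvd_card card stab.2 (by decide)) 1 S4A.ex (S4A.hex base))
    (by decide +kernel) 1 fun ev' h1 h2 => S4K.covers ev' ⊥ h1 h2 forall_nil)

theorem nprime : ¬ (Nat.card S4B.G).Prime := by rw [card]; norm_num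

end CfH6.S4G
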