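import Cfsg.Agent.OD.Pre
import Cfsg.Agent.H6.S4G
import Cfsg.Agent.H6.HeG
import Cfsg.Agent.H6.Iso3
import Cfsg.Agent.H6.Ord
/-! `Sp₄(4)` inside the Held group. -/
set_option autoImplicit false
set_option maxRecDepth 100000
namespace CfH6.S4M
open CfH6 Matrix CfH3
attribute [local instance] HeA.act

abbrev PM : MP := ⟨4, 7, 2, 1, 4, 1, 1, 1, 1⟩
def ms : List ℕ := [40564819208483933031596227035137, 2923003274661805876972188873916498507958138699777, 40567295088562503229196071862273, 40881731858540989819020449415297, 40564819208483932468646273630209, 40564819359599659920475188887553]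
def σ : List (List ℕ) := [[0], [6, 4, 2, 1, 2, 4, 6, 5, 4, 2, 1, 2, 4, 6, 0, 6, 6, 4, 2, 1, 2, 4, 5, 6, 6, 4, 2, 1, 2, 4, 6, 6], [6, 0, 6, 6], [6, 4, 3, 0, 6, 6], [2, 4, 6, 6, 3, 2, 4, 6, 0, 6, 6, 4, 2, 3, 6, 4, 2], [2, 4, 3, 0, 2]]
def ω : F4 := ⟨0, 1⟩
def e : Fin 2 ⊕ Fin 2 ≃ Fin 4 := finSumFinEquiv
noncomputable abbrev sem : ℕ → Matrix (Fin 2 ⊕ Fin 2) (Fin 2 ⊕ Fin 2) F4 := PM.toM2 F4 e ω

theorem D : Mdl PM.mm2 (fun _ => true) PM.one sem :=
  MP.mdl2 (P := PM) F4 e (by decide) (by decide) (by decide +kernel)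
theorem U : UOk PM.mm2 (fun _ => true) PM.one sem ms S4B.il 6 := D.uok (by decide +kernel)

theorem hJ : ∀ x < 6, sem (lget ms 0 x) * J (Fin 2) F4 * (sem (lget ms 0 x))ᵀ = J (Fin 2) F4 := by decide +kernel

theorem iso : ∃ φ : S4B.G →* Matrix.symplecticGroup (Fin 2) F4, Function.Bijective φ := by
  have := S4O.finG.1
  have := S4G.simple
  obtain ⟨φ, hφ⟩ := S4B.hhom _ U.inv (U.rels (by decide +kernel))
  have h1 : ∀ g, (Units.coeHom _).comp φ g ∈ Matrix.symplecticGroup (Fin 2) F4 :=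
    mem_of_gens S4B.htop _ _ fun x hx => by
      rw [MonoidHom.comp_apply, hφ x hx, Units.coeHom_apply, U.val x hx]
      exact SymplecticGroup.mem_iff.mpr (hJ x hx)
  have h2 : Function.Injective φ := inj_of_simple φ (g := S4B.el 0) fun hc => by
    have := U.val 0 (by decide)
    rw [← hφ 0 (by decide), hc] at this
    exact absurd this (by decide +kernel)
  refine ⟨((Units.coeHom _).comp φ).codRestrict _ h1,
    bij_of_inj _ (fun a b h => h2 (Units.ext (congrArg Subtype.val h))) ⟨inferInstance, ?_⟩⟩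
  rw [S4G.card, card_Sp44 rfl]

theorem main : ∃ N : Subgroup HeA.H, N.Normal ∧ N.index = 2 ∧ Nonempty (N ≃* Matrix.symplecticGroup (Fin 2) F4) := by
  have := S4G.simple
  obtain ⟨φ, hφ⟩ := iso
  obtain ⟨ρ, hρ⟩ := S4B.hhom (byW HeA.el1 σ) (HeA.L1.invs_one HeG.base σ (by decide +kernel))
    (HeA.L1.rels_one HeG.base σ _ (by decide +kernel))
  refine iso_index_two ρ (inj_of_simple ρ (g := S4B.el 0) fun hc => ?_)
    ((range_hom hρ S4B.htop).le.trans (gensub_byW_le (by decide +kernel))) S4G.card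
    (card_of_index HeG.card HeG.stab.2 (by decide)) (by decide) φ hφ
  rw [hρ 0 (by decide)] at hc
  exact HeA.L1.ne_one (σ.getD 0 []) 3 (by decide +kernel) hc

end CfH6.S4M
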