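import Cfsg.Agent.OD.Pre
import Cfsg.Agent.H6.SuzB
import Cfsg.Agent.H6.SuzT1
import Cfsg.Agent.H6.SuzT2
import Cfsg.Agent.H6.SuzT3
import Cfsg.Agent.H6.SuzT4
import Cfsg.Agent.H6.SuzT5
set_option autoImplicit false
set_option maxRecDepth 100000
set_option linter.all false
namespace CfH6.SuzO
open CfH6
def s0 : List (List ℕ) := [[0], [1], [2], [3], [4], [5], [6]]
def t0 : List (List ℕ) := [[0], [1], [2], [3], [4], [5]]
theorem cov0 : Covers (gensub (byW SuzB.el t0) 6) (gensub (byW SuzB.el s0) 7) 1782 :=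
  cov_step SuzB.el SuzB.hinv SuzB.hrel s0 t0 6 4 (fun ev H => SuzT1.covers ev H) (by decide +kernel)
theorem top0 : gensub (byW SuzB.el s0) 7 = ⊤ := (gensub_id SuzB.el (by decide)).trans SuzB.htop
theorem covT0 : Covers (gensub (byW SuzB.el t0) 6) ⊤ 1782 := cov0.top top0
def s1 : List (List ℕ) := [[0], [1], [2], [3], [4], [5]]
def t1 : List (List ℕ) := [[0], [1], [2], [3], [4]]
theorem cov1 : Covers (gensub (byW SuzB.el t1) 5) (gensub (byW SuzB.el s1) 6) 416 :=
  cov_step SuzB.el SuzB.hinv SuzB.hrel s1 t1 5 4 (fun ev H => SuzT2.covers ev H) (by decide +kernel)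
def s2 : List (List ℕ) := [[0], [1], [2], [3], [4]]
def t2 : List (List ℕ) := [[0], [1], [2], [3]]
theorem cov2 : Covers (gensub (byW SuzB.el t2) 4) (gensub (byW SuzB.el s2) 5) 280 :=
  cov_step SuzB.el SuzB.hinv SuzB.hrel s2 t2 4 4 (fun ev H => SuzT3.covers ev H) (by decide +kernel)
def s3 : List (List ℕ) := [[0], [1], [2], [3]]
def t3 : List (List ℕ) := [[2], [3]]
theorem cov3 : Covers (gensub (byW SuzB.el t3) 2) (gensub (byW SuzB.el s3) 4) 135 :=
  cov_step SuzB.el SuzB.hinv SuzB.hrel s3 t3 2 4 (fun ev H => SuzT4.covers ev H) (by decide +kernel)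
def s4 : List (List ℕ) := [[2], [3]]
def t4 : List (List ℕ) := []
theorem cov4 : Covers (gensub (byW SuzB.el t4) 0) (gensub (byW SuzB.el s4) 2) 16 :=
  cov_step SuzB.el SuzB.hinv SuzB.hrel s4 t4 0 4 (fun ev H => SuzT5.covers ev H) (by decide +kernel)
theorem finT4 : Finite (gensub (byW SuzB.el t4) 0) ∧ Nat.card (gensub (byW SuzB.el t4) 0) ≤ 1 := (gensub_zero _)
theorem fin4 : Finite (gensub (byW SuzB.el s4) 2) ∧ Nat.card (gensub (byW SuzB.el s4) 2) ≤ 16 :=
  fin_cast (cov4.card_le finT4) (by decide)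
theorem finT3 : Finite (gensub (byW SuzB.el t3) 2) ∧ Nat.card (gensub (byW SuzB.el t3) 2) ≤ 16 := (fin_le (gensub_le_of_subsIn SuzB.el (by decide)) fin4)
theorem fin3 : Finite (gensub (byW SuzB.el s3) 4) ∧ Nat.card (gensub (byW SuzB.el s3) 4) ≤ 2160 :=
  fin_cast (cov3.card_le finT3) (by decide)
theorem finT2 : Finite (gensub (byW SuzB.el t2) 4) ∧ Nat.card (gensub (byW SuzB.el t2) 4) ≤ 2160 := (fin_le (gensub_le_of_subsIn SuzB.el (by decide)) fin3)
theorem fin2 : Finite (gensub (byW SuzB.el s2) 5) ∧ Nat.card (gensub (byW SuzB.el s2) 5) ≤ 604800 :=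
  fin_cast (cov2.card_le finT2) (by decide)
theorem finT1 : Finite (gensub (byW SuzB.el t1) 5) ∧ Nat.card (gensub (byW SuzB.el t1) 5) ≤ 604800 := (fin_le (gensub_le_of_subsIn SuzB.el (by decide)) fin2)
theorem fin1 : Finite (gensub (byW SuzB.el s1) 6) ∧ Nat.card (gensub (byW SuzB.el s1) 6) ≤ 251596800 :=
  fin_cast (cov1.card_le finT1) (by decide)
theorem finT0 : Finite (gensub (byW SuzB.el t0) 6) ∧ Nat.card (gensub (byW SuzB.el t0) 6) ≤ 251596800 := (fin_le (gensub_le_of_subsIn SuzB.el (by decide)) fin1)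
theorem fin0 : Finite (gensub (byW SuzB.el s0) 7) ∧ Nat.card (gensub (byW SuzB.el s0) 7) ≤ 448345497600 :=
  fin_cast (cov0.card_le finT0) (by decide)
theorem finG : Finite SuzB.G ∧ Nat.card SuzB.G ≤ 448345497600 := fin_top (top0 ▸ fin0)
end CfH6.SuzO
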