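import Cfsg.Agent.OD.Pre
import Cfsg.Agent.H6.SuzA
import Cfsg.Agent.H6.SuzO
import Cfsg.Agent.H6.SuzK
/-! The presented Suzuki group: order, simplicity, rank 3 action. -/
set_option autoImplicit false
set_option maxRecDepth 100000
namespace CfH6.Suz
open CfH6 MulAction Cfsg.Spor
attribute [local instance] SuzA.act

theorem stab : SuzA.H = stabilizer SuzB.G 0 ∧ SuzA.H.index = 1782 := SuzA.stab SuzO.covT0

theorem card : Nat.card SuzB.G = 448345497600 := (SuzA.top SuzO.finG).1

theorem base : ∀ g : SuzB.G, (∀ b ∈ SuzA.bs, g • b = b) → g = 1 := (SuzA.top SuzO.finG).2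

theorem simple : IsSimpleGroup SuzB.G := by
  have := SuzO.finG.1
  refine simple_of stab.1 (by rw [stab.2]; decide) (SuzA.hmax stab.1 stab.2) base SuzA.hbs fun M hM h => ?_
  exact top_of_index (eq_top_of_collapse SuzB.el (n := 4) SuzB.hinv SuzB.hrel SuzB.htop M
    (pow_words SuzB.el h (by norm_num) (not_dvd_card card stab.2 (by decide)) 1 SuzA.ex (SuzA.hex base))
    (by decide +kernel) 1 fun ev' h1 h2 => SuzK.covers ev' ⊥ h1 h2 forall_nil)

theorem sub_eq : (Subgroup.closure ({Suz.a, Suz.b, Suz.c, Suz.d, Suz.e, Suz.f} : Set (FreeGroup Suz.Gen))).map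
    (PresentedGroup.mk (coxRelators Suz.edges ∪ {r | r ∈ Suz.extra})) = SuzA.H :=
  map_closure_eq _ SuzB.el SuzB.hinv SuzB.tr SuzB.hmk _ [Suz.a, Suz.b, Suz.c, Suz.d, Suz.e, Suz.f]
    (by intro r; simp) (by decide) (by decide +kernel)

end CfH6.Suz
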