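import Cfsg.Agent.OD.Pre
import Cfsg.Agent.H6.J2U
import Cfsg.Agent.H6.U43G
import Cfsg.Agent.H3.F4
/-! The presented group is `PSU₄(3)`. -/
set_option autoImplicit false
set_option maxRecDepth 100000
set_option Elab.async false
set_option linter.all false
namespace CfH6.U43M
open CfH6
open Matrix J2U

abbrev PM : MP := ⟨4, 12, 3, 2, 5, 43, 7, 2, 0⟩
def ms : List ℕ := [0x1001002002000001001002002000002001002001000001002002001002002002002002002001001001002001002, 0x2000000002000000001000000001000000000002000001001000002002001001002001000001001000001, 0x1002000000000000002000000001001000002000000002000002002001002002000002002000002002000000, 0x1001002002000001002002002000001001001002000001001001001001002002002001002001001001002001002, 0x2001000000001000001002000002002000001000001001000000001000001001000001000000000001000002]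
def sc : List ℕ := [0x1000000000000001000000000000001000000000000001, 0x2000000000000002000000000000002000000000000002, 0x1000000000000001000000000000001000000000000001000000000000000000000000000000000000000000000000, 0x2000000000000002000000000000002000000000000002000000000000000000000000000000000000000000000000]
def y1 : ℕ := 0x2001001000002002002001002001002001002000002000002001001002002002001000001001000001000001002000
def y2 : ℕ := 0x1001001001002001002000002001001001000002002000002002001000001002001001001001000002002000001000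
noncomputable abbrev sem : ℕ → Matrix (Fin 4) (Fin 4) F9 := PM.toM2 F9 (Equiv.refl (Fin 4)) ω

theorem D : Mdl PM.mm2 (fun _ => true) PM.one sem :=
  MP.mdl2 (P := PM) F9 (Equiv.refl (Fin 4)) (by decide) (by decide) (by decide +kernel)

theorem su_of (M : Matrix (Fin 4) (Fin 4) F9) (hd : M.det = 1)
    (h : Mᵀ * (M.map fun x => x ^ 3) = 1) :
    ∃ g, ((Cfsg.slToMat 4 F9).comp (Cfsg.SU 4 F9 3).subtype) g = M := by
  refine ⟨⟨⟨M, hd⟩, fun u v => ?_⟩, rfl⟩
  rw [show Cfsg.slToMat 4 F9 ⟨M, hd⟩ = M from rfl]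
  have a : ∀ x y : F9, (x + y) ^ 3 = x ^ 3 + y ^ 3 := by decide +kernel
  have e1 : ∀ w : Fin 4 → F9, (fun i => (M *ᵥ w) i ^ 3) = (M.map fun x => x ^ 3) *ᵥ fun i => w i ^ 3 := fun w => by
    ext1 i
    simp only [mulVec, dotProduct, Fin.sum_univ_four, a, mul_pow, map_apply]
  change (M *ᵥ u) ⬝ᵥ (fun i => (M *ᵥ v) i ^ 3) = u ⬝ᵥ fun i => v i ^ 3
  rw [e1, ← vecMul_transpose, ← dotProduct_mulVec, mulVec_mulVec, h, one_mulVec]

theorem hs : ∀ x < 5, ∃ g, ((Cfsg.slToMat 4 F9).comp (Cfsg.SU 4 F9 3).subtype) g = sem (lget ms 0 x) := by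
  have h1 : ∀ x < 5, (sem (lget ms 0 x))ᵀ * ((sem (lget ms 0 x)).map fun x => x ^ 3) = 1 := by decide +kernel
  have h2 : ∀ x < 5, (sem (lget ms 0 x)).det = 1 := by
    simp only [det_succ_row_zero (n := 3), det_fin_three]; decide +kernel
  exact fun x hx => su_of _ (h2 x hx) (h1 x hx)

theorem hz : ∀ Y ∈ sc, ∀ g, ((Cfsg.slToMat 4 F9).comp (Cfsg.SU 4 F9 3).subtype) g = sem Y →
    g ∈ Subgroup.center (Cfsg.SU 4 F9 3) := by
  have h1 : ∀ Y ∈ sc, sem Y = sem Y 0 0 • (1 : Matrix (Fin 4) (Fin 4) F9) := by decide +kernel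
  exact fun Y hY g hg => su_center g _ (hg.trans (h1 Y hY))

theorem iso9 : ∃ φ : U43B.G →* Cfsg.PSU 4 F9 3, Function.Bijective φ := by
  have := U43G.simple
  obtain ⟨φ, hφ⟩ := U43B.hhom _ (inv_of_rels (D.proj (fun _ _ => rfl) hs _ sc hz _ (by decide +kernel)))
    (D.proj (fun _ _ => rfl) hs _ sc hz _ (by decide +kernel))
  refine ⟨φ, bij_of_inj φ (inj_of_simple φ (g := U43B.el 0) ?_) ?_⟩
  · rw [hφ 0 (by decide)]
    exact D.not_center (fun _ _ => rfl) hs 0 2 y1 y2 (by decide +kernel) (by decide +kernel)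
  · rw [U43G.card, CfH2.card_PSU4_3 card_F9]
    exact ⟨Nat.finite_of_card_ne_zero (by rw [CfH2.card_PSU4_3 card_F9]; decide), le_rfl⟩

theorem iso (K : Type*) [Field K] [Fintype K] (hK : Fintype.card K = 9) : Nonempty (U43B.G ≃* Cfsg.PSU 4 K 3) := by
  obtain ⟨φ, hφ⟩ := iso9
  obtain ⟨e1⟩ := CfH3.su_equiv (FiniteField.ringEquivOfCardEq (card_F9.trans hK.symm) : F9 ≃+* K) 4 3
  exact ⟨(MulEquiv.ofBijective φ hφ).trans (CfH3.centerQuotEquiv e1)⟩
end CfH6.U43M
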