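import Cfsg.Agent.OD.Pre
import Cfsg.Agent.H6.U6A
import Cfsg.Agent.H6.U6K
import Cfsg.Agent.H6.U6O
/-! An abstract presentation: order and simplicity. -/
set_option autoImplicit false
set_option maxRecDepth 100000
namespace CfH6.U6G
open CfH6 MulAction
attribute [local instance] U6A.act

theorem stab : U6A.H = stabilizer U6B.G 0 ∧ U6A.H.index = 6336 := U6A.stab U6O.covT0

theorem card : Nat.card U6B.G = 9196830720 := (U6A.top U6O.finG).1

theorem base : ∀ g : U6B.G, (∀ b ∈ U6A.bs, g • b = b) → g = 1 := (U6A.top U6O.finG).2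

theorem simple : IsSimpleGroup U6B.G := by
  have := U6O.finG.1
  refine simple_of stab.1 (by rw [stab.2]; decide) (U6A.hmax stab.1 stab.2) base U6A.hbs fun M hM h => ?_
  exact top_of_index (eq_top_of_collapse U6B.el (n := 4) U6B.hinv U6B.hrel U6B.htop M
    (pow_words U6B.el h (by norm_num) (not_dvd_card card stab.2 (by decide)) 1 U6A.ex (U6A.hex base))
    (by decide +kernel) 1 fun ev' h1 h2 => U6K.covers ev' ⊥ h1 h2 forall_nil)

theorem nprime : ¬ (Nat.card U6B.G).Prime := by rw [card]; norm_num

end CfH6.U6G
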