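import Cfsg.Agent.OD.Pre
import Cfsg.Agent.H6.U6G
import Cfsg.Agent.H6.U6DO
import Cfsg.Agent.H6.U6DK
import Cfsg.Agent.H6.F22G
import Cfsg.Agent.H6.Iso2
import Cfsg.Agent.H6.Ord
/-! The double cover of `PSU₆(2)` inside `Fi22`. -/
set_option autoImplicit false
set_option maxRecDepth 100000
namespace CfH6.U6M
open CfH6 Matrix CfH3
attribute [local instance] F22A.act

abbrev PM : MP := ⟨6, 7, 2, 1, 4, 1, 1, 1, 1⟩
def ms : List ℕ := [0x8100000000000000020000100040800200001000000000000000204000000008000040010000000000000100000800000001000000002000800200000, 0x400102040800204080000400102040810200001020408000040800204080000408000040000004081020400000040800200080020008100000010004080, 0x102040000200081000008100000000204000020000000000010000000000000002040000200000000000100040000004080, 0x80000000000000000000000000400000000000000000020000000000000000080000008000000000004000000000000000000000001, 0x8102000010000000020000102000800200080020008100000000000001, 0x408100040800000081020000002040800000081000408100040810204080000000002040800204080020400102000810200080020000000040010204000,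 0x8002040000200081020400100000000200081020400100000810004000000408102040800204081000000002040810200081000008000040000200080, 0x408100000800200000020400100000800200000000000000000000000000000400100000000204000020000000000010200000000000002000000000001]
def sc : List ℕ := [0x20000000000010000000000008000000000004000000000002000000000001, 0x20000000000010000000000008000000000004000000000002000000000001000000000000000000000000000000000000000000000000000000000000000, 0x20000000000010000000000008000000000004000000000002000000000001020000000000010000000000008000000000004000000000002000000000001]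
def y1 : ℕ := 0x8100000800204080000408100000800200001020408000040810004001000008000040000004081020008002000800000001020008100000000004080
def y2 : ℕ := 0x400102040000200081020408102000810200001000400000000000004081000408000040000200081000400100000800200080000008000040810000081
def ω : F4 := ⟨0, 1⟩
noncomputable abbrev sem : ℕ → Matrix (Fin 6) (Fin 6) F4 := PM.toM2 F4 (Equiv.refl (Fin 6)) ω

theorem D : Mdl PM.mm2 (fun _ => true) PM.one sem :=
  MP.mdl2 (P := PM) F4 (Equiv.refl (Fin 6)) (by decide) (by decide) (by decide +kernel)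

theorem su_of {F : Type} [Field F] (h2 : (2 : F) = 0) (M : Matrix (Fin 6) (Fin 6) F) (h1 : M * M = 1)
    (h : ∀ i j, M i j ^ 2 = M j i) :
    ∃ g, ((Cfsg.slToMat 6 F).comp (Cfsg.SU 6 F 2).subtype) g = M := by
  have : CharP F 2 := CharTwo.of_one_ne_zero_of_two_eq_zero one_ne_zero h2
  have hd : M.det = 1 := by
    have := congrArg det h1
    rw [det_mul, det_one] at this
    have h3 : (M.det - 1) ^ 2 = 0 := by linear_combination this + (1 - M.det) * h2
    exact sub_eq_zero.mp (pow_eq_zero_iff (by norm_num) |>.mp h3)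
  refine ⟨⟨⟨M, hd⟩, fun u v => ?_⟩, rfl⟩
  rw [show Cfsg.slToMat 6 F ⟨M, hd⟩ = M from rfl]
  have e1 : ∀ w : Fin 6 → F, (fun i => (M *ᵥ w) i ^ 2) = Mᵀ *ᵥ fun i => w i ^ 2 := fun w => by
    ext i
    simp only [mulVec, dotProduct, CharTwo.sum_sq, mul_pow, h, transpose_apply]
  change (M *ᵥ u) ⬝ᵥ (fun i => (M *ᵥ v) i ^ 2) = u ⬝ᵥ fun i => v i ^ 2
  rw [e1, ← vecMul_transpose, ← dotProduct_mulVec, mulVec_mulVec, ← transpose_mul, h1, transpose_one, one_mulVec]

theorem hs : ∀ x < 8, ∃ g, ((Cfsg.slToMat 6 F4).comp (Cfsg.SU 6 F4 2).subtype) g = sem (lget ms 0 x) := by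
  have U : UOk PM.mm2 (fun _ => true) PM.one sem ms U6B.il 8 := D.uok (by decide +kernel)
  have h1 : ∀ x < 8, ∀ i j, sem (lget ms 0 x) i j ^ 2 = sem (lget ms 0 x) j i := by decide +kernel
  have h2 : ∀ x < 8, U6B.il.getD x 0 = x := by decide
  intro x hx
  refine su_of (by decide) _ ?_ (h1 x hx)
  have := U.inv x hx
  rw [h2 x hx] at this
  rw [← U.val x hx, ← Units.val_mul, mul_eq_one_iff_eq_inv.mpr this, Units.val_one]

theorem hz : ∀ Y ∈ sc, ∀ g, ((Cfsg.slToMat 6 F4).comp (Cfsg.SU 6 F4 2).subtype) g = sem Y →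
    g ∈ Subgroup.center (Cfsg.SU 6 F4 2) := by
  have h1 : ∀ Y ∈ sc, sem Y = sem Y 0 0 • (1 : Matrix (Fin 6) (Fin 6) F4) := by decide +kernel
  exact fun Y hY g hg => su_center g _ (hg.trans (h1 Y hY))

theorem iso : ∃ φ : U6B.G →* Cfsg.PSU 6 F4 2, Function.Bijective φ := by
  have := U6G.simple
  obtain ⟨φ, hφ⟩ := U6B.hhom _ (inv_of_rels (D.proj (fun _ _ => rfl) hs _ sc hz _ (by decide +kernel)))
    (D.proj (fun _ _ => rfl) hs _ sc hz _ (by decide +kernel))
  refine ⟨φ, bij_of_inj φ (inj_of_simple φ (g := U6B.el 0) ?_) ?_⟩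
  · rw [hφ 0 (by decide)]
    exact D.not_center (fun _ _ => rfl) hs 0 1 y1 y2 (by decide +kernel) (by decide +kernel)
  · rw [U6G.card]
    exact card_PSU62 rfl ω (by decide) (by decide)

theorem perfect : commutator U6DB.G = ⊤ :=
  top_of_index (eq_top_of_collapse U6DB.el (n := 4) U6DB.hinv U6DB.hrel U6DB.htop _
    (comm_words_mem U6DB.el U6DB.hinv [(1, 2), (2, 3), (2, 6), (3, 4), (4, 5), (6, 7), (4, 8)]
      (by decide)) (by decide +kernel) 1 fun ev' h1 h2 => U6DK.covers ev' ⊥ h1 h2 forall_nil)

theorem cover : Cfsg.IsNonsplitDoubleCover F22A.H (Cfsg.PSU 6 F4 2) := by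
  have := U6DO.finG.1
  have := U6G.simple
  obtain ⟨φ, hφ⟩ := iso
  obtain ⟨ρ, hρ⟩ := U6DB.hhom F22A.el1 (inv_of_rels (F22A.L1.rels_one' F22G.base _ (by decide +kernel)))
    (F22A.L1.rels_one' F22G.base U6DB.rels (by decide +kernel))
  obtain ⟨ψ, hψ⟩ := U6DB.hhom (byW U6B.el [[], [0], [1], [2], [3], [4], [5], [6], [7]])
    (byW_inv U6B.el (n := 4) U6B.hinv U6B.hrel (by decide +kernel))
    (byW_rels U6B.el (n := 4) U6B.hinv U6B.hrel (by decide +kernel))
  have hH : Nat.card F22A.H = 18393661440 := card_of_index F22G.card F22G.stab.2 (by decide)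
  have hi := equiv_of_card hρ U6DB.htop U6DO.finG hH.ge
  have hr : ρ.range = F22A.H := range_hom hρ U6DB.htop
  have hs : Function.Surjective ψ := surj_of_gens hψ U6DB.htop (top_le_iff.mp (U6B.htop.ge.trans
    ((gensub_id U6B.el (σ := [[0], [1], [2], [3], [4], [5], [6], [7]]) (by decide)).ge.trans
      (gensub_le_of_subsIn U6B.el (by decide)))))
  have e := MulEquiv.ofBijective φ hφ
  have := e.isSimpleGroup_congr.mp this
  refine double_cover ρ hi hr (φ.comp ψ) (hφ.2.comp hs) (center_bot ?_) ?_ perfect
  · rw [← Nat.card_congr e.toEquiv]; exact U6G.nprime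
  · rw [← Nat.card_congr e.toEquiv, U6G.card, Nat.card_congr (MonoidHom.ofInjective hi).toEquiv, hr, hH]

end CfH6.U6M
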