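import Cfsg.Agent.OD.Pre
import Cfsg.Agent.H9.Basic

/-! A transfer lemma: an involution centralizing a `2`-subgroup `J` that fixes a single coset of `T`
lies in the commutator subgroup of `T`. -/

set_option autoImplicit false
open Subgroup MulAction

namespace CfH6.WTr

variable {G : Type*} [Group G] (T : Subgroup G)

noncomputable def c (g : G) (q : G ⧸ T) : T :=
  ⟨(g • q).out⁻¹ * g * q.out, by
    rw [mul_assoc, ← QuotientGroup.eq, QuotientGroup.out_eq', ← smul_eq_mul, MulAction.Quotient.coe_smul_out]⟩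

theorem c_mul (g h : G) (q : G ⧸ T) : c T (g * h) q = c T g (h • q) * c T h q :=
  Subtype.ext (by simp only [c, coe_mul, mul_smul]; group)

theorem c_one (q : G ⧸ T) : c T 1 q = 1 := Subtype.ext (by simp [c])

variable {T}

theorem mem_commutator [Finite G] (hG : commutator G = ⊤) {J : Subgroup G} (hJ : IsPGroup 2 J) (hJT : J ≤ T)
    (hw : ∀ g : G, (∀ x ∈ J, g⁻¹ * x * g ∈ T) → g ∈ T) {v : G} (hv : v ∈ T) (h2 : v * v = 1)
    (hc : ∀ x ∈ J, x * v = v * x) : v ∈ ⁅T, T⁆ := by
  classical
  haveI := Fintype.ofFinite (G ⧸ T)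
  haveI : Fact (Nat.Prime 2) := ⟨Nat.prime_two⟩
  let φ : T →* Abelianization T := Abelianization.of
  let F : G →* Abelianization T := MonoidHom.mk' (fun g => ∏ q, φ (c T g q)) fun g h => by
    simp only [c_mul, map_mul, Finset.prod_mul_distrib]
    congr 1
    exact Equiv.prod_comp (MulAction.toPerm h) fun q => φ (c T g q)
  have h1 : F v = 1 := Abelianization.commutator_subset_ker F (hG ▸ mem_top v)
  set f : G ⧸ T → Abelianization T := fun q => φ (c T v q) with hf
  have fi : ∀ q, f q * f (v • q) = 1 := fun q => by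
    rw [mul_comm, hf, ← map_mul, ← c_mul, h2, c_one, map_one]
  have fx : ∀ x ∈ J, ∀ q, v • q = q → f (x • q) = f q := fun x hx q hq => by
    have := congrArg (fun g => φ (c T g q)) (hc x hx)
    simp only [c_mul, map_mul, hq] at this
    rw [mul_comm] at this
    exact (mul_right_cancel this).symm
  let q0 : G ⧸ T := ((1 : G) : G ⧸ T)
  have s0 : ∀ t ∈ T, t • q0 = q0 := fun t ht => by
    change ((t * 1 : G) : G ⧸ T) = _
    rw [QuotientGroup.eq]; simpa using ht
  have o0 : q0.out ∈ T := by
    have := QuotientGroup.eq.1 (QuotientGroup.out_eq' q0).symm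
    simpa using this
  have f0 : f q0 = φ ⟨v, hv⟩ := by
    have : c T v q0 = (⟨q0.out, o0⟩ : T)⁻¹ * ⟨v, hv⟩ * ⟨q0.out, o0⟩ := Subtype.ext (by simp [c, s0 v hv])
    simp only [hf, this, map_mul, map_inv]
    rw [mul_right_comm, inv_mul_cancel, one_mul]
  have e1 : ∏ q with ¬ v • q = q, f q = 1 := by
    refine Finset.prod_involution (fun q _ => v • q) (fun q _ => fi q) (fun q hq _ => ?_) (fun q hq => ?_)
      fun q _ => ?_
    · exact (Finset.mem_filter.1 hq).2
    · refine Finset.mem_filter.2 ⟨Finset.mem_univ _, fun e => (Finset.mem_filter.1 hq).2 ?_⟩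
      rw [← mul_smul, h2, one_smul] at e; exact e.symm
    · rw [← mul_smul, h2, one_smul]
  have e2 : ∏ q ∈ (Finset.univ.filter fun q => v • q = q).erase q0, f q = 1 := by
    rw [Finset.prod_comp (fun a => a) f]
    refine Finset.prod_eq_one fun a ha => ?_
    obtain ⟨q, hq, rfl⟩ := Finset.mem_image.1 ha
    have hq' := (Finset.mem_filter.1 (Finset.mem_erase.1 hq).2).2
    have sq : f q ^ 2 = 1 := by have := fi q; rwa [hq', ← sq] at this
    let Y : SubMulAction J (G ⧸ T) :=
      { carrier := {r | (r ≠ q0 ∧ v • r = r) ∧ f r = f q}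
        smul_mem' := fun x r hr => by
          refine ⟨⟨fun e => hr.1.1 ?_, ?_⟩, (fx x x.2 r hr.1.2).trans hr.2⟩
          · have e' : (x : G) • r = q0 := e
            rw [← inv_smul_smul (x : G) r, e', s0 _ (T.inv_mem (hJT x.2))]
          · change v • (x : G) • r = (x : G) • r
            rw [← mul_smul, ← hc x x.2, mul_smul, hr.1.2] }
    have hm := hJ.card_modEq_card_fixedPoints Y
    have hz : Nat.card (fixedPoints J Y) = 0 := by
      rw [Nat.card_eq_zero]; left
      refine ⟨fun r => r.1.2.1.1 ?_⟩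
      have : (r.1 : G ⧸ T).out ∈ T := hw _ fun x hx => by
        have e : x • (r.1 : G ⧸ T) = r.1 := congrArg Subtype.val (r.2 ⟨x, hx⟩)
        have := (c T x r.1).2
        simpa only [c, e] using this
      rw [← QuotientGroup.out_eq' (r.1 : G ⧸ T), eq_comm, QuotientGroup.eq]; simpa using this
    rw [hz] at hm
    have : (((Finset.univ.filter fun q => v • q = q).erase q0).filter fun r => f r = f q).card = Nat.card Y := by
      rw [← Fintype.card_coe, ← Nat.card_eq_fintype_card]
      exact Nat.card_congr (Equiv.subtypeEquivRight fun r => by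
        simp only [Finset.mem_filter, Finset.mem_erase, Finset.mem_univ, true_and]; rfl)
    obtain ⟨k, hk⟩ := (Nat.modEq_zero_iff_dvd).1 hm
    rw [this, hk, pow_mul, sq, one_pow]
  have e3 : F v = f q0 := by
    change ∏ q, f q = _
    rw [← Finset.prod_filter_mul_prod_filter_not Finset.univ (fun q => v • q = q), e1, mul_one,
      ← Finset.mul_prod_erase (Finset.univ.filter fun q => v • q = q) f
        (Finset.mem_filter.2 ⟨Finset.mem_univ q0, s0 v hv⟩), e2, mul_one]
  rw [e3, f0] at h1
  have : (⟨v, hv⟩ : T) ∈ commutator T := by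
    rw [← Abelianization.ker_of]; exact h1
  rw [← map_subtype_commutator]
  exact ⟨_, this, rfl⟩

open CfH9 in
theorem tr [Finite G] (hp : commutator G = ⊤) (T : Sylow 2 G) {J : Subgroup G} (hJ : J ≤ T)
    (hw : ∀ g, cj g J ≤ T → g ∈ (T : Subgroup G)) {v : G} (hv : v ∈ (T : Subgroup G)) (hc : v ∈ Cz(J))
    (h2 : v * v = 1) : v ∈ ⁅(T : Subgroup G), (T : Subgroup G)⁆ := by
  refine mem_commutator hp (T.2.to_le hJ) hJ (fun g hg => ?_) hv h2 fun x hx => mem_centralizer_iff.1 hc x hx
  refine (T : Subgroup G).inv_mem_iff.1 (hw g⁻¹ ?_)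
  rintro _ ⟨x, hx, rfl⟩
  simpa using hg x hx

end CfH6.WTr
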